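import Mathlib
import Cfsg.Agent.OddOrderLocal.Thm34
import Cfsg.Agent.Lib.CoprimeCommutator
import Cfsg.Agent.Lib.PGroupCoprimeAction

/-!
# Basic tools for coprime fixed point free action of `p`-groups

* `Chief`, `isNilpotent_of_chief`: a normal subgroup centralising all chief factors inside it is nilpotent.
* `IsMin` : minimal normal subgroups; they are elementary abelian in a solvable group.
* `Cfg p G A` : `A` is a `p`-group acting fixed point freely on the solvable normal `p'`-subgroup `G`,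
  `G A` the whole group; passes to quotients.
* `exists_rep` : an elementary abelian group with operators yields a representation over an algebraically
  closed field.
-/

set_option autoImplicit false

namespace Cfsg.Agent.H452.Base

open Module
open scoped TensorProduct commutatorElement
open Cfsg.Agent.OddOrderLocal.Thm34 (bc bc_apply bc_tmul eq_of_bc elemRep elemRep_apply)
open Cfsg.Agent.Lib.CoprimeCommutator

universe u v

section chief

variable {G : Type*} [Group G]

/-- `V < U` is a chief factor of `G`. -/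
def Chief (U V : Subgroup G) : Prop :=
  U.Normal ∧ V.Normal ∧ V < U ∧ ∀ W : Subgroup G, W.Normal → V ≤ W → W ≤ U → W = V ∨ W = U

/-- The iterated commutator `⁅⁅U, E⁆, E, …⁆`. -/
def it (E : Subgroup G) : ℕ → Subgroup G → Subgroup G
  | 0, U => U
  | n + 1, U => it E n ⁅U, E⁆

theorem it_mono (E : Subgroup G) (n : ℕ) : Monotone (it E n) := by
  induction n with
  | zero => exact fun _ _ h => h
  | succ n ih => exact fun U V h => ih (Subgroup.commutator_mono h le_rfl)

theorem lcs_eq_it (E : Subgroup G) (n k : ℕ) :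
    E.lowerCentralSeries (k + n) = it E n (E.lowerCentralSeries k) := by
  induction n generalizing k with
  | zero => rfl
  | succ n ih =>
    have : k + (n + 1) = (k + 1) + n := by ring
    rw [this, ih]
    rfl

theorem exists_it_eq_bot [Finite G] (F E : Subgroup G)
    (h : ∀ U V : Subgroup G, Chief U V → U ≤ F → ⁅U, E⁆ ≤ V) (c : ℕ) :
    ∀ U : Subgroup G, Nat.card U = c → U.Normal → U ≤ F → ∃ n, it E n U = ⊥ := by
  induction c using Nat.strong_induction_on with
  | _ c ih =>
    intro U hUc hU hUF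
    by_cases hb : U = ⊥
    · exact ⟨0, hb⟩
    obtain ⟨V, hV⟩ : ∃ V : Subgroup G, Maximal (fun V : Subgroup G => V.Normal ∧ V < U) V :=
      (Set.toFinite {V : Subgroup G | V.Normal ∧ V < U}).exists_maximal
        ⟨⊥, inferInstance, bot_lt_iff_ne_bot.2 hb⟩
    have hch : Chief U V := by
      refine ⟨hU, hV.prop.1, hV.prop.2, ?_⟩
      intro W hW hVW hWU
      by_cases hWU' : W = U
      · exact Or.inr hWU'
      · left
        exact le_antisymm (hV.le_of_ge ⟨hW, lt_of_le_of_ne hWU hWU'⟩ hVW) hVW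
    obtain ⟨n, hn⟩ := ih (Nat.card V) (by
      rw [← hUc]
      exact Set.Finite.card_lt_card (Set.toFinite _) hV.prop.2) V rfl hV.prop.1
        (hV.prop.2.le.trans hUF)
    refine ⟨n + 1, ?_⟩
    rw [eq_bot_iff, ← hn]
    exact it_mono E n (h U V hch hUF)

/-- A normal subgroup centralising all chief factors inside it is nilpotent. -/
theorem isNilpotent_of_chief [Finite G] (L : Subgroup G) (hL : L.Normal)
    (h : ∀ U V : Subgroup G, Chief U V → U ≤ L → ⁅U, L⁆ ≤ V) : Group.IsNilpotent L := by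
  obtain ⟨n, hn⟩ := exists_it_eq_bot L L h _ L rfl hL le_rfl
  rw [Subgroup.isNilpotent_iff_lowerCentralSeries]
  refine ⟨0 + n, ?_⟩
  rw [lcs_eq_it]
  exact hn

/-- Minimal normal subgroups. -/
def IsMin (W : Subgroup G) : Prop :=
  W.Normal ∧ W ≠ ⊥ ∧ ∀ X : Subgroup G, X.Normal → X ≤ W → X = ⊥ ∨ X = W

theorem Chief.isMin {U V : Subgroup G} (h : Chief U V) [hV : V.Normal] :
    IsMin (U.map (QuotientGroup.mk' V)) := by
  obtain ⟨hU, _, hlt, hch⟩ := h
  have hs := QuotientGroup.mk'_surjective V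
  refine ⟨hU.map _ hs, ?_, ?_⟩
  · intro hb
    rw [Subgroup.map_eq_bot_iff, QuotientGroup.ker_mk'] at hb
    exact hlt.not_ge hb
  · intro X hX hXU
    have h1 : V ≤ X.comap (QuotientGroup.mk' V) := by
      intro v hv
      rw [Subgroup.mem_comap]
      have : QuotientGroup.mk' V v = 1 := (QuotientGroup.eq_one_iff v).2 hv
      rw [this]; exact X.one_mem
    have h2 : X.comap (QuotientGroup.mk' V) ≤ U := by
      have h3 : X.comap (QuotientGroup.mk' V) ≤ (U.map (QuotientGroup.mk' V)).comap (QuotientGroup.mk' V) :=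
        Subgroup.comap_mono hXU
      rw [Subgroup.comap_map_eq, QuotientGroup.ker_mk', sup_eq_left.2 hlt.le] at h3
      exact h3
    rcases hch _ (hX.comap _) h1 h2 with h4 | h4
    · left
      rw [← Subgroup.map_comap_eq_self_of_surjective hs X, h4, Subgroup.map_eq_bot_iff,
        QuotientGroup.ker_mk']
    · right
      rw [← Subgroup.map_comap_eq_self_of_surjective hs X, h4]

/-- A solvable minimal normal subgroup is elementary abelian. -/
theorem IsMin.elementary [Finite G] {W : Subgroup G} (h : IsMin W) (hs : Group.IsSolvable W) :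
    (∀ a ∈ W, ∀ b ∈ W, a * b = b * a) ∧ ∃ q : ℕ, q.Prime ∧ ∀ a ∈ W, a ^ q = 1 := by
  obtain ⟨hn, hne, hmin⟩ := h
  have hnt : Nontrivial W := (Subgroup.nontrivial_iff_ne_bot W).2 hne
  have hcomm : ∀ a ∈ W, ∀ b ∈ W, a * b = b * a := by
    have h1 : ⁅W, W⁆ = ⊥ := by
      rcases hmin ⁅W, W⁆ inferInstance (Subgroup.commutator_le_self W) with h | h
      · exact h
      · exfalso
        have h2 := Group.IsSolvable.commutator_lt_top_of_nontrivial W
        apply h2.ne
        rw [commutator_def]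
        apply Subgroup.map_injective W.subtype_injective
        rw [Subgroup.map_commutator, ← MonoidHom.range_eq_map, Subgroup.range_subtype, h]
    intro a ha b hb
    rw [Subgroup.commutator_eq_bot_iff_le_centralizer] at h1
    exact Subgroup.mem_centralizer_iff.1 (h1 hb) a ha
  refine ⟨hcomm, ?_⟩
  have hc1 : Nat.card W ≠ 1 := by
    intro h
    exact hne (Subgroup.card_eq_one.1 h)
  obtain ⟨q, hq, hqd⟩ := Nat.exists_prime_and_dvd hc1
  refine ⟨q, hq, ?_⟩
  let X : Subgroup G :=
    { carrier := {a | a ∈ W ∧ a ^ q = 1}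
      mul_mem' := by
        rintro a b ⟨ha, ha'⟩ ⟨hb, hb'⟩
        refine ⟨W.mul_mem ha hb, ?_⟩
        rw [(show Commute a b from hcomm a ha b hb).mul_pow, ha', hb', one_mul]
      one_mem' := ⟨W.one_mem, one_pow _⟩
      inv_mem' := by
        rintro a ⟨ha, ha'⟩
        exact ⟨W.inv_mem ha, by rw [inv_pow, ha', inv_one]⟩ }
  have hX : X.Normal := by
    constructor
    rintro a ⟨ha, ha'⟩ g
    exact ⟨hn.conj_mem a ha g, by rw [conj_pow, ha', mul_one, mul_inv_cancel]⟩
  rcases hmin X hX (fun a ha => ha.1) with h1 | h1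
  · exfalso
    have : Fact q.Prime := ⟨hq⟩
    obtain ⟨w, hw⟩ := exists_prime_orderOf_dvd_card' (G := W) q hqd
    have h2 : (w : G) ∈ X := ⟨w.2, by
      have := pow_orderOf_eq_one w
      rw [hw] at this
      exact_mod_cast congrArg Subtype.val this⟩
    rw [h1, Subgroup.mem_bot] at h2
    have h3 : w = 1 := Subtype.ext h2
    rw [h3, orderOf_one] at hw
    exact hq.one_lt.ne hw
  · intro a ha
    rw [← h1] at ha
    exact ha.2

end chief

section sylow

variable {G : Type*} [Group G] [Finite G]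

/-- A subgroup of `L` containing a Sylow `r`-subgroup of `L` for every prime `r` is `L`. -/
theorem eq_of_sylow_le {X L : Subgroup G} (hX : X ≤ L)
    (h : ∀ r : ℕ, r.Prime → ∃ T : Sylow r L, (T : Subgroup L).map L.subtype ≤ X) : X = L := by
  apply le_antisymm hX
  rw [← Subgroup.subgroupOf_eq_top, ← Subgroup.index_eq_one]
  by_contra hne
  obtain ⟨r, hr, hrd⟩ := Nat.exists_prime_and_dvd hne
  obtain ⟨T, hT⟩ := h r hr
  have : Fact r.Prime := ⟨hr⟩
  have h1 : (T : Subgroup L) ≤ X.subgroupOf L := by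
    intro t ht
    exact hT ⟨t, ht, rfl⟩
  exact T.not_dvd_index (hrd.trans (Subgroup.index_dvd_of_le h1))

end sylow

section cfg

/-- `A` is a `p`-group acting fixed point freely on the solvable normal `p'`-subgroup `G` and `G A` is the
whole group. -/
structure Cfg (p : ℕ) {Γ : Type u} [Group Γ] (G A : Subgroup Γ) : Prop where
  normal : G.Normal
  gen : G ⊔ A = ⊤
  isp : IsPGroup p A
  ndvd : ¬ p ∣ Nat.card G
  fix : ∀ g ∈ G, (∀ a ∈ A, a * g = g * a) → g = 1
  sol : Group.IsSolvable G

variable {p : ℕ} {Γ : Type u} [Group Γ] [Finite Γ] {G A : Subgroup Γ}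

omit [Finite Γ] in
theorem Cfg.le_normalizer (h : Cfg p G A) (B : Subgroup Γ) : B ≤ Subgroup.normalizer (G : Set Γ) := by
  have := h.normal
  rw [Subgroup.normalizer_eq_top_iff.2 this]; exact le_top

/-- Fixed points of a `p`-group in a section: if `A` has no fixed points in `G` then it has none modulo an
invariant subgroup `N`. -/
theorem mem_of_fixed_mod [Fact p.Prime] {G A N : Subgroup Γ} (hA : IsPGroup p A)
    (hfix : ∀ g ∈ G, (∀ a ∈ A, a * g = g * a) → g = 1) (hNG : N ≤ G)
    (hpN : ¬ p ∣ Nat.card N) (hAN : A ≤ Subgroup.normalizer (N : Set Γ)) {g : Γ} (hg : g ∈ G)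
    (h : ∀ a ∈ A, g⁻¹ * (a * g * a⁻¹) ∈ N) : g ∈ N := by
  obtain ⟨c, hc, hgc⟩ := exists_fixed_in_coset p A N hA hAN hpN g h
  have hcG : c ∈ G := by
    have h1 : c = g * (g⁻¹ * c) := by group
    rw [h1]; exact G.mul_mem hg (hNG hgc)
  have h1 : c = 1 := hfix c hcG (fun a ha => Subgroup.mem_centralizer_iff.1 hc a ha)
  rw [h1, mul_one] at hgc
  exact (N.inv_mem_iff).1 hgc

theorem Cfg.map [Fact p.Prime] (h : Cfg p G A) (N : Subgroup Γ) [hN : N.Normal] (hNG : N ≤ G) :
    Cfg p (G.map (QuotientGroup.mk' N)) (A.map (QuotientGroup.mk' N)) where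
  normal := h.normal.map _ (QuotientGroup.mk'_surjective N)
  gen := by
    rw [← Subgroup.map_sup, h.gen, Subgroup.map_top_of_surjective _ (QuotientGroup.mk'_surjective N)]
  isp := h.isp.map _
  ndvd := fun hd => h.ndvd (hd.trans (Subgroup.card_map_dvd G _))
  fix := by
    rintro _ ⟨g, hg, rfl⟩ hfix
    refine (QuotientGroup.eq_one_iff g).2 ?_
    refine mem_of_fixed_mod h.isp h.fix hNG (fun hd => h.ndvd (hd.trans (Subgroup.card_dvd_of_le hNG)))
      (by rw [Subgroup.normalizer_eq_top_iff.2 hN]; exact le_top) hg ?_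
    intro a ha
    have h1 := hfix (QuotientGroup.mk' N a) ⟨a, ha, rfl⟩
    rw [← QuotientGroup.eq]
    show QuotientGroup.mk' N g = QuotientGroup.mk' N (a * g * a⁻¹)
    rw [map_mul, map_mul, h1, map_inv, mul_inv_cancel_right]
  sol := by
    have := h.sol
    exact Group.isSolvable_of_surjective ((QuotientGroup.mk' N).subgroupMap_surjective G)

theorem coprime_of_isPGroup [hp : Fact p.Prime] {A : Subgroup Γ} (hA : IsPGroup p A) {n : ℕ} (hn : ¬ p ∣ n) :
    (Nat.card A).Coprime n := by
  obtain ⟨k, hk⟩ := IsPGroup.iff_card.1 hA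
  rw [hk]
  exact Nat.Coprime.pow_left _ ((Nat.Prime.coprime_iff_not_dvd hp.out).2 hn)

omit [Finite Γ] in
/-- `⁅G, D⁆` is normal. -/
theorem Cfg.commutator_normal (h : Cfg p G A) {D : Subgroup Γ}
    (hAD : A ≤ Subgroup.normalizer (D : Set Γ)) : (⁅G, D⁆ : Subgroup Γ).Normal := by
  rw [← Subgroup.normalizer_eq_top_iff, eq_top_iff, ← h.gen]
  apply sup_le (left_le_normalizer_commutator G D)
  have hconj : ∀ a ∈ A, ∀ x ∈ (⁅G, D⁆ : Subgroup Γ), a * x * a⁻¹ ∈ (⁅G, D⁆ : Subgroup Γ) := by
    intro a ha x hx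
    have h1 : a * x * a⁻¹ ∈ (⁅G, D⁆ : Subgroup Γ).map (MulAut.conj a).toMonoidHom := ⟨x, hx, rfl⟩
    rw [Subgroup.map_commutator] at h1
    refine Subgroup.commutator_mono ?_ ?_ h1
    · rintro _ ⟨g, hg, rfl⟩
      exact h.normal.conj_mem g hg a
    · rintro _ ⟨d, hd, rfl⟩
      exact (Subgroup.mem_normalizer_iff.1 (hAD ha) d).1 hd
  intro a ha
  rw [Subgroup.mem_normalizer_iff]
  intro x
  refine ⟨hconj a ha x, fun hx => ?_⟩
  have h2 := hconj a⁻¹ (A.inv_mem ha) _ hx
  have h1 : a⁻¹ * (a * x * a⁻¹) * a⁻¹⁻¹ = x := by group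
  rwa [h1] at h2

theorem Cfg.commutator_commutator [Fact p.Prime] (h : Cfg p G A) {D : Subgroup Γ} (hD : D ≤ A) :
    ⁅⁅G, D⁆, D⁆ = ⁅G, D⁆ :=
  commutator_commutator_eq D G (h.le_normalizer D)
    (coprime_of_isPGroup (h.isp.to_le hD) h.ndvd)

end cfg

section rep

theorem exists_rep_aux {G : Type u} [Group G] [Finite G] {W : Type u} [CommGroup W] [Finite W] (q : ℕ)
    [hq : Fact q.Prime] [Module (ZMod q) (Additive W)] (κ : G →* MulAut W) (A : Subgroup G)
    (hA : ¬ q ∣ Nat.card A) (hfix : ∀ w, (∀ a ∈ A, κ a w = w) → w = 1) :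
    ∃ (F : Type) (_ : Field F) (_ : IsAlgClosed F) (V : Type u) (_ : AddCommGroup V) (_ : Module F V)
      (_ : FiniteDimensional F V) (ρ : Representation F G V),
      (∀ n : ℕ, ¬ q ∣ n → (n : F) ≠ 0) ∧ (∀ g h, ρ g = ρ h → κ g = κ h) ∧
      (∀ v, (∀ a ∈ A, ρ a v = v) → v = 0) := by
  classical
  have hfinA : Finite (Additive W) := inferInstanceAs (Finite W)
  have hfd : FiniteDimensional (ZMod q) (Additive W) := Module.Finite.of_finite
  have hqF : ∀ n : ℕ, ¬ q ∣ n → (n : ZMod q) ≠ 0 := by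
    intro n hn h
    exact hn ((ZMod.natCast_eq_zero_iff n q).1 h)
  have hcast : ∀ n : ℕ, (n : ZMod q) ≠ 0 → (n : AlgebraicClosure (ZMod q)) ≠ 0 := by
    intro n hn h
    apply hn
    have h1 : algebraMap (ZMod q) (AlgebraicClosure (ZMod q)) (n : ZMod q) = 0 := by rw [map_natCast, h]
    exact (map_eq_zero _).1 h1
  have hfd' : FiniteDimensional (AlgebraicClosure (ZMod q))
      (AlgebraicClosure (ZMod q) ⊗[ZMod q] (Additive W)) :=
    Module.Finite.base_change (ZMod q) (AlgebraicClosure (ZMod q)) (Additive W)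
  refine ⟨AlgebraicClosure (ZMod q), inferInstance, inferInstance,
    AlgebraicClosure (ZMod q) ⊗[ZMod q] Additive W, TensorProduct.addCommGroup,
    TensorProduct.leftModule, hfd',
    bc (AlgebraicClosure (ZMod q)) (elemRep q κ), fun n hn => hcast n (hqF n hn), ?_, ?_⟩
  · intro g h hgh
    have h1 := eq_of_bc hgh
    ext w
    exact LinearMap.congr_fun h1 (Additive.ofMul w)
  · intro v hv
    have := Fintype.ofFinite A
    have hsum : ∑ a : A, elemRep q κ (a : G) = 0 := by
      ext w
      rw [LinearMap.sum_apply]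
      apply hfix (Additive.toMul (∑ a : A, elemRep q κ (a : G) w))
      intro b hb
      have h1 : elemRep q κ b (∑ a : A, elemRep q κ (a : G) w) = ∑ a : A, elemRep q κ (a : G) w := by
        rw [map_sum]
        apply Fintype.sum_equiv (Equiv.mulLeft (⟨b, hb⟩ : A))
        intro a
        rw [← End.mul_apply, ← map_mul]
        rfl
      exact h1
    have hsum' : ∑ a : A, bc (AlgebraicClosure (ZMod q)) (elemRep q κ) (a : G) = 0 := by
      have h1 := congrArg (Module.End.baseChangeHom (ZMod q) (AlgebraicClosure (ZMod q)) (Additive W)) hsum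
      rw [map_sum, map_zero] at h1
      exact h1
    have h1 := LinearMap.congr_fun hsum' v
    rw [LinearMap.sum_apply] at h1
    have h2 : ∀ a : A, bc (AlgebraicClosure (ZMod q)) (elemRep q κ) (a : G) v = v := fun a => hv a a.2
    simp only [h2, Finset.sum_const, LinearMap.zero_apply, Finset.card_univ,
      ← Nat.card_eq_fintype_card] at h1
    rw [← Nat.cast_smul_eq_nsmul (AlgebraicClosure (ZMod q))] at h1
    rcases smul_eq_zero.1 h1 with h3 | h3
    · exact absurd h3 (hcast _ (hqF _ hA))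
    · exact h3

/-- An elementary abelian group `W` with operators, on which `A` has no fixed points, yields a
representation over an algebraically closed field without vectors fixed by `A`. -/
theorem exists_rep {G : Type u} [Group G] [Finite G] {W : Type u} [CommGroup W] [Finite W] (q : ℕ)
    [hq : Fact q.Prime] (hW : ∀ a : W, a ^ q = 1) (κ : G →* MulAut W) (A : Subgroup G)
    (hA : ¬ q ∣ Nat.card A) (hfix : ∀ w, (∀ a ∈ A, κ a w = w) → w = 1) :
    ∃ (F : Type) (_ : Field F) (_ : IsAlgClosed F) (V : Type u) (_ : AddCommGroup V) (_ : Module F V)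
      (_ : FiniteDimensional F V) (ρ : Representation F G V),
      (∀ n : ℕ, ¬ q ∣ n → (n : F) ≠ 0) ∧ (∀ g h, ρ g = ρ h → κ g = κ h) ∧
      (∀ v, (∀ a ∈ A, ρ a v = v) → v = 0) :=
  @exists_rep_aux G _ _ W _ _ q _ (AddCommGroup.zmodModule (by
    intro a
    exact hW a.toMul)) κ A hA hfix

end rep

end Cfsg.Agent.H452.Base
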