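import Mathlib
import Cfsg.Agent.H452.Red

/-!
# `2 ^ n - 1 = s ^ d` and a bounded reduction to irreducible modules
-/

set_option autoImplicit false

namespace Cfsg.Agent.H452.PowTwo

open Module
open Cfsg.Agent.H452.Red

universe u

theorem odd_geom {s : ℕ} (hs : Odd s) (e : ℕ) :
    ∃ q : ℕ, s ^ (2 * e + 1) + 1 = (s + 1) * q ∧ Odd q ∧ (1 ≤ e → 2 ≤ s → 2 ≤ q) := by
  induction e with
  | zero => exact ⟨1, by ring, odd_one, fun h => absurd h (by norm_num)⟩
  | succ e ih =>
    obtain ⟨q, hq, hqo, -⟩ := ih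
    obtain ⟨t, ht⟩ := hs
    have hs1 : 1 ≤ s := by omega
    have hq1 : 1 ≤ s ^ (2 * e + 1) := Nat.one_le_pow _ _ hs1
    have hqp : 1 ≤ q := by
      rcases Nat.eq_zero_or_pos q with h | h
      · rw [h, mul_zero] at hq; omega
      · exact h
    -- `s ^ (2e+3) + 1 = s ^ 2 (s ^ (2e+1) + 1) - (s ^ 2 - 1)`
    refine ⟨s ^ 2 * q - (s - 1), ?_, ?_, ?_⟩
    · have h1 : s - 1 ≤ s ^ 2 * q := by nlinarith [Nat.sub_le s 1]
      zify [h1, hs1] at hq ⊢
      have h2 : (s : ℤ) ^ (2 * (e + 1) + 1) = (s : ℤ) ^ 2 * (s : ℤ) ^ (2 * e + 1) := by ring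
      rw [h2]
      linear_combination (s : ℤ) ^ 2 * hq
    · have h1 : s - 1 ≤ s ^ 2 * q := by nlinarith [Nat.sub_le s 1]
      obtain ⟨w, hw⟩ := hqo
      rw [Nat.odd_iff]
      have h3 : s ^ 2 * q = 2 * (2 * t * (t + 1) * (2 * w + 1) + w) + 1 := by
        rw [ht, hw]; ring
      have h4 : s - 1 = 2 * t := by omega
      rw [h3, h4] at h1 ⊢
      omega
    · intro _ hs2
      have h5 : 4 ≤ s ^ 2 := by nlinarith
      have h6 : s ^ 2 ≤ s ^ 2 * q := Nat.le_mul_of_pos_right _ hqp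
      have h7 : s + 1 ≤ s ^ 2 := by nlinarith
      omega

theorem eq_one_of_pow {n s d : ℕ} (hs : Odd s) (hn : 2 ≤ n) (h : 2 ^ n = s ^ d + 1) : d = 1 := by
  rcases Nat.even_or_odd d with ⟨e, he⟩ | ⟨e, he⟩
  · exfalso
    -- modulo 4
    have h1 : s ^ d % 4 = 1 := by
      rw [he, ← two_mul, pow_mul]
      have h2 : s ^ 2 % 4 = 1 := by
        obtain ⟨t, ht⟩ := hs
        have : s ^ 2 = 4 * (t * (t + 1)) + 1 := by rw [ht]; ring
        omega
      rw [Nat.pow_mod, h2, one_pow]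
      norm_num
    have h2 : 2 ^ n % 4 = 0 := by
      obtain ⟨l, rfl⟩ := Nat.exists_eq_add_of_le hn
      rw [pow_add]
      omega
    omega
  · by_contra hd
    have he1 : 1 ≤ e := by omega
    obtain ⟨q, hq, hqo, hq2⟩ := odd_geom hs e
    have hs2 : 2 ≤ s := by
      by_contra hcon
      have hs1 : s = 1 := by
        obtain ⟨t, ht⟩ := hs
        omega
      rw [hs1, one_pow] at h
      obtain ⟨l, rfl⟩ := Nat.exists_eq_add_of_le hn
      rw [pow_add] at h
      have := Nat.one_le_two_pow (n := l)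
      omega
    have h2 := hq2 he1 hs2
    have h3 : q ∣ 2 ^ n := by
      rw [h, he, hq]
      exact Dvd.intro_left _ rfl
    have h4 : q.Coprime (2 ^ n) := Nat.Coprime.pow_right n (Nat.coprime_two_right.2 hqo)
    have h5 : q ∣ 1 := by
      have := Nat.dvd_gcd (dvd_refl q) h3
      rwa [h4] at this
    have := Nat.le_of_dvd Nat.one_pos h5
    omega

theorem index_sq {m s a : ℕ} (hs : s.Prime) (hm : 1 ≤ m) (h : (2 ^ (m + 1) - 1) ^ 2 = s ^ a) :
    s ^ a = s ^ 2 := by
  have h1 : 2 ^ (m + 1) - 1 ∣ s ^ a := by rw [← h, sq]; exact Dvd.intro _ rfl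
  obtain ⟨d, -, hd⟩ := (Nat.dvd_prime_pow hs).1 h1
  have h4 : 4 ≤ 2 ^ (m + 1) := by
    calc 4 = 2 ^ (1 + 1) := by norm_num
      _ ≤ 2 ^ (m + 1) := Nat.pow_le_pow_right (by norm_num) (by omega)
  have hd0 : d ≠ 0 := by
    rintro rfl
    rw [pow_zero] at hd
    omega
  have hodd : Odd s := by
    rcases hs.eq_two_or_odd' with h2 | h2
    · exfalso
      rw [h2] at hd
      obtain ⟨l, rfl⟩ := Nat.exists_eq_succ_of_ne_zero hd0
      rw [pow_succ] at hd
      rw [pow_succ] at hd h4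
      omega
    · exact h2
  have h2 : 2 ^ (m + 1) = s ^ d + 1 := by omega
  have h3 := eq_one_of_pow hodd (by omega) h2
  rw [← h, hd, h3, pow_one]

theorem of_irr_le {F : Type*} [Field F] {Γ : Type*} [Group Γ] (A : Subgroup Γ) [Finite A]
    (hA : (Nat.card A : F) ≠ 0) (g : Γ) {n : ℕ} (hn : (n : F) ≠ 0) (hg : g ^ n = 1) (b : ℕ)
    (h : ∀ (V : Type u) [AddCommGroup V] [Module F V] [FiniteDimensional F V]
      (ρ : Representation F Γ V), finrank F V ≤ b → Nontrivial V → Irr ρ →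
      (∀ v, (∀ a ∈ A, ρ a v = v) → v = 0) → ρ g = 1) :
    ∀ (k : ℕ), k ≤ b → ∀ (V : Type u) [AddCommGroup V] [Module F V] [FiniteDimensional F V]
      (ρ : Representation F Γ V), finrank F V = k →
      (∀ v, (∀ a ∈ A, ρ a v = v) → v = 0) → ρ g = 1 := by
  intro k
  induction k using Nat.strong_induction_on with
  | _ k ih =>
  intro hkb V _ _ _ ρ hk hfix
  by_cases hV : Subsingleton V
  · exact LinearMap.ext fun v => Subsingleton.elim _ _
  rw [not_subsingleton_iff_nontrivial] at hV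
  by_cases hirr : Irr ρ
  · exact h V ρ (hk.trans_le hkb) hV hirr hfix
  unfold Irr at hirr
  push Not at hirr
  obtain ⟨W, hW, hW1, hW2⟩ := hirr
  have hc : ∀ g, W ≤ W.comap (ρ g) := fun g w hw => hW g w hw
  have h1 : finrank F W < finrank F V := Submodule.finrank_lt hW2
  have h2 : finrank F (V ⧸ W) < finrank F V := by
    have h3 := Submodule.finrank_quotient_add_finrank W
    have h4 : 0 < finrank F W := by
      have : Nontrivial W := Submodule.nontrivial_iff_ne_bot.2 hW1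
      exact Module.finrank_pos
    omega
  have e1 := ih _ (hk ▸ h1) (by omega) W (ρ.subrepresentation W hc) rfl (by
    intro w hw
    apply Subtype.ext
    apply hfix
    intro a ha
    exact congrArg Subtype.val (hw a ha))
  have e2 := ih _ (hk ▸ h2) (by omega) (V ⧸ W) (ρ.quotient W hc) rfl (by
    intro w hw
    obtain ⟨v, rfl⟩ := Submodule.Quotient.mk_surjective W w
    rw [Submodule.Quotient.mk_eq_zero]
    apply fixed_quot A hA ρ hfix W
    intro a ha
    rw [← Submodule.Quotient.eq]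
    exact hw a ha)
  apply eq_one_of_sq (ρ g) hn (by rw [← map_pow, hg, map_one])
  intro v
  have h3 : ρ g v - v ∈ W := by
    rw [← Submodule.Quotient.eq]
    exact LinearMap.congr_fun e2 (Submodule.Quotient.mk v)
  have h4 := LinearMap.congr_fun e1 ⟨_, h3⟩
  exact congrArg Subtype.val h4

end Cfsg.Agent.H452.PowTwo
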