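import Mathlib

/-!
# Dimension of the centraliser of a diagonalisable endomorphism
-/

set_option autoImplicit false

namespace Cfsg.Agent.H452.Eig

open Module

/-- the centraliser of an endomorphism, as a subspace -/
abbrev cent {F : Type*} [Field F] {V : Type*} [AddCommGroup V] [Module F V] (f : End F V) :
    Submodule F (End F V) := LinearMap.ker (LinearMap.mulLeft F f - LinearMap.mulRight F f)

theorem mem_cent {F : Type*} [Field F] {V : Type*} [AddCommGroup V] [Module F V] {f T : End F V} :
    T ∈ cent f ↔ f * T = T * f := by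
  rw [LinearMap.mem_ker, LinearMap.sub_apply, sub_eq_zero]
  rfl

/-- a separable polynomial of the form `X ^ n - a` gives semisimplicity -/
theorem isSemisimple_of_pow {F : Type*} [Field F] {V : Type*} [AddCommGroup V] [Module F V]
    (f : End F V) {n : ℕ} (hn : (n : F) ≠ 0) {a : F} (ha : a ≠ 0) (hf : f ^ n = a • 1) :
    f.IsSemisimple := by
  have hsq : Squarefree (Polynomial.X ^ n - Polynomial.C a : Polynomial F) :=
    Polynomial.Separable.squarefree (Polynomial.separable_X_pow_sub_C a hn ha)
  apply Module.End.isSemisimple_of_squarefree_aeval_eq_zero hsq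
  rw [map_sub, map_pow, Polynomial.aeval_X, Polynomial.aeval_C, hf, sub_eq_zero]
  ext v
  simp [Module.algebraMap_end_apply]

theorem centralizer_bounds {F : Type*} [Field F] [IsAlgClosed F] {V : Type*} [AddCommGroup V]
    [Module F V] [FiniteDimensional F V] (f : End F V) (hss : f.IsSemisimple) (S : Finset F)
    (hS : ∀ μ, End.eigenspace f μ ≠ ⊥ → μ ∈ S) :
    (finrank F V) ^ 2 ≤ S.card * finrank F (cent f) ∧ finrank F V ≤ finrank F (cent f) := by
  classical
  have htop := hss.iSup_eigenspace_eq_top
  have hbot : ∀ μ : F, μ ∉ S → End.eigenspace f μ = ⊥ := by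
    intro μ hμ
    by_contra h
    exact hμ (hS μ h)
  have hind : iSupIndep (fun μ : S => End.eigenspace f (μ : F)) :=
    (End.eigenspaces_iSupIndep f).comp Subtype.val_injective
  have hsup : ⨆ μ : S, End.eigenspace f (μ : F) = ⊤ := by
    rw [eq_top_iff, ← htop]
    apply iSup_le
    intro μ
    by_cases h : μ ∈ S
    · exact le_iSup (fun μ : S => End.eigenspace f (μ : F)) ⟨μ, h⟩
    · rw [hbot μ h]; exact bot_le
  have hint := DirectSum.isInternal_submodule_of_iSupIndep_of_iSup_eq_top hind hsup
  let e : (DirectSum S fun μ => End.eigenspace f (μ : F)) ≃ₗ[F] V :=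
    LinearEquiv.ofBijective (DirectSum.coeLinearMap _) hint
  have hdim : finrank F V = ∑ μ : S, finrank F (End.eigenspace f (μ : F)) := by
    rw [← e.finrank_eq, Module.finrank_directSum]
  have he : ∀ (μ : S) (v : End.eigenspace f (μ : F)),
      e (DirectSum.lof F S (fun μ : S => End.eigenspace f (μ : F)) μ v) = v := by
    intro μ v
    exact DirectSum.coeLinearMap_lof (fun μ : S => End.eigenspace f (μ : F)) μ v
  let D : (DirectSum S fun μ => End.eigenspace f (μ : F)) →ₗ[F]
      (DirectSum S fun μ => End.eigenspace f (μ : F)) :=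
    DirectSum.lmap (fun μ : S => (μ : F) • (LinearMap.id : End.eigenspace f (μ : F) →ₗ[F] _))
  have hfe : ∀ w, f (e w) = e (D w) := by
    intro w
    have : f ∘ₗ e.toLinearMap = e.toLinearMap ∘ₗ D := by
      apply DirectSum.linearMap_ext
      intro μ
      ext v
      simp only [D, LinearMap.coe_comp, Function.comp_apply, LinearEquiv.coe_coe, he,
        DirectSum.lmap_lof, LinearMap.smul_apply, LinearMap.id_coe, id_eq]
      rw [End.mem_eigenspace_iff.1 v.2]
      rfl
    exact LinearMap.congr_fun this w
  let Θ : (∀ μ : S, (End.eigenspace f (μ : F) →ₗ[F] End.eigenspace f (μ : F))) →ₗ[F] End F V :=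
    { toFun := fun T => e.toLinearMap ∘ₗ DirectSum.lmap T ∘ₗ e.symm.toLinearMap
      map_add' := by
        intro T T'
        ext v
        simp only [LinearMap.coe_comp, Function.comp_apply, LinearEquiv.coe_coe, LinearMap.add_apply]
        rw [← map_add]
        congr 1
        ext μ
        simp only [DirectSum.lmap_apply, DirectSum.add_apply, Pi.add_apply, LinearMap.add_apply]
      map_smul' := by
        intro c T
        ext v
        simp only [LinearMap.coe_comp, Function.comp_apply, LinearEquiv.coe_coe, LinearMap.smul_apply,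
          RingHom.id_apply]
        rw [← map_smul]
        congr 1
        ext μ
        simp only [DirectSum.lmap_apply, DirectSum.smul_apply, Pi.smul_apply, LinearMap.smul_apply] }
  have hΘinj : Function.Injective Θ := by
    intro T T' h
    funext μ
    ext v
    have h1 := LinearMap.congr_fun h (e (DirectSum.lof F S (fun μ : S => End.eigenspace f (μ : F)) μ v))
    have h2 : ∀ T'' : (∀ μ : S, (End.eigenspace f (μ : F) →ₗ[F] End.eigenspace f (μ : F))),
        Θ T'' (e (DirectSum.lof F S (fun μ : S => End.eigenspace f (μ : F)) μ v)) = T'' μ v := by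
      intro T''
      show e (DirectSum.lmap T'' (e.symm (e _))) = _
      rw [LinearEquiv.symm_apply_apply, DirectSum.lmap_lof, he]
    rw [h2, h2] at h1
    exact h1
  have hΘmem : ∀ T, Θ T ∈ cent f := by
    intro T
    rw [mem_cent]
    ext v
    obtain ⟨w, rfl⟩ := e.surjective v
    show f (e (DirectSum.lmap T (e.symm (e w)))) = e (DirectSum.lmap T (e.symm (f (e w))))
    rw [hfe, hfe, LinearEquiv.symm_apply_apply, LinearEquiv.symm_apply_apply]
    congr 1
    ext μ
    simp only [D, DirectSum.lmap_apply, LinearMap.smul_apply, LinearMap.id_coe, id_eq, map_smul]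
  have hle : finrank F (∀ μ : S, (End.eigenspace f (μ : F) →ₗ[F] End.eigenspace f (μ : F))) ≤
      finrank F (cent f) := by
    apply LinearMap.finrank_le_finrank_of_injective (f := Θ.codRestrict _ hΘmem)
    intro a b hab
    exact hΘinj (congrArg Subtype.val hab)
  rw [Module.finrank_pi_fintype] at hle
  simp only [Module.finrank_linearMap] at hle
  constructor
  · calc (finrank F V) ^ 2 = (∑ μ : S, finrank F (End.eigenspace f (μ : F))) ^ 2 := by rw [hdim]
      _ ≤ (Finset.univ : Finset S).card * ∑ μ : S, (finrank F (End.eigenspace f (μ : F))) ^ 2 :=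
          sq_sum_le_card_mul_sum_sq
      _ ≤ S.card * finrank F (cent f) := by
          apply Nat.mul_le_mul
          · simp
          · refine le_trans (le_of_eq ?_) hle
            apply Finset.sum_congr rfl
            intro μ _
            rw [sq]
  · rw [hdim]
    refine le_trans (Finset.sum_le_sum ?_) hle
    intro μ _
    exact Nat.le_mul_self _

end Cfsg.Agent.H452.Eig
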