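import Mathlib
import Cfsg.Agent.H452.Eig
import Cfsg.Agent.Blocks.ModularTraces

/-!
# Shult's lemma

`X` is a finite group acting on `W`, `S` the subgroup of the elements acting as scalars; `X / S` is abelian and the
elements of `X` commuting with `X` on `W` are scalars. `t` normalises the image of `X`, inducing `θ`, acts freely on
`X / S`, `t ^ N = 1`, and `t` has no nonzero fixed vectors. If `S ≠ X` then `|X : S| = (N - 1) ^ 2` (`index_eq`), and
every endomorphism commuting with `X` commutes with `t` (`comm`).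
-/

set_option autoImplicit false

namespace Cfsg.Agent.H452.Shult

open Module
open Cfsg.Agent.H452.Eig

section basic

variable {F : Type*} [Field F] {X : Type*} [Group X] {W : Type*} [AddCommGroup W] [Module F W]

/-- The hypotheses of Shult's lemma. -/
structure Hyp (α : Representation F X W) (t : End F W) (θ : MulAut X) (N : ℕ) (S : Subgroup X) :
    Prop where
  tN : t ^ N = 1
  NF : (N : F) ≠ 0
  XF : (Nat.card X : F) ≠ 0
  inter : ∀ x, t * α x = α (θ x) * t
  fix : ∀ w, t w = w → w = 0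
  scal : ∀ x, x ∈ S ↔ ∃ c : F, α x = c • 1
  comm : ∀ x y, x * y * x⁻¹ * y⁻¹ ∈ S
  free : ∀ i, 0 < i → i < N → ∀ x, (θ ^ i) x * x⁻¹ ∈ S → x ∈ S
  max : ∀ x, (∀ y, α (x * y) = α (y * x)) → x ∈ S

variable {α : Representation F X W} {t : End F W} {θ : MulAut X} {N : ℕ} {S : Subgroup X}

theorem Hyp.normal (h : Hyp α t θ N S) : S.Normal := by
  constructor
  intro x hx y
  have h1 : y * x * y⁻¹ = (y * x * y⁻¹ * x⁻¹) * x := by group
  rw [h1]
  exact S.mul_mem (h.comm y x) hx

theorem Hyp.two_le [Nontrivial W] (h : Hyp α t θ N S) : 2 ≤ N := by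
  by_contra hcon
  have h1 : N = 0 ∨ N = 1 := by omega
  rcases h1 with rfl | rfl
  · exact h.NF Nat.cast_zero
  · obtain ⟨w, hw⟩ := exists_ne (0 : W)
    apply hw
    apply h.fix
    have h2 := h.tN
    rw [pow_one] at h2
    rw [h2, End.one_apply]

theorem mul_inv_eq (α : Representation F X W) (x : X) : α x * α x⁻¹ = 1 := by
  rw [← map_mul, mul_inv_cancel, map_one]

theorem inv_mul_eq (α : Representation F X W) (x : X) : α x⁻¹ * α x = 1 := by
  rw [← map_mul, inv_mul_cancel, map_one]

theorem scal_ne_zero [Nontrivial W] {x : X} {c : F} (h : α x = c • 1) : c ≠ 0 := by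
  rintro rfl
  rw [zero_smul] at h
  have h1 := mul_inv_eq α x
  rw [h, zero_mul] at h1
  exact one_ne_zero h1.symm

section avg

variable [Fintype X]

/-- averaging over `X` -/
noncomputable def avg (α : Representation F X W) : End F W →ₗ[F] End F W :=
  (Nat.card X : F)⁻¹ • ∑ x : X, (LinearMap.mulLeft F (α x) ∘ₗ LinearMap.mulRight F (α x⁻¹))

theorem avg_apply (α : Representation F X W) (A : End F W) :
    avg α A = (Nat.card X : F)⁻¹ • ∑ x : X, α x * A * α x⁻¹ := by
  show ((Nat.card X : F)⁻¹ • ∑ x : X, (LinearMap.mulLeft F (α x) ∘ₗ LinearMap.mulRight F (α x⁻¹))) A = _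
  rw [LinearMap.smul_apply, LinearMap.sum_apply]
  simp only [LinearMap.comp_apply, LinearMap.mulLeft_apply, LinearMap.mulRight_apply, mul_assoc]

theorem avg_conj (α : Representation F X W) (A : End F W) (y : X) :
    avg α (α y * A * α y⁻¹) = avg α A := by
  rw [avg_apply, avg_apply]
  congr 1
  apply Fintype.sum_equiv (Equiv.mulRight y)
  intro x
  simp only [Equiv.coe_mulRight, mul_inv_rev, map_mul, mul_assoc]

theorem avg_of_comm (hX : (Nat.card X : F) ≠ 0) {A : End F W} (hA : ∀ x, α x * A = A * α x) :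
    avg α A = A := by
  rw [avg_apply]
  have h1 : ∀ x ∈ (Finset.univ : Finset X), α x * A * α x⁻¹ = A := by
    intro x _
    rw [hA, mul_assoc, mul_inv_eq, mul_one]
  rw [Finset.sum_congr rfl h1, Finset.sum_const, Finset.card_univ, ← Nat.card_eq_fintype_card,
    ← Nat.cast_smul_eq_nsmul F, smul_smul, inv_mul_cancel₀ hX, one_smul]

theorem avg_kills {A : End F W} {W' : Submodule F W} (hW' : ∀ x, ∀ w ∈ W', α x w ∈ W')
    (hA : ∀ w ∈ W', A w = 0) : ∀ w ∈ W', avg α A w = 0 := by
  intro w hw
  rw [avg_apply, LinearMap.smul_apply, LinearMap.sum_apply]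
  have h1 : ∀ x ∈ (Finset.univ : Finset X), (α x * A * α x⁻¹) w = 0 := by
    intro x _
    rw [End.mul_apply, End.mul_apply, hA _ (hW' x⁻¹ w hw), map_zero]
  rw [Finset.sum_congr rfl h1, Finset.sum_const_zero, smul_zero]

theorem Hyp.avg_mem (h : Hyp α t θ N S) {x : X} (hx : x ∈ S) : avg α (α x) = α x := by
  obtain ⟨c, hc⟩ := (h.scal x).1 hx
  apply avg_of_comm h.XF
  intro y
  rw [hc, mul_smul_comm, smul_mul_assoc, mul_one, one_mul]

theorem Hyp.avg_not_mem (h : Hyp α t θ N S) {x : X} (hx : x ∉ S) : avg α (α x) = 0 := by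
  have h1 : ∃ y, α (x * y) ≠ α (y * x) := by
    by_contra hcon
    push Not at hcon
    exact hx (h.max x hcon)
  obtain ⟨y, hy⟩ := h1
  obtain ⟨c, hc⟩ := (h.scal _).1 (h.comm y x)
  have h2 : α y * α x * α y⁻¹ = c • α x := by
    have h3 : y * x * y⁻¹ = (y * x * y⁻¹ * x⁻¹) * x := by group
    rw [← map_mul, ← map_mul, h3, map_mul, hc, smul_mul_assoc, one_mul]
  have h4 : c ≠ 1 := by
    rintro rfl
    apply hy
    have h5 : y * x = (y * x * y⁻¹ * x⁻¹) * (x * y) := by group
    rw [h5, map_mul α (y * x * y⁻¹ * x⁻¹), hc, one_smul, one_mul]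
  have h5 := avg_conj α (α x) y
  rw [h2, map_smul] at h5
  have h6 : (c - 1) • avg α (α x) = 0 := by rw [sub_smul, one_smul, h5, sub_self]
  rcases smul_eq_zero.1 h6 with h7 | h7
  · exact absurd (sub_eq_zero.1 h7) h4
  · exact h7

end avg

end basic

section alg

variable {F : Type*} [Field F] {X : Type*} [Group X] [Finite X] {W : Type*} [AddCommGroup W]
  [Module F W]
  {α : Representation F X W} {t : End F W} {θ : MulAut X} {N : ℕ} {S : Subgroup X}

/-- the algebra generated by `X` -/
def alg (α : Representation F X W) : Subalgebra F (End F W) := Algebra.adjoin F (Set.range α)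

omit [Finite X] in
theorem mem_alg (α : Representation F X W) (x : X) : α x ∈ alg α :=
  Algebra.subset_adjoin ⟨x, rfl⟩

theorem Hyp.exists_coeff (h : Hyp α t θ N S) [Fintype (X ⧸ S)] {A : End F W} (hA : A ∈ alg α) :
    ∃ a : X ⧸ S → F, A = ∑ e, a e • α e.out := by
  have hn := h.normal
  have h1 : ∀ x, α x ∈ Submodule.span F (Set.range (fun e : X ⧸ S => α e.out)) := by
    intro x
    have h2 : ((QuotientGroup.mk x : X ⧸ S).out)⁻¹ * x ∈ S := by
      rw [← QuotientGroup.eq]; exact Quotient.out_eq' _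
    obtain ⟨c, hc⟩ := (h.scal _).1 h2
    have h3 : α x = c • α (QuotientGroup.mk x : X ⧸ S).out := by
      have h4 : x = (QuotientGroup.mk x : X ⧸ S).out * (((QuotientGroup.mk x : X ⧸ S).out)⁻¹ * x) := by
        group
      conv_lhs => rw [h4]
      rw [map_mul, hc, mul_smul_comm, mul_one]
    rw [h3]
    exact Submodule.smul_mem _ _ (Submodule.subset_span ⟨_, rfl⟩)
  have h2 : A ∈ Submodule.span F (Set.range (fun e : X ⧸ S => α e.out)) := by
    have h3 : A ∈ Subalgebra.toSubmodule (alg α) := hA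
    rw [alg, Algebra.adjoin_eq_span] at h3
    have h4 : (Submonoid.closure (Set.range α) : Set (End F W)) ⊆ Set.range α := by
      have h5 : Submonoid.closure (Set.range α) ≤ MonoidHom.mrange α := by
        rw [Submonoid.closure_le]
        rintro _ ⟨x, rfl⟩
        exact ⟨x, rfl⟩
      exact h5
    refine (Submodule.span_le.2 ?_) h3
    rintro _ hx
    obtain ⟨x, rfl⟩ := h4 hx
    exact h1 x
  obtain ⟨a, ha⟩ := (Submodule.mem_span_range_iff_exists_fun F).1 h2
  exact ⟨a, ha.symm⟩

theorem Hyp.indep (h : Hyp α t θ N S) [Fintype (X ⧸ S)] {W' : Submodule F W} (hW'1 : W' ≠ ⊥)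
    (hW' : ∀ x, ∀ w ∈ W', α x w ∈ W') (a : X ⧸ S → F)
    (ha : ∀ w ∈ W', (∑ e, a e • α e.out) w = 0) : a = 0 := by
  classical
  have hn := h.normal
  have := Fintype.ofFinite X
  funext e₀
  have h1 : ∀ w ∈ W', (α (e₀.out)⁻¹ * ∑ e, a e • α e.out) w = 0 := by
    intro w hw
    rw [End.mul_apply, ha w hw, map_zero]
  have h2 := avg_kills hW' h1
  have h3 : avg α (α (e₀.out)⁻¹ * ∑ e, a e • α e.out) = a e₀ • 1 := by
    rw [Finset.mul_sum, map_sum, Finset.sum_eq_single e₀]
    · rw [mul_smul_comm, inv_mul_eq, map_smul]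
      congr 1
      have h4 := h.avg_mem (S.one_mem)
      rwa [map_one] at h4
    · intro e _ he
      rw [mul_smul_comm, ← map_mul, map_smul, h.avg_not_mem, smul_zero]
      intro hmem
      apply he
      rw [← QuotientGroup.eq] at hmem
      have h5 : (QuotientGroup.mk e.out : X ⧸ S) = e := Quotient.out_eq' e
      have h6 : (QuotientGroup.mk e₀.out : X ⧸ S) = e₀ := Quotient.out_eq' e₀
      rw [h5, h6] at hmem
      exact hmem.symm
    · intro hcon; exact absurd (Finset.mem_univ e₀) hcon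
  obtain ⟨w, hw, hw0⟩ := Submodule.exists_mem_ne_zero_of_ne_bot hW'1
  have h4 := h2 w hw
  rw [h3, LinearMap.smul_apply, End.one_apply] at h4
  rcases smul_eq_zero.1 h4 with h5 | h5
  · exact h5
  · exact absurd h5 hw0

/-- an element of the algebra vanishing on a nonzero invariant subspace is zero -/
theorem Hyp.eq_zero (h : Hyp α t θ N S) {W' : Submodule F W} (hW'1 : W' ≠ ⊥)
    (hW' : ∀ x, ∀ w ∈ W', α x w ∈ W') {A : End F W} (hA : A ∈ alg α) (hA0 : ∀ w ∈ W', A w = 0) :
    A = 0 := by
  classical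
  have := Fintype.ofFinite (X ⧸ S)
  obtain ⟨a, rfl⟩ := h.exists_coeff hA
  rw [h.indep hW'1 hW' a hA0]
  simp

/-- an element of the algebra commuting with `X` is a scalar -/
theorem Hyp.scalar_of_comm (h : Hyp α t θ N S) {A : End F W} (hA : A ∈ alg α)
    (hc : ∀ x, α x * A = A * α x) : ∃ c : F, A = c • 1 := by
  classical
  have hn := h.normal
  have := Fintype.ofFinite X
  have := Fintype.ofFinite (X ⧸ S)
  have h1 := avg_of_comm h.XF hc
  obtain ⟨a, ha⟩ := h.exists_coeff hA
  rw [← h1, ha, map_sum, Finset.sum_eq_single (QuotientGroup.mk 1 : X ⧸ S)]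
  · rw [map_smul]
    have h2 : (QuotientGroup.mk 1 : X ⧸ S).out ∈ S := by
      have h3 : (QuotientGroup.mk ((QuotientGroup.mk 1 : X ⧸ S).out) : X ⧸ S) = QuotientGroup.mk 1 :=
        Quotient.out_eq' _
      exact (QuotientGroup.eq_one_iff _).1 h3
    rw [h.avg_mem h2]
    obtain ⟨c, hc'⟩ := (h.scal _).1 h2
    exact ⟨a (QuotientGroup.mk 1) * c, by rw [hc', smul_smul]⟩
  · intro e _ he
    rw [map_smul, h.avg_not_mem, smul_zero]
    intro hmem
    apply he
    have h3 : (QuotientGroup.mk e.out : X ⧸ S) = e := Quotient.out_eq' e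
    rw [← h3]
    exact (QuotientGroup.eq_one_iff _).2 hmem
  · intro hcon; exact absurd (Finset.mem_univ _) hcon

/-- the intertwining operator -/
noncomputable def T (α : Representation F X W) (θ : MulAut X) [Fintype X] : End F W :=
  ∑ x : X, α (θ x * x⁻¹)

omit [Finite X] in
theorem Hyp.theta_mem (h : Hyp α t θ N S) (ht : IsUnit t) {x : X} (hx : x ∈ S) :
    θ x ∈ S ∧ α (θ x * x⁻¹) = 1 := by
  obtain ⟨c, hc⟩ := (h.scal x).1 hx
  have h1 : α (θ x) = α x := by
    have h2 := h.inter x
    rw [hc, mul_smul_comm, mul_one] at h2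
    have h3 : α (θ x) * t = (c • (1 : End F W)) * t := by rw [← h2, smul_mul_assoc, one_mul]
    rw [hc]
    exact ht.mul_right_cancel h3
  refine ⟨(h.scal _).2 ⟨c, by rw [h1, hc]⟩, ?_⟩
  rw [map_mul, h1, mul_inv_eq]

section T

variable [Fintype X]

omit [Finite X] in
theorem T_mem : T α θ ∈ alg α := Subalgebra.sum_mem _ (fun _ _ => mem_alg α _)

omit [Finite X] in
theorem T_mul (y : X) : T α θ * α y = α (θ y) * T α θ := by
  rw [T, Finset.sum_mul, Finset.mul_sum]
  apply Fintype.sum_equiv (Equiv.mulLeft y⁻¹)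
  intro x
  rw [← map_mul, ← map_mul]
  congr 1
  simp only [Equiv.coe_mulLeft, map_mul, map_inv]
  group

omit [Finite X] in
theorem Hyp.t_mul_T (h : Hyp α t θ N S) : t * T α θ = T α θ * t := by
  rw [T, Finset.sum_mul, Finset.mul_sum]
  apply Fintype.sum_equiv θ.toEquiv
  intro x
  rw [h.inter, map_mul, map_inv]
  rfl

omit [Finite X] in
theorem Hyp.avg_T [Nontrivial W] (h : Hyp α t θ N S) : avg α (T α θ) = (Nat.card S : F) • 1 := by
  classical
  have hN := h.two_le
  have ht : IsUnit t := ⟨⟨t, t ^ (N - 1), by rw [← pow_succ', Nat.sub_add_cancel (by omega), h.tN],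
    by rw [← pow_succ, Nat.sub_add_cancel (by omega), h.tN]⟩, rfl⟩
  rw [T, map_sum]
  have h1 : ∀ x ∈ (Finset.univ : Finset X), avg α (α (θ x * x⁻¹)) =
      if x ∈ S then (1 : End F W) else 0 := by
    intro x _
    split_ifs with hx
    · obtain ⟨h2, h3⟩ := h.theta_mem ht hx
      rw [h.avg_mem (S.mul_mem h2 (S.inv_mem hx)), h3]
    · apply h.avg_not_mem
      intro h2
      apply hx
      apply h.free 1 one_pos (by omega)
      rw [pow_one]
      exact h2
  rw [Finset.sum_congr rfl h1, ← Finset.sum_filter, Finset.sum_const, ← Nat.cast_smul_eq_nsmul F]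
  congr 2
  rw [← Fintype.card_subtype, ← Nat.card_eq_fintype_card]

omit [Finite X] in
theorem Hyp.ker_T [Nontrivial W] (h : Hyp α t θ N S) : LinearMap.ker (T α θ) = ⊥ := by
  rw [Submodule.eq_bot_iff]
  intro w hw
  have h1 : ∀ x, ∀ w ∈ LinearMap.ker (T α θ), α x w ∈ LinearMap.ker (T α θ) := by
    intro x w hw
    rw [LinearMap.mem_ker] at hw ⊢
    rw [← End.mul_apply, T_mul, End.mul_apply, hw, map_zero]
  have h2 := avg_kills h1 (A := T α θ) (fun w hw => hw) w hw
  rw [h.avg_T, LinearMap.smul_apply, End.one_apply] at h2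
  rcases smul_eq_zero.1 h2 with h3 | h3
  · exfalso
    apply h.XF
    obtain ⟨m, hm⟩ := Subgroup.card_subgroup_dvd_card S
    rw [hm, Nat.cast_mul, h3, zero_mul]
  · exact h3

end T

/-- restriction to a nonzero invariant subspace -/
theorem Hyp.restrict [Nontrivial W] (h : Hyp α t θ N S) {U : Submodule F W} (hU1 : U ≠ ⊥)
    (hU : ∀ x, U ≤ U.comap (α x)) (htU : ∀ w ∈ U, t w ∈ U) :
    Hyp (α.subrepresentation U hU) (t.restrict htU) θ N S where
  tN := by
    have h1 : ∀ (n : ℕ) (w : U), (((t.restrict htU) ^ n) w : W) = (t ^ n) (w : W) := by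
      intro n
      induction n with
      | zero => intro w; rfl
      | succ n ih =>
        intro w
        rw [pow_succ', pow_succ', End.mul_apply, End.mul_apply, ← ih]
        rfl
    ext w
    rw [h1, h.tN]
    rfl
  NF := h.NF
  XF := h.XF
  inter := by
    intro x
    ext w
    exact LinearMap.congr_fun (h.inter x) (w : W)
  fix := by
    intro w hw
    apply Subtype.ext
    exact h.fix w (congrArg Subtype.val hw)
  scal := by
    intro x
    constructor
    · intro hx
      obtain ⟨c, hc⟩ := (h.scal x).1 hx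
      refine ⟨c, ?_⟩
      ext w
      exact LinearMap.congr_fun hc (w : W)
    · rintro ⟨c, hc⟩
      refine (h.scal x).2 ⟨c, ?_⟩
      rw [← sub_eq_zero]
      apply h.eq_zero hU1 (fun x w hw => hU x hw)
      · exact Subalgebra.sub_mem _ (mem_alg α x) (Subalgebra.smul_mem _ (Subalgebra.one_mem _) c)
      · intro w hw
        have h1 := congrArg Subtype.val (LinearMap.congr_fun hc ⟨w, hw⟩)
        rw [LinearMap.sub_apply, sub_eq_zero]
        exact h1
  comm := h.comm
  free := h.free
  max := by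
    intro x hx
    apply h.max
    intro y
    rw [← sub_eq_zero]
    apply h.eq_zero hU1 (fun x w hw => hU x hw)
    · exact Subalgebra.sub_mem _ (mem_alg α _) (mem_alg α _)
    · intro w hw
      have h1 := congrArg Subtype.val (LinearMap.congr_fun (hx y) ⟨w, hw⟩)
      rw [LinearMap.sub_apply, sub_eq_zero]
      exact h1

end alg

section perm

/-- Burnside count for an automorphism acting freely outside one point. -/
theorem orbit_count {Q : Type*} [Finite Q] (σ : Equiv.Perm Q) {N : ℕ} (hN : 0 < N)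
    (hσ : σ ^ N = 1) (q₀ : Q) (h : ∀ i, 0 < i → i < N → ∀ q, (σ ^ i) q = q → q = q₀)
    (h₀ : σ q₀ = q₀) (hQ : ∃ q, q ≠ q₀) :
    N * Nat.card (MulAction.orbitRel.Quotient (Subgroup.zpowers σ) Q) = Nat.card Q + (N - 1) := by
  classical
  have := Fintype.ofFinite Q
  have hord : orderOf σ = N := by
    rw [orderOf_eq_iff hN]
    refine ⟨hσ, fun i hi hi0 h1 => ?_⟩
    obtain ⟨q, hq⟩ := hQ
    apply hq
    apply h i hi0 hi
    rw [h1]; rfl
  have hcard : Fintype.card (Subgroup.zpowers σ) = N := by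
    rw [Fintype.card_zpowers, hord]
  have hB := MulAction.sum_card_fixedBy_eq_card_orbits_mul_card_group (Subgroup.zpowers σ) Q
  have hfix : ∀ a : Subgroup.zpowers σ, Fintype.card (MulAction.fixedBy Q a) =
      if a = 1 then Fintype.card Q else 1 := by
    intro a
    split_ifs with ha
    · subst ha
      apply Fintype.card_congr
      refine (Equiv.subtypeUnivEquiv ?_)
      intro q
      simp
    · rw [Fintype.card_eq_one_iff]
      have ha2 := a.2
      rw [← mem_powers_iff_mem_zpowers] at ha2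
      obtain ⟨n, hn⟩ := ha2
      have hn' : (σ ^ n : Equiv.Perm Q) = a := hn
      have hmod : (σ ^ (n % N) : Equiv.Perm Q) = a := by
        rw [← hn']
        conv_rhs => rw [← Nat.mod_add_div n N]
        rw [pow_add, pow_mul, hσ, one_pow, mul_one]
      have hpos : 0 < n % N := by
        rcases Nat.eq_zero_or_pos (n % N) with h0 | h0
        · exfalso
          apply ha
          rw [h0, pow_zero] at hmod
          exact Subtype.ext hmod.symm
        · exact h0
      refine ⟨⟨q₀, ?_⟩, ?_⟩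
      · rw [MulAction.mem_fixedBy]
        show (a : Equiv.Perm Q) q₀ = q₀
        rw [← hmod]
        exact Equiv.Perm.pow_apply_eq_self_of_apply_eq_self h₀ _
      · rintro ⟨q, hq⟩
        rw [Subtype.mk.injEq]
        rw [MulAction.mem_fixedBy] at hq
        have hq' : (a : Equiv.Perm Q) q = q := hq
        rw [← hmod] at hq'
        exact h _ hpos (Nat.mod_lt _ hN) q hq'
  rw [Finset.sum_congr rfl (fun a _ => hfix a), Finset.sum_ite] at hB
  rw [Finset.filter_eq' , if_pos (Finset.mem_univ _)] at hB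
  rw [Finset.sum_singleton, Finset.sum_const, smul_eq_mul, mul_one] at hB
  have h3 : (Finset.univ.filter (fun a : Subgroup.zpowers σ => ¬ a = 1)).card = N - 1 := by
    rw [Finset.filter_not, Finset.card_sdiff_of_subset (Finset.filter_subset _ _)]
    rw [Finset.filter_eq', if_pos (Finset.mem_univ _), Finset.card_univ, hcard, Finset.card_singleton]
  rw [h3, hcard] at hB
  rw [Nat.card_eq_fintype_card, Nat.card_eq_fintype_card, mul_comm, hB]

theorem arith {D M c o N : ℕ} (hN : 2 ≤ N) (h1 : D ^ 2 = M) (h2 : c ≤ o) (h3 : N * o = M + (N - 1))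
    (h4 : D ^ 2 ≤ (N - 1) * c) (h5 : D ≤ c) (hM : 2 ≤ M) : D = N - 1 ∧ c ≤ N - 1 := by
  obtain ⟨k, rfl⟩ : ∃ k, N = k + 1 := ⟨N - 1, by omega⟩
  simp only [Nat.add_sub_cancel] at *
  subst h1
  have hD2 : 2 ≤ D := by
    by_contra hcon
    have : D = 0 ∨ D = 1 := by omega
    rcases this with rfl | rfl <;> norm_num at hM
  have h6 : (k + 1) * c ≤ D ^ 2 + k := by
    calc (k + 1) * c ≤ (k + 1) * o := Nat.mul_le_mul_left _ h2
      _ = D ^ 2 + k := h3
  have h7 : D ≤ k := by
    have h8 : (k + 1) * D ^ 2 ≤ k * (D ^ 2 + k) := by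
      calc (k + 1) * D ^ 2 ≤ (k + 1) * (k * c) := Nat.mul_le_mul_left _ h4
        _ = k * ((k + 1) * c) := by ring
        _ ≤ k * (D ^ 2 + k) := Nat.mul_le_mul_left _ h6
    have h9 : D ^ 2 ≤ k ^ 2 := by nlinarith
    by_contra hc
    push Not at hc
    have := Nat.pow_lt_pow_left hc two_ne_zero
    omega
  have h8 : k ≤ D := by
    have h9 : (k + 1) * D ≤ D ^ 2 + k := (Nat.mul_le_mul_left _ h5).trans h6
    by_contra hc
    push Not at hc
    obtain ⟨d, rfl⟩ : ∃ d, D = d + 2 := ⟨D - 2, by omega⟩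
    nlinarith
  have h9 : D = k := le_antisymm h7 h8
  subst h9
  refine ⟨rfl, ?_⟩
  have h10 : (D + 1) * c ≤ (D + 1) * D := by
    calc (D + 1) * c ≤ D ^ 2 + D := h6
      _ = (D + 1) * D := by ring
  exact Nat.le_of_mul_le_mul_left h10 (by omega)

end perm

section main

variable {F : Type*} [Field F] [IsAlgClosed F] {X : Type*} [Group X] [Finite X] {W : Type*}
  [AddCommGroup W] [Module F W] [FiniteDimensional F W]
  {α : Representation F X W} {t : End F W} {θ : MulAut X} {N : ℕ} {S : Subgroup X}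

omit [Finite X] [IsAlgClosed F] [FiniteDimensional F W] in
theorem Hyp.isUnit [Nontrivial W] (h : Hyp α t θ N S) : IsUnit t := by
  have hN := h.two_le
  exact ⟨⟨t, t ^ (N - 1), by rw [← pow_succ', Nat.sub_add_cancel (by omega), h.tN],
    by rw [← pow_succ, Nat.sub_add_cancel (by omega), h.tN]⟩, rfl⟩

omit [Finite X] [IsAlgClosed F] [FiniteDimensional F W] in
theorem Hyp.pow_inter (h : Hyp α t θ N S) (n : ℕ) (x : X) : t ^ n * α x = α ((θ ^ n) x) * t ^ n := by
  induction n generalizing x with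
  | zero => simp
  | succ n ih =>
    rw [pow_succ, mul_assoc, h.inter, ← mul_assoc, ih, mul_assoc, pow_succ, MulAut.mul_apply]

omit [Finite X] [IsAlgClosed F] [FiniteDimensional F W] in
theorem isIrreducible_of [Nontrivial W] (α : Representation F X W)
    (hirr : ∀ W' : Submodule F W, (∀ x, ∀ w ∈ W', α x w ∈ W') → W' = ⊥ ∨ W' = ⊤) :
    α.IsIrreducible := by
  have : Nontrivial (Subrepresentation α) := by
    refine ⟨⊥, ⊤, ?_⟩
    intro h
    have h1 : (⊥ : Submodule F W) = ⊤ := congrArg Subrepresentation.toSubmodule h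
    exact bot_ne_top h1
  exact { eq_bot_or_eq_top := fun S => by
            rcases hirr S.toSubmodule (fun x w hw => S.apply_mem_toSubmodule x hw) with h | h
            · left; exact Subrepresentation.toSubmodule_injective h
            · right; exact Subrepresentation.toSubmodule_injective h }

theorem mem_alg_of_irr [Nontrivial W] (α : Representation F X W)
    (hirr : ∀ W' : Submodule F W, (∀ x, ∀ w ∈ W', α x w ∈ W') → W' = ⊥ ∨ W' = ⊤) (A : End F W) :
    A ∈ alg α := by
  have hI := isIrreducible_of α hirr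
  obtain ⟨a, ha⟩ := Cfsg.Agent.Blocks.ModularTraces.exists_density (ι := Unit) (V := fun _ => W)
    (fun _ => α) (fun _ => hI) (fun i j hij => absurd (Subsingleton.elim i j) hij) (fun _ => A)
  have h1 : ∀ a : MonoidAlgebra F X, α.asAlgebraHom a ∈ alg α := by
    intro a
    induction a using MonoidAlgebra.induction_linear with
    | zero => rw [map_zero]; exact Subalgebra.zero_mem _
    | add x y hx hy => rw [map_add]; exact Subalgebra.add_mem _ hx hy
    | single x c =>
      rw [Representation.asAlgebraHom_single]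
      exact Subalgebra.smul_mem _ (mem_alg α x) c
  rw [← ha ()]
  exact h1 a

theorem Hyp.irr_case [Nontrivial W] (h : Hyp α t θ N S)
    (hirr : ∀ W' : Submodule F W, (∀ x, ∀ w ∈ W', α x w ∈ W') → W' = ⊥ ∨ W' = ⊤) (hne : S ≠ ⊤) :
    S.index = (N - 1) ^ 2 ∧
      ∀ R : Finset F, (∀ μ, End.eigenspace t μ ≠ ⊥ → μ ∈ R) → N - 1 ≤ R.card := by
  classical
  have hn := h.normal
  have := Fintype.ofFinite (X ⧸ S)
  have hN := h.two_le
  have ht := h.isUnit
  have htop : ∀ x, ∀ w ∈ (⊤ : Submodule F W), α x w ∈ (⊤ : Submodule F W) := fun _ _ _ => trivial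
  -- the basis
  let L : (X ⧸ S → F) →ₗ[F] End F W := Fintype.linearCombination F (fun e : X ⧸ S => α e.out)
  have hL : ∀ a, L a = ∑ e, a e • α e.out := fun a => rfl
  have hLinj : Function.Injective L := by
    rw [← LinearMap.ker_eq_bot, LinearMap.ker_eq_bot']
    intro a ha
    apply h.indep (W' := ⊤) top_ne_bot htop
    intro w _
    rw [← hL, ha, LinearMap.zero_apply]
  have hLsurj : Function.Surjective L := by
    intro A
    obtain ⟨a, ha⟩ := h.exists_coeff (mem_alg_of_irr α hirr A)
    exact ⟨a, by rw [hL, ha]⟩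
  let Φ := LinearEquiv.ofBijective L ⟨hLinj, hLsurj⟩
  have hΦ : ∀ a, Φ a = ∑ e, a e • α e.out := fun a => rfl
  have hidx : (finrank F W) ^ 2 = S.index := by
    have h1 := Φ.finrank_eq
    rw [Module.finrank_fintype_fun_eq_card, Module.finrank_linearMap, ← Nat.card_eq_fintype_card,
      ← Subgroup.index_eq_card] at h1
    rw [sq, h1]
  -- the permutation
  have hθS : S.map (θ : X →* X) = S := by
    have h1 : S.map (θ : X →* X) ≤ S := by
      rintro _ ⟨x, hx, rfl⟩
      exact (h.theta_mem ht hx).1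
    apply Subgroup.eq_of_le_of_card_ge h1
    rw [Subgroup.card_map_of_injective (f := (θ : X →* X)) θ.injective]
  let σ : Equiv.Perm (X ⧸ S) := (QuotientGroup.congr S S θ hθS).toEquiv
  have hσ : ∀ x : X, σ (QuotientGroup.mk x) = QuotientGroup.mk (θ x) := fun x => rfl
  have hσn : ∀ (n : ℕ) (x : X), (σ ^ n) (QuotientGroup.mk x) = QuotientGroup.mk ((θ ^ n) x) := by
    intro n
    induction n with
    | zero => intro x; rfl
    | succ n ih =>
      intro x
      rw [pow_succ', Equiv.Perm.mul_apply, ih, hσ, pow_succ']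
      rfl
  have hmk : ∀ x y : X, (QuotientGroup.mk x : X ⧸ S) = QuotientGroup.mk y ↔ x * y⁻¹ ∈ S := by
    intro x y
    rw [eq_comm, QuotientGroup.eq]
    constructor
    · intro h1
      have h2 := hn.conj_mem _ h1 y
      have h3 : y * (y⁻¹ * x) * y⁻¹ = x * y⁻¹ := by group
      rwa [h3] at h2
    · intro h1
      have h2 := hn.conj_mem _ h1 y⁻¹
      have h3 : y⁻¹ * (x * y⁻¹) * y⁻¹⁻¹ = y⁻¹ * x := by group
      rwa [h3] at h2
  have hσN : σ ^ N = 1 := by
    ext q
    obtain ⟨x, rfl⟩ := QuotientGroup.mk_surjective q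
    rw [hσn, Equiv.Perm.one_apply, hmk, h.scal]
    refine ⟨1, ?_⟩
    have h1 := h.pow_inter N x
    rw [h.tN, one_mul, mul_one] at h1
    rw [map_mul, ← h1, mul_inv_eq, one_smul]
  have hfree : ∀ i, 0 < i → i < N → ∀ q, (σ ^ i) q = q → q = (QuotientGroup.mk (1 : X)) := by
    intro i hi hiN q hq
    obtain ⟨x, rfl⟩ := QuotientGroup.mk_surjective q
    rw [hσn, hmk] at hq
    exact (QuotientGroup.eq_one_iff x).2 (h.free i hi hiN x hq)
  have h₀ : σ (QuotientGroup.mk (1 : X)) = QuotientGroup.mk (1 : X) := by rw [hσ, map_one]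
  have hex : ∃ q : X ⧸ S, q ≠ QuotientGroup.mk 1 := by
    by_contra hcon
    push Not at hcon
    apply hne
    rw [eq_top_iff]
    intro x _
    exact (QuotientGroup.eq_one_iff x).1 (hcon (QuotientGroup.mk x))
  have hcount := orbit_count σ (by omega) hσN (QuotientGroup.mk (1 : X)) hfree h₀ hex
  -- the centraliser
  have hprop : ∀ A ∈ cent t, ∀ e, Φ.symm A e = 0 → Φ.symm A (σ e) = 0 := by
    intro A hA e he
    rw [mem_cent] at hA
    have hc : ∀ e : X ⧸ S, ∃ c : F, α (θ e.out) = c • α (σ e).out := by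
      intro e
      have h1 : ((σ e).out)⁻¹ * θ e.out ∈ S := by
        rw [← QuotientGroup.eq, ← hσ]
        have h2 : (QuotientGroup.mk e.out : X ⧸ S) = e := Quotient.out_eq' e
        have h3 : (QuotientGroup.mk (σ e).out : X ⧸ S) = σ e := Quotient.out_eq' _
        rw [h2, h3]
      obtain ⟨c, hc⟩ := (h.scal _).1 h1
      refine ⟨c, ?_⟩
      have h2 : θ e.out = (σ e).out * (((σ e).out)⁻¹ * θ e.out) := by group
      rw [h2, map_mul, hc, mul_smul_comm, mul_one]
    choose c hc using hc
    set a := Φ.symm A with ha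
    have hA' : A = ∑ e, a e • α e.out := by rw [← hΦ, ha, LinearEquiv.apply_symm_apply]
    let b : X ⧸ S → F := fun e => a (σ.symm e) * c (σ.symm e)
    have hb : Φ b = A := by
      apply ht.mul_right_cancel
      rw [← hA]
      conv_rhs => rw [hA']
      rw [hΦ, Finset.sum_mul, Finset.mul_sum]
      symm
      apply Fintype.sum_equiv σ
      intro e
      rw [mul_smul_comm, h.inter, hc, smul_mul_assoc, smul_smul, smul_mul_assoc]
      simp only [b, Equiv.symm_apply_apply]
    have hb' : b = a := by rw [ha, ← hb, LinearEquiv.symm_apply_apply]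
    rw [← hb']
    show a (σ.symm (σ e)) * c (σ.symm (σ e)) = 0
    rw [Equiv.symm_apply_apply, he, zero_mul]
  let Ω := MulAction.orbitRel.Quotient (Subgroup.zpowers σ) (X ⧸ S)
  have hfΩ : Fintype Ω := Fintype.ofFinite Ω
  let Ψ : cent t →ₗ[F] (Ω → F) :=
    LinearMap.pi (fun ω => (LinearMap.proj (ω.out : X ⧸ S)) ∘ₗ Φ.symm.toLinearMap ∘ₗ (cent t).subtype)
  have hΨinj : Function.Injective Ψ := by
    rw [← LinearMap.ker_eq_bot, LinearMap.ker_eq_bot']
    rintro ⟨A, hA⟩ hA0
    apply Subtype.ext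
    show A = 0
    apply Φ.symm.injective
    rw [map_zero]
    funext q
    have hpn : ∀ n : ℕ, ∀ e, Φ.symm A e = 0 → Φ.symm A ((σ ^ n) e) = 0 := by
      intro n
      induction n with
      | zero => intro e he; exact he
      | succ n ih =>
        intro e he
        rw [pow_succ', Equiv.Perm.mul_apply]
        exact hprop A hA _ (ih e he)
    set ω : Ω := Quotient.mk'' q with hω
    have h1 : Φ.symm A (ω.out : X ⧸ S) = 0 := congrFun hA0 ω
    have h3 : (MulAction.orbitRel (Subgroup.zpowers σ) (X ⧸ S)) q (ω.out) := by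
      apply Quotient.exact
      rw [Quotient.out_eq]
    rw [MulAction.orbitRel_apply, MulAction.mem_orbit_iff] at h3
    obtain ⟨⟨a, ha⟩, haq⟩ := h3
    obtain ⟨n, rfl⟩ := (mem_powers_iff_mem_zpowers.2 ha)
    have h4 : (σ ^ n) (ω.out) = q := haq
    rw [← h4]
    exact hpn n _ h1
  have hcle : finrank F (cent t) ≤ Nat.card Ω := by
    have h1 := LinearMap.finrank_le_finrank_of_injective hΨinj
    rw [Module.finrank_fintype_fun_eq_card] at h1
    rw [Nat.card_eq_fintype_card]
    exact h1
  -- eigenvalues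
  have hss : t.IsSemisimple := isSemisimple_of_pow t h.NF one_ne_zero (by rw [h.tN, one_smul])
  let R₀ : Finset F := (Polynomial.nthRootsFinset N (1 : F)).erase 1
  have hR₀card : R₀.card ≤ N - 1 := by
    have h1 : (1 : F) ∈ Polynomial.nthRootsFinset N (1 : F) := by
      rw [Polynomial.mem_nthRootsFinset (by omega)]; simp
    have h2 : (Polynomial.nthRootsFinset N (1 : F)).card ≤ N := by
      unfold Polynomial.nthRootsFinset
      refine (Multiset.toFinset_card_le _).trans (Polynomial.card_nthRoots N 1)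
    show ((Polynomial.nthRootsFinset N (1 : F)).erase 1).card ≤ N - 1
    rw [Finset.card_erase_of_mem h1]
    omega
  have hR₀ : ∀ μ, End.eigenspace t μ ≠ ⊥ → μ ∈ R₀ := by
    intro μ hμ
    obtain ⟨v, hv, hv0⟩ := Submodule.exists_mem_ne_zero_of_ne_bot hμ
    rw [End.mem_eigenspace_iff] at hv
    rw [Finset.mem_erase, Polynomial.mem_nthRootsFinset (by omega)]
    constructor
    · rintro rfl
      exact hv0 (h.fix v (by simpa using hv))
    · have h1 : ∀ n : ℕ, (t ^ n) v = μ ^ n • v := by
        intro n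
        induction n with
        | zero => simp
        | succ n ih => rw [pow_succ', End.mul_apply, ih, map_smul, hv, smul_smul, pow_succ]
      have h2 := h1 N
      rw [h.tN, End.one_apply] at h2
      have h3 : (μ ^ N - 1) • v = 0 := by rw [sub_smul, one_smul, ← h2, sub_self]
      rcases smul_eq_zero.1 h3 with h4 | h4
      · exact sub_eq_zero.1 h4
      · exact absurd h4 hv0
  obtain ⟨hb1, hb2⟩ := centralizer_bounds t hss R₀ hR₀
  have hM : 2 ≤ S.index := by
    have h1 : S.index ≠ 1 := fun h1 => hne (Subgroup.index_eq_one.1 h1)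
    have h2 : S.index ≠ 0 := Subgroup.index_ne_zero_of_finite
    omega
  rw [← Subgroup.index_eq_card] at hcount
  obtain ⟨hD, hc⟩ := arith hN hidx hcle hcount (hb1.trans (Nat.mul_le_mul_right _ hR₀card)) hb2 hM
  refine ⟨by rw [← hidx, hD], ?_⟩
  intro R hR
  obtain ⟨hb3, _⟩ := centralizer_bounds t hss R hR
  rw [hD] at hb3
  have h5 : (N - 1) * (N - 1) ≤ R.card * (N - 1) := by
    rw [← sq]
    exact hb3.trans (Nat.mul_le_mul_left _ hc)
  exact Nat.le_of_mul_le_mul_right h5 (by omega)

omit [Finite X] [IsAlgClosed F] [FiniteDimensional F W] in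
/-- the algebra preserves invariant subspaces -/
theorem alg_mem {A : End F W} (hA : A ∈ alg α) {U : Submodule F W}
    (hU : ∀ x, ∀ w ∈ U, α x w ∈ U) : ∀ w ∈ U, A w ∈ U := by
  induction hA using Algebra.adjoin_induction with
  | mem x hx =>
    obtain ⟨y, rfl⟩ := hx
    exact hU y
  | algebraMap r => intro w hw; rw [Module.algebraMap_end_apply]; exact Submodule.smul_mem _ _ hw
  | add x y _ _ hx hy => intro w hw; exact Submodule.add_mem _ (hx w hw) (hy w hw)
  | mul x y _ _ hx hy => intro w hw; exact hx _ (hy w hw)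

omit [Finite X] [IsAlgClosed F] [FiniteDimensional F W] in
theorem alg_comm {A : End F W} (hA : A ∈ alg α) {g : End F W} (hg : ∀ x, g * α x = α x * g) :
    g * A = A * g := by
  induction hA using Algebra.adjoin_induction with
  | mem x hx =>
    obtain ⟨y, rfl⟩ := hx
    exact hg y
  | algebraMap r => exact (Algebra.commutes r g).symm
  | add x y _ _ hx hy => rw [mul_add, add_mul, hx, hy]
  | mul x y _ _ hx hy => rw [← mul_assoc, hx, mul_assoc, hy, mul_assoc]

omit [Finite X] in
theorem Hyp.exists_sub [Nontrivial W] [Fintype X] (h : Hyp α t θ N S) {u : End F W}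
    (htu : t * u = T α θ) (hux : ∀ x, u * α x = α x * u) {l : F} (hl : End.eigenspace u l ≠ ⊥) :
    l ≠ 0 ∧ ∃ (U : Submodule F W) (hU : ∀ x, U ≤ U.comap (α x)) (_ : ∀ w ∈ U, t w ∈ U),
      U ≠ ⊥ ∧ U ≤ End.eigenspace u l ∧ ∀ W' : Submodule F U,
        (∀ x, ∀ w ∈ W', α.subrepresentation U hU x w ∈ W') → W' = ⊥ ∨ W' = ⊤ := by
  have hl0 : l ≠ 0 := by
    rintro rfl
    obtain ⟨w, hw, hw0⟩ := Submodule.exists_mem_ne_zero_of_ne_bot hl
    rw [End.mem_eigenspace_iff, zero_smul] at hw
    apply hw0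
    have h1 : w ∈ LinearMap.ker (T α θ) := by
      rw [LinearMap.mem_ker, ← htu, End.mul_apply, hw, map_zero]
    rwa [h.ker_T, Submodule.mem_bot] at h1
  refine ⟨hl0, ?_⟩
  have hE : ∀ x, ∀ w ∈ End.eigenspace u l, α x w ∈ End.eigenspace u l := by
    intro x w hw
    rw [End.mem_eigenspace_iff] at hw ⊢
    rw [← End.mul_apply, hux, End.mul_apply, hw, map_smul]
  obtain ⟨U, hUmin⟩ := exists_minimal_of_wellFoundedLT (fun U : Submodule F W =>
    U ≠ ⊥ ∧ U ≤ End.eigenspace u l ∧ ∀ x, ∀ w ∈ U, α x w ∈ U) ⟨_, hl, le_rfl, hE⟩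
  obtain ⟨⟨hU1, hUE, hUX⟩, hmin⟩ := hUmin
  refine ⟨U, fun x w hw => hUX x w hw, ?_, hU1, hUE, ?_⟩
  · intro w hw
    have h1 := End.mem_eigenspace_iff.1 (hUE hw)
    have h2 : t w = l⁻¹ • (T α θ) w := by
      rw [← htu, End.mul_apply, h1, map_smul, smul_smul, inv_mul_cancel₀ hl0, one_smul]
    rw [h2]
    exact Submodule.smul_mem _ _ (alg_mem T_mem hUX w hw)
  · intro W' hW'
    by_cases hW'1 : W' = ⊥
    · exact Or.inl hW'1
    right
    have h1 : W'.map U.subtype ≠ ⊥ := by
      intro h2
      apply hW'1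
      apply Submodule.map_injective_of_injective (f := U.subtype) U.injective_subtype
      rw [h2, Submodule.map_bot]
    have h2 := hmin ⟨h1, (Submodule.map_subtype_le U W').trans hUE, by
      rintro x _ ⟨w, hw, rfl⟩
      exact ⟨_, hW' x w hw, rfl⟩⟩ (Submodule.map_subtype_le U W')
    rw [eq_top_iff]
    rintro ⟨w, hw⟩ _
    obtain ⟨w', hw', hww⟩ := h2 hw
    have h3 : w' = ⟨w, hw⟩ := Subtype.ext hww
    rw [← h3]; exact hw'

omit [Finite X] [FiniteDimensional F W] [IsAlgClosed F] in
theorem Hyp.exists_u [Nontrivial W] [Fintype X] (h : Hyp α t θ N S) :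
    ∃ u : End F W, t * u = T α θ ∧ (∀ x, u * α x = α x * u) ∧ u * t = t * u := by
  have hN := h.two_le
  have ht := h.isUnit
  have h1 : t * t ^ (N - 1) = 1 := by
    rw [← pow_succ', Nat.sub_add_cancel (by omega), h.tN]
  have h2 : t * (t ^ (N - 1) * T α θ) = T α θ := by rw [← mul_assoc, h1, one_mul]
  refine ⟨t ^ (N - 1) * T α θ, h2, ?_, ?_⟩
  · intro x
    apply ht.mul_left_cancel
    rw [← mul_assoc, h2, ← mul_assoc, h.inter, mul_assoc, h2, T_mul]
  · apply ht.mul_left_cancel
    rw [← mul_assoc, h2, h.t_mul_T]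

/-- **Shult's lemma (a)** -/
theorem Hyp.index_eq [Nontrivial W] (h : Hyp α t θ N S) (hne : S ≠ ⊤) : S.index = (N - 1) ^ 2 := by
  have := Fintype.ofFinite X
  obtain ⟨u, htu, hux, hut⟩ := h.exists_u
  obtain ⟨l, hl⟩ := Module.End.exists_eigenvalue u
  obtain ⟨hl0, U, hU, htU, hU1, hUE, hirr⟩ := h.exists_sub htu hux hl
  have hnt : Nontrivial U := Submodule.nontrivial_iff_ne_bot.2 hU1
  exact ((h.restrict hU1 hU htU).irr_case hirr hne).1

theorem Hyp.sum_eq_zero (h : Hyp α t θ N S) (hN : 0 < N) (w : W) :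
    ∑ i ∈ Finset.range N, (t ^ i) w = 0 := by
  apply h.fix
  rw [map_sum]
  have h1 : ∀ n : ℕ, t ((t ^ n) w) = (t ^ (n + 1)) w := by
    intro n; rw [pow_succ', End.mul_apply]
  simp only [h1]
  have h2 := Finset.sum_range_succ' (fun n => (t ^ n) w) N
  have h3 := Finset.sum_range_succ (fun n => (t ^ n) w) N
  rw [h3] at h2
  simp only [pow_zero, h.tN, End.one_apply] at h2
  exact (add_right_cancel h2).symm

/-- **Shult's lemma (b)** -/
theorem Hyp.comm_t [Nontrivial W] (h : Hyp α t θ N S) (hne : S ≠ ⊤) {g : End F W}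
    (hg : ∀ x, g * α x = α x * g) : g * t = t * g := by
  classical
  have := Fintype.ofFinite X
  have hN := h.two_le
  have ht := h.isUnit
  obtain ⟨u, htu, hux, hut⟩ := h.exists_u
  obtain ⟨l, hl⟩ := Module.End.exists_eigenvalue u
  obtain ⟨hl0, -⟩ := h.exists_sub htu hux hl
  -- action on eigenspaces of `u`
  have hTi : ∀ (m : F) (w : W), w ∈ End.eigenspace u m → ∀ i : ℕ,
      (T α θ ^ i) w = m ^ i • (t ^ i) w := by
    intro m w hw i
    induction i generalizing w with
    | zero => simp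
    | succ i ih =>
      have hw' := End.mem_eigenspace_iff.1 hw
      have h1 : (T α θ) w = m • t w := by rw [← htu, End.mul_apply, hw', map_smul]
      have h2 : t w ∈ End.eigenspace u m := by
        rw [End.mem_eigenspace_iff, ← End.mul_apply, hut, End.mul_apply, hw', map_smul]
      rw [pow_succ, End.mul_apply, h1, map_smul, ih _ h2, smul_smul, pow_succ t, End.mul_apply,
        ← pow_succ']
  let Ψ : End F W := ∑ i ∈ Finset.range N, (l⁻¹) ^ i • (T α θ) ^ i
  have hΨmem : Ψ ∈ alg α :=
    Subalgebra.sum_mem _ (fun i _ => Subalgebra.smul_mem _ (Subalgebra.pow_mem _ T_mem i) _)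
  have hE : ∀ m : F, ∀ x, ∀ w ∈ End.eigenspace u m, α x w ∈ End.eigenspace u m := by
    intro m x w hw
    rw [End.mem_eigenspace_iff] at hw ⊢
    rw [← End.mul_apply, hux, End.mul_apply, hw, map_smul]
  have hΨapp : ∀ (m : F) (w : W), w ∈ End.eigenspace u m →
      Ψ w = ∑ i ∈ Finset.range N, (l⁻¹ * m) ^ i • (t ^ i) w := by
    intro m w hw
    show (∑ i ∈ Finset.range N, (l⁻¹) ^ i • (T α θ) ^ i) w = _
    rw [LinearMap.sum_apply]
    apply Finset.sum_congr rfl
    intro i _
    rw [LinearMap.smul_apply, hTi m w hw, smul_smul, mul_pow]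
  have hΨ0 : Ψ = 0 := by
    apply h.eq_zero hl (hE l) hΨmem
    intro w hw
    rw [hΨapp l w hw, inv_mul_cancel₀ hl0]
    simp only [one_pow, one_smul]
    exact h.sum_eq_zero (by omega) w
  -- only one eigenvalue
  have huniq : ∀ m : F, End.eigenspace u m ≠ ⊥ → m = l := by
    intro m hm
    by_contra hml
    set κ := l⁻¹ * m with hκ
    have hκ1 : κ ≠ 1 := by
      intro h1
      apply hml
      rw [hκ, inv_mul_eq_one₀ hl0] at h1
      exact h1.symm
    obtain ⟨hm0, U, hU, htU, hU1, hUE, hirr⟩ := h.exists_sub htu hux hm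
    have hκ0 : κ ≠ 0 := mul_ne_zero (inv_ne_zero hl0) hm0
    have hnt : Nontrivial U := Submodule.nontrivial_iff_ne_bot.2 hU1
    -- eigenvectors in `U`
    have heig : ∀ μ : F, ∀ w ∈ U, w ≠ 0 → t w = μ • w →
        μ ^ N = 1 ∧ μ ≠ 1 ∧ κ * μ ≠ 1 ∧ (κ * μ) ^ N = 1 := by
      intro μ w hw hw0 htw
      have h1 : ∀ n : ℕ, (t ^ n) w = μ ^ n • w := by
        intro n
        induction n with
        | zero => simp
        | succ n ih => rw [pow_succ', End.mul_apply, ih, map_smul, htw, smul_smul, pow_succ]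
      have h2 : μ ^ N = 1 := by
        have h3 := h1 N
        rw [h.tN, End.one_apply] at h3
        have h4 : (μ ^ N - 1) • w = 0 := by rw [sub_smul, one_smul, ← h3, sub_self]
        rcases smul_eq_zero.1 h4 with h5 | h5
        · exact sub_eq_zero.1 h5
        · exact absurd h5 hw0
      have h3 : μ ≠ 1 := by
        rintro rfl
        exact hw0 (h.fix w (by rw [htw, one_smul]))
      have h4 := hΨapp m w (hUE hw)
      rw [hΨ0, LinearMap.zero_apply] at h4
      simp only [h1, smul_smul, ← mul_pow] at h4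
      rw [← Finset.sum_smul, ← hκ] at h4
      have h5 : ∑ i ∈ Finset.range N, (κ * μ) ^ i = 0 := by
        rcases smul_eq_zero.1 h4.symm with h6 | h6
        · exact h6
        · exact absurd h6 hw0
      refine ⟨h2, h3, ?_, ?_⟩
      · intro h6
        rw [h6] at h5
        simp only [one_pow, Finset.sum_const, Finset.card_range, nsmul_eq_mul, mul_one] at h5
        exact h.NF h5
      · have h6 := geom_sum_mul (κ * μ) N
        rw [h5, zero_mul] at h6
        exact (sub_eq_zero.1 h6.symm)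
    have hκN : κ ^ N = 1 := by
      obtain ⟨μ, hμ⟩ := Module.End.exists_eigenvalue (t.restrict htU)
      obtain ⟨⟨w, hw⟩, hw1, hw0⟩ := hμ.exists_hasEigenvector
      rw [End.mem_eigenspace_iff] at hw1
      obtain ⟨h1, -, -, h2⟩ := heig μ w hw (fun h0 => hw0 (Subtype.ext h0)) (congrArg Subtype.val hw1)
      rw [mul_pow, h1, mul_one] at h2
      exact h2
    let R : Finset F := ((Polynomial.nthRootsFinset N (1 : F)).erase 1).erase κ⁻¹
    have hR : ∀ μ, End.eigenspace (t.restrict htU) μ ≠ ⊥ → μ ∈ R := by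
      intro μ hμ
      obtain ⟨⟨w, hw⟩, hw1, hw0⟩ := Submodule.exists_mem_ne_zero_of_ne_bot hμ
      rw [End.mem_eigenspace_iff] at hw1
      obtain ⟨h1, h2, h3, -⟩ := heig μ w hw (fun h0 => hw0 (Subtype.ext h0)) (congrArg Subtype.val hw1)
      rw [Finset.mem_erase, Finset.mem_erase, Polynomial.mem_nthRootsFinset (by omega)]
      refine ⟨?_, h2, h1⟩
      intro h4
      apply h3
      rw [h4, mul_inv_cancel₀ hκ0]
    have hcard : R.card ≤ N - 2 := by
      have h1 : (1 : F) ∈ Polynomial.nthRootsFinset N (1 : F) := by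
        rw [Polynomial.mem_nthRootsFinset (by omega)]; simp
      have h2 : (Polynomial.nthRootsFinset N (1 : F)).card ≤ N := by
        unfold Polynomial.nthRootsFinset
        refine (Multiset.toFinset_card_le _).trans (Polynomial.card_nthRoots N 1)
      have h3 : κ⁻¹ ∈ (Polynomial.nthRootsFinset N (1 : F)).erase 1 := by
        rw [Finset.mem_erase, Polynomial.mem_nthRootsFinset (by omega)]
        refine ⟨fun h4 => hκ1 (inv_eq_one.1 h4), ?_⟩
        rw [inv_pow, hκN, inv_one]
      show (((Polynomial.nthRootsFinset N (1 : F)).erase 1).erase κ⁻¹).card ≤ N - 2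
      rw [Finset.card_erase_of_mem h3, Finset.card_erase_of_mem h1]
      omega
    have h1 := ((h.restrict hU1 hU htU).irr_case hirr hne).2 R hR
    omega
  -- `u` is semisimple
  have hTN : ∃ c : F, T α θ ^ N = c • 1 := by
    apply h.scalar_of_comm (Subalgebra.pow_mem _ T_mem N)
    intro x
    have h1 : ∀ n : ℕ, ∀ x, T α θ ^ n * α x = α ((θ ^ n) x) * T α θ ^ n := by
      intro n
      induction n with
      | zero => intro x; simp
      | succ n ih =>
        intro x
        rw [pow_succ, mul_assoc, T_mul, ← mul_assoc, ih, mul_assoc, pow_succ, MulAut.mul_apply]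
    have h2 := h.pow_inter N x
    rw [h.tN, one_mul, mul_one] at h2
    rw [h1, ← h2]
  obtain ⟨c, hc⟩ := hTN
  have huN : u ^ N = c • 1 := by
    have h1 : Commute t u := hut.symm
    have h2 := h1.mul_pow N
    rw [htu, hc, h.tN, one_mul] at h2
    exact h2.symm
  have hc0 : c ≠ 0 := by
    rintro rfl
    rw [zero_smul] at hc
    have h1 : ∀ n : ℕ, ∀ w, (T α θ ^ n) w = 0 → w = 0 := by
      intro n
      induction n with
      | zero => intro w hw; simpa using hw
      | succ n ih =>
        intro w hw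
        rw [pow_succ, End.mul_apply] at hw
        have h2 := ih _ hw
        have h3 : w ∈ LinearMap.ker (T α θ) := h2
        rwa [h.ker_T, Submodule.mem_bot] at h3
    obtain ⟨w, hw⟩ := exists_ne (0 : W)
    exact hw (h1 N w (by rw [hc, LinearMap.zero_apply]))
  have hss : u.IsSemisimple := isSemisimple_of_pow u h.NF hc0 huN
  have htop := hss.iSup_eigenspace_eq_top
  have hltop : End.eigenspace u l = ⊤ := by
    rw [eq_top_iff, ← htop]
    apply iSup_le
    intro m
    by_cases hm : End.eigenspace u m = ⊥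
    · rw [hm]; exact bot_le
    · rw [huniq m hm]
  have hu : u = l • 1 := by
    ext w
    have h1 : w ∈ End.eigenspace u l := by rw [hltop]; trivial
    rw [End.mem_eigenspace_iff] at h1
    rw [h1]; rfl
  have htT : t = l⁻¹ • T α θ := by
    rw [← htu, hu, mul_smul_comm, mul_one, smul_smul, inv_mul_cancel₀ hl0, one_smul]
  rw [htT, mul_smul_comm, smul_mul_assoc, alg_comm T_mem hg]

end main

end Cfsg.Agent.H452.Shult
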