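import Mathlib

/-!
# Number theory for the odd case of Shult's theorem
-/

set_option autoImplicit false

namespace Cfsg.Agent.H452.Num

/-- `p` odd, `2 ^ d = p ^ k - 1`, `p ^ n ∣ 2 ^ M - 1`, `k ≤ n`, `0 < M` imply `2 d p ^ (n - k) ≤ M`. -/
theorem le_of_dvd {p k n d M : ℕ} (hp : p.Prime) (hp2 : p ≠ 2) (hk : 0 < k) (hd : 2 ^ d + 1 = p ^ k)
    (hkn : k ≤ n) (hM : 0 < M) (h : p ^ n ∣ 2 ^ M - 1) : 2 * d * p ^ (n - k) ≤ M := by
  have hp3 : 3 ≤ p := by
    have := hp.two_le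
    omega
  have hpk : 3 ≤ p ^ k := by
    calc 3 ≤ p := hp3
      _ = p ^ 1 := (pow_one p).symm
      _ ≤ p ^ k := Nat.pow_le_pow_right hp.pos hk
  have hd1 : 0 < d := by
    rcases Nat.eq_zero_or_pos d with h0 | h0
    · subst h0
      rw [pow_zero] at hd
      omega
    · exact h0
  have hpk' : p ^ k ∣ 2 ^ M - 1 := (pow_dvd_pow p hkn).trans h
  have hM1 : 1 ≤ 2 ^ M := Nat.one_le_two_pow
  -- work in ZMod
  have hz : ((2 : ℕ) : ZMod (p ^ k)) ^ M = 1 := by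
    have h1 : ((2 ^ M - 1 : ℕ) : ZMod (p ^ k)) = 0 := (ZMod.natCast_eq_zero_iff _ _).2 hpk'
    rw [Nat.cast_sub hM1, Nat.cast_pow, Nat.cast_one, sub_eq_zero] at h1
    exact h1
  have hzd : ((2 : ℕ) : ZMod (p ^ k)) ^ d = -1 := by
    have h1 : ((2 ^ d + 1 : ℕ) : ZMod (p ^ k)) = 0 := by
      rw [hd]; exact (ZMod.natCast_eq_zero_iff _ _).2 dvd_rfl
    rw [Nat.cast_add, Nat.cast_pow, Nat.cast_one] at h1
    exact eq_neg_of_add_eq_zero_left h1
  have hz2d : ((2 : ℕ) : ZMod (p ^ k)) ^ (2 * d) = 1 := by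
    rw [mul_comm, pow_mul, hzd]; ring
  have hzero : ∀ a : ℕ, 0 < a → a < p ^ k → ((a : ℕ) : ZMod (p ^ k)) ≠ 0 := by
    intro a ha hap h0
    have h1 := (ZMod.natCast_eq_zero_iff _ _).1 h0
    exact absurd (Nat.le_of_dvd ha h1) (by omega)
  have hmod : M % (2 * d) = 0 := by
    by_contra hr
    set s := M % (2 * d) with hs
    have hs0 : 0 < s := Nat.pos_of_ne_zero hr
    have hs2 : s < 2 * d := Nat.mod_lt _ (by omega)
    have hzs : ((2 : ℕ) : ZMod (p ^ k)) ^ s = 1 := by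
      have h1 := hz
      rw [← Nat.mod_add_div M (2 * d), pow_add, pow_mul, hz2d, one_pow, mul_one] at h1
      exact h1
    rcases le_or_gt s d with hsd | hsd
    · have h1 : 1 ≤ 2 ^ s := Nat.one_le_two_pow
      have h2 : ((2 ^ s - 1 : ℕ) : ZMod (p ^ k)) = 0 := by
        rw [Nat.cast_sub h1, Nat.cast_pow, hzs, Nat.cast_one, sub_self]
      refine hzero _ ?_ ?_ h2
      · have : 1 < 2 ^ s := Nat.one_lt_two_pow hs0.ne'
        omega
      · have : 2 ^ s ≤ 2 ^ d := Nat.pow_le_pow_right (by norm_num) hsd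
        omega
    · obtain ⟨e, he⟩ : ∃ e, s = d + e := ⟨s - d, by omega⟩
      have h2 : ((2 ^ e + 1 : ℕ) : ZMod (p ^ k)) = 0 := by
        rw [he, pow_add, hzd] at hzs
        rw [Nat.cast_add, Nat.cast_pow, Nat.cast_one]
        linear_combination -hzs
      refine hzero _ (Nat.succ_pos _) ?_ h2
      have : 2 ^ e < 2 ^ d := Nat.pow_lt_pow_right (by norm_num) (by omega)
      omega
  obtain ⟨q, hq⟩ := Nat.dvd_of_mod_eq_zero hmod
  have hq0 : q ≠ 0 := by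
    rintro rfl
    rw [mul_zero] at hq
    omega
  have hfp : Fact p.Prime := ⟨hp⟩
  have hpodd : Odd p := hp.odd_of_ne_two hp2
  have hp2k : ¬ p ∣ p ^ k - 2 := by
    intro h1
    have h2 : p ∣ p ^ k := dvd_pow_self p hk.ne'
    have h3 : p ∣ 2 := by
      have h4 : p ^ k - (p ^ k - 2) = 2 := by omega
      rw [← h4]
      exact Nat.dvd_sub h2 h1
    have := Nat.le_of_dvd (by norm_num) h3
    omega
  have hfac : 2 ^ (2 * d) - 1 ^ (1 : ℕ) = (p ^ k - 2) * p ^ k := by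
    have h1 : 2 ^ (2 * d) = 2 ^ d * 2 ^ d := by rw [two_mul, pow_add]
    rw [h1, one_pow]
    obtain ⟨a, ha⟩ : ∃ a, 2 ^ d = a + 1 := ⟨2 ^ d - 1, by have : 1 ≤ 2 ^ d := Nat.one_le_two_pow; omega⟩
    have h2 : p ^ k = a + 2 := by omega
    rw [ha, h2]
    have h3 : a + 2 - 2 = a := by omega
    rw [h3]
    have h4 : (a + 1) * (a + 1) = a * (a + 2) + 1 := by ring
    omega
  have hv1 : padicValNat p (2 ^ (2 * d) - 1) = k := by
    rw [← one_pow (1 : ℕ) (M := ℕ), hfac, padicValNat.mul (by omega) (by positivity),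
      padicValNat.eq_zero_of_not_dvd hp2k, padicValNat.prime_pow, zero_add]
  have hv2 : padicValNat p ((2 ^ (2 * d)) ^ q - 1 ^ q) = k + padicValNat p q := by
    have h4 : 1 < 2 ^ (2 * d) := Nat.one_lt_two_pow (by omega)
    rw [padicValNat.pow_sub_pow hpodd h4 ?_ ?_ hq0, hv1]
    · have : 2 ^ (2 * d) - 1 = (p ^ k - 2) * p ^ k := by rw [← hfac, one_pow]
      rw [this]
      exact Dvd.dvd.mul_left (dvd_pow_self p hk.ne') _
    · intro h5
      have h6 := hp.dvd_of_dvd_pow h5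
      have := Nat.le_of_dvd (by norm_num) h6
      omega
  have hne : 2 ^ M - 1 ≠ 0 := by
    have : 1 < 2 ^ M := Nat.one_lt_two_pow hM.ne'
    omega
  have hv3 : n ≤ padicValNat p (2 ^ M - 1) := (padicValNat_dvd_iff_le hne).1 h
  rw [hq, pow_mul, ← one_pow q, hv2] at hv3
  have h7 : p ^ (n - k) ∣ q := (padicValNat_dvd_iff_le hq0).2 (by omega)
  have h8 := Nat.le_of_dvd (Nat.pos_of_ne_zero hq0) h7
  rw [hq]
  exact Nat.mul_le_mul_left _ h8

end Cfsg.Agent.H452.Num
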