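import Mathlib
import Cfsg.Agent.Lib.CoprimeCommutator
import Cfsg.Agent.S1459

/-!
# Minimal coprime action on an `r`-group

`X` normalises the `r`-group `Q`, `Y` is a normal subgroup of `X` of order prime to `r`, `Y` centralises all proper
`X`-invariant subgroups of `Q` but not `Q`. Then `⁅Q, Y⁆ = Q`, `⁅Q, Q⁆ ≤ Z(Q)`, and if `Q` is not abelian
`⁅Q, Q⁆ = Z(Q) = C_Q(Y)` and `x ^ r ∈ Z(Q)` for `x ∈ Q`.
-/

set_option autoImplicit false

namespace Cfsg.Agent.H452.MinAct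

open scoped commutatorElement
open Cfsg.Agent.Lib.CoprimeCommutator

variable {G : Type*} [Group G]

theorem le_normalizer_of_conj {X H : Subgroup G} (h : ∀ a ∈ X, ∀ x ∈ H, a * x * a⁻¹ ∈ H) :
    X ≤ Subgroup.normalizer (H : Set G) := by
  intro a ha
  rw [Subgroup.mem_normalizer_iff]
  intro x
  refine ⟨h a ha x, fun hx => ?_⟩
  have h2 := h a⁻¹ (X.inv_mem ha) _ hx
  have h1 : a⁻¹ * (a * x * a⁻¹) * a⁻¹⁻¹ = x := by group
  rwa [h1] at h2

theorem conj_of_le_normalizer {X H : Subgroup G} (h : X ≤ Subgroup.normalizer (H : Set G)) {a x : G}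
    (ha : a ∈ X) (hx : x ∈ H) : a * x * a⁻¹ ∈ H :=
  (Subgroup.mem_normalizer_iff.1 (h ha) x).1 hx

theorem le_normalizer_commutator {X H K : Subgroup G} (hH : X ≤ Subgroup.normalizer (H : Set G))
    (hK : X ≤ Subgroup.normalizer (K : Set G)) :
    X ≤ Subgroup.normalizer ((⁅H, K⁆ : Subgroup G) : Set G) := by
  apply le_normalizer_of_conj
  intro a ha x hx
  have h1 : a * x * a⁻¹ ∈ (⁅H, K⁆ : Subgroup G).map (MulAut.conj a).toMonoidHom := ⟨x, hx, rfl⟩
  rw [Subgroup.map_commutator] at h1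
  refine Subgroup.commutator_mono ?_ ?_ h1
  · rintro _ ⟨g, hg, rfl⟩
    exact conj_of_le_normalizer hH ha hg
  · rintro _ ⟨d, hd, rfl⟩
    exact conj_of_le_normalizer hK ha hd

theorem le_normalizer_inf {X H K : Subgroup G} (hH : X ≤ Subgroup.normalizer (H : Set G))
    (hK : X ≤ Subgroup.normalizer (K : Set G)) :
    X ≤ Subgroup.normalizer ((H ⊓ K : Subgroup G) : Set G) := by
  apply le_normalizer_of_conj
  intro a ha x hx
  exact ⟨conj_of_le_normalizer hH ha hx.1, conj_of_le_normalizer hK ha hx.2⟩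

theorem le_normalizer_centralizer {X H : Subgroup G} (hH : X ≤ Subgroup.normalizer (H : Set G)) :
    X ≤ Subgroup.normalizer (Subgroup.centralizer (H : Set G) : Set G) := by
  apply le_normalizer_of_conj
  intro a ha x hx
  rw [Subgroup.mem_centralizer_iff] at hx ⊢
  intro y hy
  have h1 := conj_of_le_normalizer hH (X.inv_mem ha) hy
  have h2 := hx _ h1
  calc y * (a * x * a⁻¹) = a * ((a⁻¹ * y * a⁻¹⁻¹) * x) * a⁻¹ := by group
    _ = a * (x * (a⁻¹ * y * a⁻¹⁻¹)) * a⁻¹ := by rw [h2]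
    _ = a * x * a⁻¹ * y := by group

theorem le_normalizer_sup {X H K : Subgroup G} (hH : X ≤ Subgroup.normalizer (H : Set G))
    (hK : X ≤ Subgroup.normalizer (K : Set G)) :
    X ≤ Subgroup.normalizer ((H ⊔ K : Subgroup G) : Set G) := by
  apply le_normalizer_of_conj
  intro a ha x hx
  have h1 : a * x * a⁻¹ ∈ (H ⊔ K : Subgroup G).map (MulAut.conj a).toMonoidHom := ⟨x, hx, rfl⟩
  rw [Subgroup.map_sup] at h1
  have h2 : H.map (MulAut.conj a).toMonoidHom ≤ H := by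
    rintro _ ⟨g, hg, rfl⟩
    exact conj_of_le_normalizer hH ha hg
  have h3 : K.map (MulAut.conj a).toMonoidHom ≤ K := by
    rintro _ ⟨d, hd, rfl⟩
    exact conj_of_le_normalizer hK ha hd
  exact (sup_le_sup h2 h3 : _ ≤ H ⊔ K) h1

theorem commutator_eq_bot_iff {H K : Subgroup G} :
    ⁅H, K⁆ = ⊥ ↔ ∀ x ∈ H, ∀ y ∈ K, x * y = y * x := by
  rw [Subgroup.commutator_eq_bot_iff_le_centralizer]
  constructor
  · intro h x hx y hy
    exact ((Subgroup.mem_centralizer_iff.1 (h hx)) y hy).symm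
  · intro h x hx
    rw [Subgroup.mem_centralizer_iff]
    intro y hy
    exact (h x hx y hy).symm

theorem mem_inf_centralizer {H K : Subgroup G} {x : G} :
    x ∈ H ⊓ Subgroup.centralizer (K : Set G) ↔ x ∈ H ∧ ∀ y ∈ K, x * y = y * x := by
  rw [Subgroup.mem_inf, Subgroup.mem_centralizer_iff]
  constructor
  · rintro ⟨h1, h2⟩
    exact ⟨h1, fun y hy => (h2 y hy).symm⟩
  · rintro ⟨h1, h2⟩
    exact ⟨h1, fun y hy => (h2 y hy).symm⟩

/-- `C_H(K) ≤ H'` for a coprime action with `H = ⁅H, K⁆`. -/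
theorem inf_centralizer_le [Finite G] {H K : Subgroup G} (hKH : K ≤ Subgroup.normalizer (H : Set G))
    (hcop : (Nat.card H).Coprime (Nat.card K)) (hle : H = ⁅H, K⁆) :
    H ⊓ Subgroup.centralizer (K : Set G) ≤ ⁅H, H⁆ := by
  let M : Subgroup G := Subgroup.normalizer (H : Set G)
  have hHM : H ≤ M := Subgroup.le_normalizer
  have hH' : (H.subgroupOf M).map M.subtype = H := by
    rw [Subgroup.subgroupOf_map_subtype, inf_eq_left.2 hHM]
  have hK' : (K.subgroupOf M).map M.subtype = K := by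
    rw [Subgroup.subgroupOf_map_subtype, inf_eq_left.2 hKH]
  have hn : (H.subgroupOf M).Normal := Subgroup.normal_in_normalizer
  have h1 := S1459.centralizer_le (H.subgroupOf M) (K.subgroupOf M) hn (by
    rw [Nat.card_congr (Subgroup.subgroupOfEquivOfLe hHM).toEquiv,
      Nat.card_congr (Subgroup.subgroupOfEquivOfLe hKH).toEquiv]
    exact hcop) (by
    apply Subgroup.map_injective M.subtype_injective
    rw [Subgroup.map_commutator, hH', hK']
    exact hle)
  intro x hx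
  rw [mem_inf_centralizer] at hx
  have h2 : (⟨x, hHM hx.1⟩ : M) ∈ (⁅H.subgroupOf M, H.subgroupOf M⁆ : Subgroup M) := by
    apply h1
    rw [mem_inf_centralizer]
    refine ⟨hx.1, ?_⟩
    intro y hy
    exact Subtype.ext (hx.2 y hy)
  have h3 : x ∈ (⁅H.subgroupOf M, H.subgroupOf M⁆ : Subgroup M).map M.subtype := ⟨_, h2, rfl⟩
  rw [Subgroup.map_commutator, hH'] at h3
  exact h3

/-- A proper characteristic subgroup of a nontrivial `r`-group containing the `r`-th powers and the commutator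
subgroup. -/
theorem exists_frattini [Finite G] {Q : Subgroup G} {r : ℕ} [hr : Fact r.Prime] (hQ : IsPGroup r Q)
    (hQ1 : Q ≠ ⊥) : ∃ Φ : Subgroup G, Φ ≤ Q ∧ Φ ≠ Q ∧ (∀ x ∈ Q, x ^ r ∈ Φ) ∧ ⁅Q, Q⁆ ≤ Φ ∧
      ∀ X : Subgroup G, X ≤ Subgroup.normalizer (Q : Set G) → X ≤ Subgroup.normalizer (Φ : Set G) := by
  let P : Subgroup G := Subgroup.closure {y | ∃ x ∈ Q, x ^ r = y}
  have hPQ : P ≤ Q := by
    rw [Subgroup.closure_le]
    rintro _ ⟨x, hx, rfl⟩
    exact Q.pow_mem hx r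
  refine ⟨⁅Q, Q⁆ ⊔ P, sup_le (Subgroup.commutator_le_self Q) hPQ, ?_, ?_, le_sup_left, ?_⟩
  · -- a maximal subgroup
    have hnt : Nontrivial Q := (Subgroup.nontrivial_iff_ne_bot Q).2 hQ1
    obtain ⟨k, hk⟩ := IsPGroup.iff_card.1 hQ
    have hk0 : k ≠ 0 := by
      rintro rfl
      rw [pow_zero] at hk
      exact hQ1 (Subgroup.card_eq_one.1 hk)
    obtain ⟨m, rfl⟩ := Nat.exists_eq_succ_of_ne_zero hk0
    obtain ⟨M, hM⟩ := Sylow.exists_subgroup_card_pow_prime (G := Q) r (n := m) (by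
      rw [hk]; exact pow_dvd_pow r (Nat.le_succ m))
    have hMi : M.index = r := by
      have h1 := M.card_mul_index
      rw [hM, hk, pow_succ] at h1
      exact Nat.eq_of_mul_eq_mul_left (pow_pos hr.out.pos m) h1
    have hMn : M.Normal := by
      apply Subgroup.normal_of_index_eq_minFac_card
      rw [hMi, hk, Nat.succ_eq_add_one, Nat.Prime.pow_minFac hr.out (Nat.succ_ne_zero m)]
    have hle : ⁅Q, Q⁆ ⊔ P ≤ M.map Q.subtype := by
      apply sup_le
      · have h2 : commutator Q ≤ M := by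
          have hc : Nat.card (Q ⧸ M) = r := by rw [← Subgroup.index_eq_card, hMi]
          have : IsCyclic (Q ⧸ M) := isCyclic_of_prime_card hc
          have hcomm : IsMulCommutative (Q ⧸ M) := inferInstance
          exact Subgroup.Normal.quotient_commutative_iff_commutator_le.mp hcomm
        have h3 := Subgroup.map_mono (f := Q.subtype) h2
        rw [Subgroup.map_subtype_commutator] at h3
        exact h3
      · rw [Subgroup.closure_le]
        rintro _ ⟨x, hx, rfl⟩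
        refine ⟨(⟨x, hx⟩ : Q) ^ r, ?_, rfl⟩
        have := Subgroup.pow_index_mem M (⟨x, hx⟩ : Q)
        rwa [hMi] at this
    intro heq
    rw [heq] at hle
    have h4 : M = ⊤ := by
      rw [eq_top_iff]
      intro x _
      obtain ⟨y, hy, hxy⟩ := hle x.2
      have : y = x := Subtype.ext hxy
      rw [← this]; exact hy
    rw [h4, Subgroup.index_top] at hMi
    exact hr.out.one_lt.ne hMi
  · intro x hx
    exact (le_sup_right : P ≤ _) (Subgroup.subset_closure ⟨x, hx, rfl⟩)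
  · intro X hX
    apply le_normalizer_sup (le_normalizer_commutator hX hX)
    apply le_normalizer_of_conj
    intro a ha x hx
    have h1 : P.map (MulAut.conj a).toMonoidHom ≤ P := by
      rw [MonoidHom.map_closure, Subgroup.closure_le]
      rintro _ ⟨_, ⟨y, hy, rfl⟩, rfl⟩
      apply Subgroup.subset_closure
      refine ⟨a * y * a⁻¹, conj_of_le_normalizer hX ha hy, ?_⟩
      rw [map_pow]; rfl
    exact h1 ⟨x, hx, rfl⟩

/-- **Minimal action.** -/
theorem minAct [Finite G] {Q X Y : Subgroup G} {r : ℕ} [hr : Fact r.Prime] (hQ : IsPGroup r Q)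
    (hYX : Y ≤ X) (hXY : X ≤ Subgroup.normalizer (Y : Set G)) (hXQ : X ≤ Subgroup.normalizer (Q : Set G))
    (hY : ¬ r ∣ Nat.card Y)
    (hproper : ∀ H : Subgroup G, H ≤ Q → H ≠ Q → X ≤ Subgroup.normalizer (H : Set G) → ⁅H, Y⁆ = ⊥)
    (hne : ⁅Q, Y⁆ ≠ ⊥) :
    ⁅Q, Y⁆ = Q ∧ ⁅Q, Q⁆ ≤ Q ⊓ Subgroup.centralizer (Q : Set G) ∧
      Q ⊓ Subgroup.centralizer (Y : Set G) ≤ ⁅Q, Q⁆ ∧ (∀ x ∈ Q, x ^ r ∈ ⁅Q, Q⁆) ∧
      (⁅Q, Q⁆ ≠ ⊥ → Q ⊓ Subgroup.centralizer (Q : Set G) ≤ Q ⊓ Subgroup.centralizer (Y : Set G)) := by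
  have hYQ : Y ≤ Subgroup.normalizer (Q : Set G) := hYX.trans hXQ
  have hcop : (Nat.card Y).Coprime (Nat.card Q) := by
    obtain ⟨k, hk⟩ := IsPGroup.iff_card.1 hQ
    rw [hk]
    exact (Nat.Coprime.pow_left k ((Nat.Prime.coprime_iff_not_dvd hr.out).2 hY)).symm
  have hle1 : ⁅Q, Y⁆ ≤ Q := commutator_le_left hYQ
  have h1 : ⁅Q, Y⁆ = Q := by
    by_contra hcon
    apply hne
    rw [← commutator_commutator_eq Y Q hYQ hcop]
    exact hproper _ hle1 hcon (le_normalizer_commutator hXQ hXY)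
  have hQ1 : Q ≠ ⊥ := by
    rintro rfl
    apply hne
    rw [Subgroup.commutator_bot_left]
  obtain ⟨Φ, hΦQ, hΦne, hΦr, hΦc, hΦn⟩ := exists_frattini hQ hQ1
  have h2 : ⁅Φ, Y⁆ = ⊥ := hproper Φ hΦQ hΦne (hΦn X hXQ)
  have h3 : ⁅(⁅Q, Q⁆ : Subgroup G), Y⁆ = ⊥ := by
    rw [eq_bot_iff, ← h2]
    exact Subgroup.commutator_mono hΦc le_rfl
  have h4 : ⁅Q, Q⁆ ≤ Q ⊓ Subgroup.centralizer (Q : Set G) := by
    refine le_inf (Subgroup.commutator_le_self Q) ?_
    rw [← Subgroup.commutator_eq_bot_iff_le_centralizer]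
    have h5 : ⁅⁅Y, Q⁆, ⁅Q, Q⁆⁆ = ⊥ := by
      apply Subgroup.commutator_commutator_eq_bot_of_rotate
      · rw [eq_bot_iff]
        have h2 : ⁅Q, ⁅Q, Q⁆⁆ ≤ ⁅Q, Q⁆ :=
          Subgroup.commutator_mono le_rfl (Subgroup.commutator_le_self Q)
        calc ⁅⁅Q, ⁅Q, Q⁆⁆, Y⁆ ≤ ⁅⁅Q, Q⁆, Y⁆ := Subgroup.commutator_mono h2 le_rfl
          _ = ⊥ := h3
      · rw [h3, Subgroup.commutator_bot_left]
    rw [Subgroup.commutator_comm Y Q, h1, Subgroup.commutator_comm] at h5
    exact h5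
  have h5 : Q ⊓ Subgroup.centralizer (Y : Set G) ≤ ⁅Q, Q⁆ :=
    inf_centralizer_le hYQ hcop.symm h1.symm
  refine ⟨h1, h4, h5, ?_, ?_⟩
  · intro x hx
    apply h5
    rw [mem_inf_centralizer]
    exact ⟨Q.pow_mem hx r, fun y hy => commutator_eq_bot_iff.1 h2 _ (hΦr x hx) y hy⟩
  · intro hnab
    refine le_inf inf_le_left ?_
    rw [← Subgroup.commutator_eq_bot_iff_le_centralizer]
    apply hproper _ inf_le_left
    · intro heq
      apply hnab
      rw [commutator_eq_bot_iff]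
      intro a ha b hb
      rw [← heq] at ha
      exact (mem_inf_centralizer.1 ha).2 b hb
    · exact le_normalizer_inf hXQ (le_normalizer_centralizer hXQ)

end Cfsg.Agent.H452.MinAct
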