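import Mathlib
import Cfsg.Agent.OddOrderLocal.Thm34Weights

/-!
# Weights and groups acting without fixed vectors

`A` a finite group (order invertible in `F`) normalising the abelian group `N`, both acting on `V`,
`A` without nonzero fixed vectors.
* `eq_zero_of_stab_fixed`: the stabiliser in `A` of a weight `χ` of `N` has no nonzero fixed vectors in the
  weight space of `χ`.
* `comm_of_min`: if all non-trivial subgroups of `A` contain `φ`, then `φ` centralises `N` on `V`.
* `mem_of_ne_bot`: in a cyclic group `⟨σ⟩`, `σ ^ (p ^ (n + 1)) = 1`, all non-trivial subgroups contain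
  `σ ^ (p ^ n)`.
-/

set_option autoImplicit false

namespace Cfsg.Agent.H452.Orbit

open Module
open Cfsg.Agent.OddOrderLocal.Thm34Weights

attribute [local instance] wtAction

section normal

variable {F : Type*} [Field F] {G : Type*} [Group G] {V : Type*} [AddCommGroup V] [Module F V]

/-- The stabiliser of `χ` in `A`. -/
def stab (N : Subgroup G) [N.Normal] (A : Subgroup G) (χ : N → F) : Subgroup G where
  carrier := {a | a ∈ A ∧ a • χ = χ}
  mul_mem' := by
    rintro a b ⟨ha, ha'⟩ ⟨hb, hb'⟩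
    exact ⟨A.mul_mem ha hb, by rw [mul_smul, hb', ha']⟩
  one_mem' := ⟨A.one_mem, one_smul _ _⟩
  inv_mem' := by
    rintro a ⟨ha, ha'⟩
    refine ⟨A.inv_mem ha, ?_⟩
    conv_lhs => rw [← ha']
    rw [inv_smul_smul]

omit [Field F] in
theorem mem_stab {N : Subgroup G} [N.Normal] {A : Subgroup G} {χ : N → F} {a : G} :
    a ∈ stab N A χ ↔ a ∈ A ∧ a • χ = χ := Iff.rfl

omit [Field F] in
theorem stab_le {N : Subgroup G} [N.Normal] {A : Subgroup G} {χ : N → F} : stab N A χ ≤ A :=
  fun _ h => h.1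

theorem card_ne_zero_of_le {A B : Subgroup G} [Finite A] (hA : (Nat.card A : F) ≠ 0) (h : B ≤ A) :
    (Nat.card B : F) ≠ 0 := by
  obtain ⟨m, hm⟩ := Subgroup.card_dvd_of_le h
  intro h0
  apply hA
  rw [hm, Nat.cast_mul, h0, zero_mul]

/-- Lemma O: the stabiliser of a weight acts without fixed vectors on the weight space. -/
theorem eq_zero_of_stab_fixed [FiniteDimensional F V] (ρ : Representation F G V) (N : Subgroup G) [N.Normal] [Finite N]
    (hN : (Nat.card N : F) ≠ 0) (hcomm : ∀ a ∈ N, ∀ b ∈ N, a * b = b * a)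
    (A : Subgroup G) [Finite A] (hA : (Nat.card A : F) ≠ 0)
    (hfix : ∀ v, (∀ a ∈ A, ρ a v = v) → v = 0) {χ : N → F} {v : V} (hv : v ∈ wt ρ N χ)
    (h : ∀ a ∈ A, a • χ = χ → ρ a v = v) : v = 0 := by
  classical
  have := Fintype.ofFinite A
  -- the sum over A vanishes
  have h0 : ∑ a : A, ρ (a : G) v = 0 := by
    apply hfix
    intro b hb
    rw [map_sum]
    apply Fintype.sum_equiv (Equiv.mulLeft (⟨b, hb⟩ : A))
    intro a
    rw [← End.mul_apply, ← map_mul]
    rfl
  set s : Finset (N → F) := Finset.univ.image (fun a : A => (a : G) • χ) with hs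
  let u : (N → F) → V := fun ψ =>
    ∑ a ∈ (Finset.univ : Finset A).filter (fun a : A => (a : G) • χ = ψ), ρ (a : G) v
  have hu : ∀ ψ ∈ s, u ψ ∈ wt ρ N ψ := by
    intro ψ _
    apply Submodule.sum_mem
    intro a ha
    rw [Finset.mem_filter] at ha
    rw [← ha.2]
    exact smul_mem_wt hv _
  have hsum : ∑ ψ ∈ s, u ψ = 0 := by
    rw [← h0]
    exact Finset.sum_fiberwise_of_maps_to (s := (Finset.univ : Finset A)) (t := s)
      (g := fun a : A => (a : G) • χ) (fun a _ => Finset.mem_image_of_mem _ (Finset.mem_univ a))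
      (fun a : A => ρ (a : G) v)
  have h1 := eq_zero_of_sum_wt hN hcomm s (fun ψ => ψ) u (fun _ _ _ _ h => h) hu hsum χ
    (Finset.mem_image.2 ⟨1, Finset.mem_univ _, by simp⟩)
  have h2 : u χ = ((Finset.univ.filter (fun a : A => (a : G) • χ = χ)).card : F) • v := by
    show ∑ a ∈ (Finset.univ : Finset A).filter (fun a : A => (a : G) • χ = χ), ρ (a : G) v = _
    have h5 : ∀ a ∈ Finset.univ.filter (fun a : A => (a : G) • χ = χ), ρ (a : G) v = v :=
      fun a ha => h a a.2 (Finset.mem_filter.1 ha).2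
    rw [Finset.sum_congr rfl h5, Finset.sum_const, Nat.cast_smul_eq_nsmul]
  have h3 : (Finset.univ.filter (fun a : A => (a : G) • χ = χ)).card = Nat.card (stab N A χ) := by
    rw [← Fintype.card_subtype, ← Nat.card_eq_fintype_card]
    apply Nat.card_congr
    exact ⟨fun a => ⟨a.1.1, a.1.2, a.2⟩, fun a => ⟨⟨a.1, a.2.1⟩, a.2.2⟩, fun _ => rfl, fun _ => rfl⟩
  rw [h2, h3] at h1
  rcases smul_eq_zero.1 h1 with h4 | h4
  · exact absurd h4 (card_ne_zero_of_le hA stab_le)
  · exact h4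

/-- The stabiliser of a weight is not trivial. -/
theorem stab_ne_bot [FiniteDimensional F V] (ρ : Representation F G V) (N : Subgroup G) [N.Normal] [Finite N]
    (hN : (Nat.card N : F) ≠ 0) (hcomm : ∀ a ∈ N, ∀ b ∈ N, a * b = b * a)
    (A : Subgroup G) [Finite A] (hA : (Nat.card A : F) ≠ 0)
    (hfix : ∀ v, (∀ a ∈ A, ρ a v = v) → v = 0) {χ : N → F} (hχ : wt ρ N χ ≠ ⊥) :
    stab N A χ ≠ ⊥ := by
  intro hb
  apply hχ
  rw [Submodule.eq_bot_iff]
  intro v hv
  apply eq_zero_of_stab_fixed ρ N hN hcomm A hA hfix hv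
  intro a ha ha'
  have h1 : a ∈ stab N A χ := ⟨ha, ha'⟩
  rw [hb, Subgroup.mem_bot] at h1
  rw [h1, map_one, End.one_apply]

theorem comm_of_smul_eq [IsAlgClosed F] [FiniteDimensional F V] (ρ : Representation F G V)
    (N : Subgroup G) [N.Normal] [Finite N] (hN : (Nat.card N : F) ≠ 0)
    (hcomm : ∀ a ∈ N, ∀ b ∈ N, a * b = b * a) (g : G)
    (hg : ∀ χ : N → F, wt ρ N χ ≠ ⊥ → g • χ = χ) : ∀ n ∈ N, ρ (g * n) = ρ (n * g) := by
  intro n hn
  have h1 : ∀ χ : N → F, wt ρ N χ ≤ LinearMap.ker (ρ (g * n) - ρ (n * g)) := by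
    intro χ v hv
    by_cases hχ : wt ρ N χ = ⊥
    · rw [hχ, Submodule.mem_bot] at hv
      rw [hv]; exact Submodule.zero_mem _
    rw [LinearMap.mem_ker, LinearMap.sub_apply, sub_eq_zero, map_mul, map_mul, End.mul_apply,
      End.mul_apply]
    have h2 := smul_mem_wt hv g
    rw [hg χ hχ] at h2
    rw [mem_wt] at hv h2
    have h3 := hv ⟨n, hn⟩
    have h4 := h2 ⟨n, hn⟩
    simp only at h3 h4
    rw [h3, h4, map_smul]
  have h2 : (⊤ : Submodule F V) ≤ LinearMap.ker (ρ (g * n) - ρ (n * g)) := by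
    rw [← iSup_wt ρ N hN hcomm]
    exact iSup_le h1
  ext v
  have h3 := h2 (Submodule.mem_top (x := v))
  rw [LinearMap.mem_ker, LinearMap.sub_apply, sub_eq_zero] at h3
  exact h3

end normal

section general

variable {F : Type*} [Field F] [IsAlgClosed F] {G : Type*} [Group G] {V : Type*} [AddCommGroup V]
  [Module F V] [FiniteDimensional F V]

/-- Lemma E: `A` normalises the abelian group `N`, all nontrivial subgroups of `A` contain `φ`, and `A` has
no nonzero fixed vectors; then `φ` commutes with `N` on `V`. -/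
theorem comm_of_min (ρ : Representation F G V) (N : Subgroup G) [Finite N]
    (hN : (Nat.card N : F) ≠ 0) (hcomm : ∀ a ∈ N, ∀ b ∈ N, a * b = b * a)
    (A : Subgroup G) [Finite A] (hA : (Nat.card A : F) ≠ 0) (hAN : A ≤ Subgroup.normalizer (N : Set G))
    (hfix : ∀ v, (∀ a ∈ A, ρ a v = v) → v = 0) {φ : G} (hφ : φ ∈ A)
    (hmin : ∀ H : Subgroup G, H ≤ A → H ≠ ⊥ → φ ∈ H) : ∀ n ∈ N, ρ (φ * n) = ρ (n * φ) := by
  let M : Subgroup G := Subgroup.normalizer (N : Set G)
  have hNM : N ≤ M := Subgroup.le_normalizer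
  have hcN : Nat.card (N.subgroupOf M) = Nat.card N :=
    Nat.card_congr (Subgroup.subgroupOfEquivOfLe hNM).toEquiv
  have hcA : Nat.card (A.subgroupOf M) = Nat.card A :=
    Nat.card_congr (Subgroup.subgroupOfEquivOfLe hAN).toEquiv
  have hfN : Finite (N.subgroupOf M) := (Subgroup.subgroupOfEquivOfLe hNM).finite_iff.2 inferInstance
  have hfA : Finite (A.subgroupOf M) := (Subgroup.subgroupOfEquivOfLe hAN).finite_iff.2 inferInstance
  have hnn : (N.subgroupOf M).Normal := Subgroup.normal_in_normalizer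
  have key := comm_of_smul_eq (ρ.comp M.subtype) (N.subgroupOf M) (by rw [hcN]; exact hN)
    (fun a ha b hb => Subtype.ext (hcomm a ha b hb)) ⟨φ, hAN hφ⟩ (by
      intro χ hχ
      have h1 := stab_ne_bot (ρ.comp M.subtype) (N.subgroupOf M) (by rw [hcN]; exact hN)
        (fun a ha b hb => Subtype.ext (hcomm a ha b hb)) (A.subgroupOf M) (by rw [hcA]; exact hA)
        (by
          intro v hv
          apply hfix
          intro a ha
          exact hv ⟨a, hAN ha⟩ ha) hχ
      have h2 := hmin ((stab (N.subgroupOf M) (A.subgroupOf M) χ).map M.subtype) (by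
        rintro _ ⟨a, ha, rfl⟩
        exact ha.1) (by
        intro h
        apply h1
        exact (Subgroup.map_eq_bot_iff_of_injective _ M.subtype_injective).1 h)
      obtain ⟨a, ha, ha'⟩ := h2
      have h3 : a = ⟨φ, hAN hφ⟩ := Subtype.ext ha'
      rw [← h3]
      exact ha.2)
  intro n hn
  exact key ⟨n, hNM hn⟩ hn

end general

/-- In a cyclic `p`-group every nontrivial subgroup contains the elements of order `p`. -/
theorem mem_of_ne_bot {G : Type*} [Group G] {p n : ℕ} (hp : p.Prime) {σ : G}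
    (hσ : σ ^ p ^ (n + 1) = 1) {H : Subgroup G} (hH : H ≤ Subgroup.zpowers σ) (hne : H ≠ ⊥) :
    σ ^ p ^ n ∈ H := by
  obtain ⟨⟨h, hh⟩, h1'⟩ := Subgroup.ne_bot_iff_exists_ne_one.1 hne
  have h1 : h ≠ 1 := fun h0 => h1' (Subtype.ext h0)
  obtain ⟨j, hj⟩ := hH hh
  have hj' : σ ^ j = h := hj
  -- Bezout
  have hb := Int.gcd_eq_gcd_ab j (p ^ (n + 1) : ℕ)
  have hg : (Int.gcd j (p ^ (n + 1) : ℕ)) ∣ p ^ (n + 1) := by
    have := Int.gcd_dvd_natAbs_right j ((p ^ (n + 1) : ℕ) : ℤ)
    rwa [Int.natAbs_natCast] at this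
  obtain ⟨i, hi, hi'⟩ := (Nat.dvd_prime_pow hp).1 hg
  have hmem : σ ^ p ^ i ∈ H := by
    have h2 : σ ^ ((p ^ i : ℕ) : ℤ) = h ^ (Int.gcdA j (p ^ (n + 1) : ℕ)) := by
      rw [← hi', hb, zpow_add, zpow_mul, hj', zpow_mul, zpow_natCast, hσ, one_zpow, mul_one]
    rw [zpow_natCast] at h2
    rw [h2]
    exact H.zpow_mem hh _
  have hin : i ≤ n := by
    by_contra hcon
    have hi2 : i = n + 1 := by omega
    apply h1
    have h3 : ((p ^ (n + 1) : ℕ) : ℤ) ∣ j := by
      rw [← hi2, ← hi']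
      exact Int.gcd_dvd_left ..
    obtain ⟨m, hm⟩ := h3
    rw [← hj', hm, zpow_mul, zpow_natCast, hσ, one_zpow]
  have h4 : σ ^ p ^ n = (σ ^ p ^ i) ^ p ^ (n - i) := by
    rw [← pow_mul, ← pow_add]
    congr 2
    omega
  rw [h4]
  exact H.pow_mem hmem _

end Cfsg.Agent.H452.Orbit
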