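import Mathlib
import Cfsg.Agent.H452.Base

/-!
# Nilpotency of `⁅G, D⁆` from the two-step property `T2`

`PP Γ A D` : a property of pairs `D ≤ A` of subgroups, closed under quotients by `p'`-groups.
`T2 p PP` : if `A` acts without fixed points on the `r`-group `Q` and on the module `V`, then `D` commutes
with `Q` on `V`. Then `⁅G, D⁆` is nilpotent for every configuration `Cfg p G A` (`isNilpotent_commutator`).
-/

set_option autoImplicit false

namespace Cfsg.Agent.H452.TopN

open Module Cfsg.Agent.H452.Base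
open Cfsg.Agent.Lib.CoprimeCommutator

universe u

/-- Properties of pairs of subgroups. -/
abbrev Pr := ∀ (Γ : Type u) [Group Γ], Subgroup Γ → Subgroup Γ → Prop

/-- `PP` is closed under quotients by normal `p'`-subgroups. -/
structure Closed (p : ℕ) (PP : Pr.{u}) : Prop where
  le : ∀ (Γ : Type u) [Group Γ] (A D : Subgroup Γ), PP Γ A D → D ≤ A
  norm : ∀ (Γ : Type u) [Group Γ] (A D : Subgroup Γ), PP Γ A D → A ≤ Subgroup.normalizer (D : Set Γ)
  quot : ∀ (Γ : Type u) [Group Γ] [Finite Γ] (A D : Subgroup Γ) (N : Subgroup Γ) [N.Normal],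
    ¬ p ∣ Nat.card N → PP Γ A D → PP (Γ ⧸ N) (A.map (QuotientGroup.mk' N)) (D.map (QuotientGroup.mk' N))

/-- The two-step property. -/
def T2 (p : ℕ) (PP : Pr.{u}) : Prop :=
  ∀ (Γ : Type u) [Group Γ] [Finite Γ] (A D Q : Subgroup Γ) (r : ℕ) (F : Type) [Field F] [IsAlgClosed F]
    (V : Type u) [AddCommGroup V] [Module F V] [FiniteDimensional F V] (ρ : Representation F Γ V),
    PP Γ A D → IsPGroup p A → r.Prime → r ≠ p → IsPGroup r Q → A ≤ Subgroup.normalizer (Q : Set Γ) →
    (∀ x ∈ Q, (∀ a ∈ A, a * x = x * a) → x = 1) → (p : F) ≠ 0 → (r : F) ≠ 0 →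
    (∀ v, (∀ a ∈ A, ρ a v = v) → v = 0) → ∀ x ∈ Q, ∀ d ∈ D, ρ (x * d) = ρ (d * x)

/-- A normal `q`-subgroup acts trivially on an irreducible elementary abelian `q`-group. -/
theorem trivial_of_isPGroup {Γ : Type u} [Group Γ] [Finite Γ] {W : Type u} [CommGroup W] [Finite W]
    [Nontrivial W] {q : ℕ} [hq : Fact q.Prime] (hW : ∀ w : W, w ^ q = 1) (κ : Γ →* MulAut W)
    (hirr : ∀ X : Subgroup W, (∀ g, ∀ x ∈ X, κ g x ∈ X) → X = ⊥ ∨ X = ⊤) (R : Subgroup Γ)
    [hRn : R.Normal] (hR : IsPGroup q R) : ∀ x ∈ R, κ x = 1 := by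
  let X : Subgroup W :=
    { carrier := {w | ∀ x ∈ R, κ x w = w}
      mul_mem' := fun {a b} ha hb x hx => by rw [map_mul, ha x hx, hb x hx]
      one_mem' := fun x _ => map_one _
      inv_mem' := fun {a} ha x hx => by rw [map_inv, ha x hx] }
  have hX : ∀ g, ∀ x ∈ X, κ g x ∈ X := by
    intro g w hw x hx
    have h1 : x * g = g * (g⁻¹ * x * g) := by group
    have h2 : g⁻¹ * x * g ∈ R := by
      have := hRn.conj_mem x hx g⁻¹
      rwa [inv_inv] at this
    rw [← MulAut.mul_apply, ← map_mul, h1, map_mul, MulAut.mul_apply, hw _ h2]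
  rcases hirr X hX with h | h
  · exfalso
    let act : MulAction R W := MulAction.compHom W (κ.comp R.subtype)
    have hpW : IsPGroup q W := fun w => ⟨1, by rw [pow_one]; exact hW w⟩
    have hd : q ∣ Nat.card W := by
      obtain ⟨n, hn⟩ := IsPGroup.iff_card.1 hpW
      rw [hn]
      apply dvd_pow_self
      rintro rfl
      rw [pow_zero] at hn
      have := (Nat.card_eq_one_iff_unique.1 hn).1
      exact not_subsingleton W this
    obtain ⟨w, hw, hw1⟩ := hR.exists_fixed_point_of_prime_dvd_card_of_fixed_point W hd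
      (a := (1 : W)) (by intro x; exact map_one (κ x))
    have h1 : w ∈ X := fun x hx => hw ⟨x, hx⟩
    rw [h, Subgroup.mem_bot] at h1
    exact hw1 h1.symm
  · intro x hx
    ext w
    have : w ∈ X := by rw [h]; trivial
    exact this x hx

theorem eq_bot_of_isPGroup {Γ : Type u} [Group Γ] [Finite Γ] {p : ℕ} {T : Subgroup Γ}
    (hT : IsPGroup p T) (hd : ¬ p ∣ Nat.card T) [Fact p.Prime] : T = ⊥ := by
  obtain ⟨k, hk⟩ := IsPGroup.iff_card.1 hT
  rcases Nat.eq_zero_or_pos k with h0 | h0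
  · apply Subgroup.card_eq_one.1
    rw [hk, h0, pow_zero]
  · exact absurd (by rw [hk]; exact dvd_pow_self _ h0.ne') hd

/-- If `L` is normal and nilpotent in `Γ`, its Sylow subgroups are normal in `Γ`. -/
theorem sylow_map_normal {Γ : Type u} [Group Γ] [Finite Γ] {L : Subgroup Γ} (hL : L.Normal)
    (hn : Group.IsNilpotent L) {r : ℕ} [Fact r.Prime] (T : Sylow r L) :
    ((T : Subgroup L).map L.subtype).Normal := by
  have h1 : (T : Subgroup L).Normal := by
    have := (Group.isNilpotent_of_finite_tfae (G := L)).out 0 3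
    exact this.1 hn r inferInstance T
  have h2 : (T : Subgroup L).Characteristic := Sylow.characteristic_of_normal T h1
  exact ConjAct.normal_of_characteristic_of_normal

theorem extN {p : ℕ} [hp : Fact p.Prime] {PP : Pr.{u}} (hc : Closed p PP) (hT : T2 p PP)
    {Γ : Type u} [Group Γ] [Finite Γ] {G A D : Subgroup Γ} (h : Cfg p G A) (hP : PP Γ A D)
    {W : Type u} [CommGroup W] [Finite W] [Nontrivial W] {q : ℕ} [hq : Fact q.Prime]
    (hqp : q ≠ p) (hW : ∀ w : W, w ^ q = 1) (κ : Γ →* MulAut W)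
    (hfix : ∀ w, (∀ a ∈ A, κ a w = w) → w = 1)
    (hirr : ∀ X : Subgroup W, (∀ g, ∀ x ∈ X, κ g x ∈ X) → X = ⊥ ∨ X = ⊤)
    (hfaith : ∀ g ∈ G, κ g = 1 → g = 1) (hnil : Group.IsNilpotent (⁅G, D⁆ : Subgroup Γ)) :
    (⁅G, D⁆ : Subgroup Γ) = ⊥ := by
  have hDA := hc.le Γ A D hP
  have hL : (⁅G, D⁆ : Subgroup Γ).Normal := h.commutator_normal (hc.norm Γ A D hP)
  set L : Subgroup Γ := ⁅G, D⁆ with hLdef
  have hLG : L ≤ G := commutator_le_left (h.le_normalizer D)
  have hqA : ¬ q ∣ Nat.card A := by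
    intro hd
    obtain ⟨k, hk⟩ := IsPGroup.iff_card.1 h.isp
    rw [hk] at hd
    exact hqp ((Nat.prime_dvd_prime_iff_eq hq.out hp.out).1 (hq.out.dvd_of_dvd_pow hd))
  obtain ⟨F, _, _, V, _, _, _, ρ, hF, hρ, hρfix⟩ := exists_rep q hW κ A hqA hfix
  have hcent : ∀ d ∈ D, ∀ x ∈ L, d * x = x * d := by
    intro d hd
    let X : Subgroup Γ := L ⊓ Subgroup.centralizer ({d} : Set Γ)
    have hXL : X = L := by
      apply eq_of_sylow_le inf_le_left
      intro r hr
      have hrf : Fact r.Prime := ⟨hr⟩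
      obtain ⟨T⟩ : Nonempty (Sylow r L) := inferInstance
      refine ⟨T, ?_⟩
      have hTn := sylow_map_normal hL hnil T
      have hTp : IsPGroup r ((T : Subgroup L).map L.subtype) := T.isPGroup'.map _
      have hTL : (T : Subgroup L).map L.subtype ≤ L := Subgroup.map_subtype_le _
      refine le_inf hTL ?_
      intro x hx
      rw [Subgroup.mem_centralizer_iff]
      intro d' hd'
      rw [Set.mem_singleton_iff.1 hd']
      by_cases hrq : r = q
      · subst hrq
        have h1 := trivial_of_isPGroup hW κ hirr _ hTp x hx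
        have h2 := hfaith x (hLG (hTL hx)) h1
        rw [h2, one_mul, mul_one]
      · by_cases hrp : r = p
        · subst hrp
          have h3 := eq_bot_of_isPGroup hTp (fun hd => h.ndvd
            (hd.trans (Subgroup.card_dvd_of_le (hTL.trans hLG))))
          rw [h3, Subgroup.mem_bot] at hx
          rw [hx, one_mul, mul_one]
        · have hTG := hTL.trans hLG
          have h4 := hT Γ A D ((T : Subgroup L).map L.subtype) r F V ρ hP h.isp hr hrp hTp
            (by rw [Subgroup.normalizer_eq_top_iff.2 hTn]; exact le_top)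
            (fun y hy => h.fix y (hTG hy))
            (hF p (fun hd => hqp ((Nat.prime_dvd_prime_iff_eq hq.out hp.out).1 hd)))
            (hF r (fun hd => hrq ((Nat.prime_dvd_prime_iff_eq hq.out hr).1 hd).symm)) hρfix x hx d hd
          have h5 := hρ _ _ h4
          have h6 : κ (x * d * x⁻¹ * d⁻¹) = 1 := by
            have h7 : x * d * x⁻¹ * d⁻¹ = (x * d) * (d * x)⁻¹ := by group
            rw [h7, map_mul, map_inv, h5, mul_inv_cancel]
          have h8 : x * d * x⁻¹ * d⁻¹ ∈ G := by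
            have h9 : x * d * x⁻¹ * d⁻¹ = x * (d * x⁻¹ * d⁻¹) := by group
            rw [h9]
            exact G.mul_mem (hTG hx) (h.normal.conj_mem _ (G.inv_mem (hTG hx)) d)
          have h10 := hfaith _ h8 h6
          have h11 : x * d = (x * d * x⁻¹ * d⁻¹) * (d * x) := by group
          rw [h11, h10, one_mul]
    intro x hx
    rw [← hXL] at hx
    exact Subgroup.mem_centralizer_iff.1 hx.2 d rfl
  have h12 := h.commutator_commutator hDA
  rw [← hLdef] at h12
  rw [← h12, Subgroup.commutator_eq_bot_iff_le_centralizer]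
  intro x hx
  rw [Subgroup.mem_centralizer_iff]
  intro d hd
  exact hcent d hd x hx

/-- A minimal normal subgroup `W ≤ G` of `Γ` and the quotient `Γ / C_G(W)` acting on it. -/
theorem min_quot {p : ℕ} [hp : Fact p.Prime] {Γ : Type u} [Group Γ] [Finite Γ] {G A : Subgroup Γ}
    (h : Cfg p G A) {W : Subgroup Γ} (hW : Base.IsMin W) (hWG : W ≤ G) :
    ∃ (K : Subgroup Γ) (_ : K.Normal), W ≤ K ∧ K ≤ G ∧ K ≤ Subgroup.centralizer (W : Set Γ) ∧
      ∃ (W' : Type u) (_ : CommGroup W') (_ : Finite W') (_ : Nontrivial W') (q : ℕ)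
        (_ : Fact q.Prime) (κ : Γ ⧸ K →* MulAut W'), q ≠ p ∧ (∀ w : W', w ^ q = 1) ∧
        (∀ w, (∀ a ∈ A.map (QuotientGroup.mk' K), κ a w = w) → w = 1) ∧
        (∀ X : Subgroup W', (∀ g, ∀ x ∈ X, κ g x ∈ X) → X = ⊥ ∨ X = ⊤) ∧
        (∀ g ∈ G.map (QuotientGroup.mk' K), κ g = 1 → g = 1) := by
  have hWn := hW.1
  have hGn := h.normal
  have hGs := h.sol
  have hWs : Group.IsSolvable W :=
    Group.isSolvable_of_isSolvable_injective (f := Subgroup.inclusion hWG)
      (Subgroup.inclusion_injective hWG)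
  obtain ⟨hcomm, q, hq, hWq⟩ := hW.elementary hWs
  have hcn : (Subgroup.centralizer (W : Set Γ)).Normal := inferInstance
  refine ⟨G ⊓ Subgroup.centralizer (W : Set Γ), inferInstance, ?_, inf_le_left, inf_le_right, ?_⟩
  · refine le_inf hWG ?_
    intro w hw
    rw [Subgroup.mem_centralizer_iff]
    intro w' hw'
    exact hcomm w' hw' w hw
  let cg : CommGroup W :=
    { (inferInstance : Group W) with mul_comm := fun a b => Subtype.ext (hcomm a a.2 b b.2) }
  have hnt : Nontrivial W := (Subgroup.nontrivial_iff_ne_bot W).2 hW.2.1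
  have hker : ∀ g : Γ, g ∈ Subgroup.centralizer (W : Set Γ) ↔ MulAut.conjNormal (H := W) g = 1 := by
    intro g
    rw [Subgroup.mem_centralizer_iff]
    constructor
    · intro hg
      ext w
      rw [MulAut.conjNormal_apply, ← hg w w.2, mul_inv_cancel_right]
      rfl
    · intro hg w hw
      have h1 := congrArg Subtype.val (DFunLike.congr_fun hg (⟨w, hw⟩ : W))
      rw [MulAut.conjNormal_apply] at h1
      have h2 : g * w * g⁻¹ = w := h1
      rw [mul_inv_eq_iff_eq_mul] at h2
      exact h2.symm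
  let κ : Γ ⧸ (G ⊓ Subgroup.centralizer (W : Set Γ)) →* MulAut W :=
    QuotientGroup.lift _ (MulAut.conjNormal (H := W)) (fun g hg => (hker g).1 hg.2)
  have hκ : ∀ g : Γ, ∀ w : W, ((κ (QuotientGroup.mk' _ g) w : W) : Γ) = g * w * g⁻¹ := fun g w =>
    MulAut.conjNormal_apply g w
  refine ⟨W, cg, inferInstance, hnt, q, ⟨hq⟩, κ, ?_, ?_, ?_, ?_, ?_⟩
  · rintro rfl
    apply h.ndvd
    refine Dvd.dvd.trans ?_ (Subgroup.card_dvd_of_le hWG)
    obtain ⟨w, hw⟩ := exists_ne (1 : W)
    have h1 : orderOf w = q := by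
      apply orderOf_eq_prime _ hw
      exact Subtype.ext (hWq w w.2)
    rw [← h1]
    exact orderOf_dvd_natCard w
  · intro w
    exact Subtype.ext (hWq w w.2)
  · intro w hw
    apply Subtype.ext
    apply h.fix w (hWG w.2)
    intro a ha
    have h1 := congrArg Subtype.val (hw _ ⟨a, ha, rfl⟩)
    rw [hκ] at h1
    exact mul_inv_eq_iff_eq_mul.1 h1
  · intro X hX
    have hXn : (X.map W.subtype).Normal := by
      constructor
      rintro _ ⟨x, hx, rfl⟩ g
      exact ⟨κ (QuotientGroup.mk' _ g) x, hX _ x hx, hκ g x⟩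
    rcases hW.2.2 _ hXn (Subgroup.map_subtype_le X) with h1 | h1
    · left
      exact (Subgroup.map_eq_bot_iff_of_injective _ W.subtype_injective).1 h1
    · right
      apply Subgroup.map_injective W.subtype_injective
      rw [h1, ← MonoidHom.range_eq_map, Subgroup.range_subtype]
  · rintro _ ⟨g, hg, rfl⟩ hg1
    refine (QuotientGroup.eq_one_iff g).2 ⟨hg, ?_⟩
    exact (hker g).2 hg1

/-- **Nilpotency of `⁅G, D⁆`** from the two-step property. -/
theorem isNilpotent_commutator {p : ℕ} [hp : Fact p.Prime] {PP : Pr.{u}} (hc : Closed p PP)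
    (hT : T2 p PP) : ∀ n : ℕ, ∀ (Γ : Type u) [Group Γ] [Finite Γ] (G A D : Subgroup Γ),
    Nat.card G = n → Cfg p G A → PP Γ A D → Group.IsNilpotent (⁅G, D⁆ : Subgroup Γ) := by
  intro n
  induction n using Nat.strong_induction_on with
  | _ n ih =>
  intro Γ _ _ G A D hn h hP
  have hL : (⁅G, D⁆ : Subgroup Γ).Normal := h.commutator_normal (hc.norm Γ A D hP)
  have hLG : (⁅G, D⁆ : Subgroup Γ) ≤ G := commutator_le_left (h.le_normalizer D)
  apply isNilpotent_of_chief _ hL
  intro U V hUV hUL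
  have hVn := hUV.2.1
  have hVG : V ≤ G := hUV.2.2.1.le.trans (hUL.trans hLG)
  have hpV : ¬ p ∣ Nat.card V := fun hd => h.ndvd (hd.trans (Subgroup.card_dvd_of_le hVG))
  have h' := h.map V hVG
  have hP' := hc.quot Γ A D V hpV hP
  have hmin := hUV.isMin
  have hWG : U.map (QuotientGroup.mk' V) ≤ G.map (QuotientGroup.mk' V) :=
    Subgroup.map_mono (hUL.trans hLG)
  obtain ⟨K, hKn, hWK, hKG, hKC, W', _, _, _, q, _, κ, hqp, hWq, hfix, hirr, hfaith⟩ :=
    min_quot h' hmin hWG
  have h'' := h'.map K hKG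
  have hpK : ¬ p ∣ Nat.card K := fun hd => h'.ndvd (hd.trans (Subgroup.card_dvd_of_le hKG))
  have hP'' := hc.quot _ _ _ K hpK hP'
  have hlt : Nat.card ((G.map (QuotientGroup.mk' V)).map (QuotientGroup.mk' K)) < n := by
    have h1 : Nat.card (G.map (QuotientGroup.mk' V)) ≤ n := by
      rw [← hn]
      exact Nat.le_of_dvd Nat.card_pos (Subgroup.card_map_dvd G _)
    refine lt_of_lt_of_le ?_ h1
    refine lt_of_le_of_ne (Nat.le_of_dvd Nat.card_pos (Subgroup.card_map_dvd _ _)) ?_
    intro heq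
    have hsurj := (QuotientGroup.mk' K).subgroupMap_surjective (G.map (QuotientGroup.mk' V))
    have hinj : Function.Injective ((QuotientGroup.mk' K).subgroupMap (G.map (QuotientGroup.mk' V))) :=
      ((Nat.bijective_iff_surjective_and_card _).2 ⟨hsurj, heq.symm⟩).1
    apply hmin.2.1
    rw [eq_bot_iff]
    intro w hw
    have h3 : (QuotientGroup.mk' K).subgroupMap (G.map (QuotientGroup.mk' V)) ⟨w, hWG hw⟩ =
        (QuotientGroup.mk' K).subgroupMap (G.map (QuotientGroup.mk' V)) 1 := by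
      apply Subtype.ext
      show QuotientGroup.mk' K w = QuotientGroup.mk' K 1
      rw [map_one]
      exact (QuotientGroup.eq_one_iff w).2 (hWK hw)
    exact congrArg Subtype.val (hinj h3)
  have hnil := ih _ hlt _ _ _ _ rfl h'' hP''
  have hbot := extN hc hT h'' hP'' hqp hWq κ hfix hirr hfaith hnil
  have hLK : (⁅G, D⁆ : Subgroup Γ).map (QuotientGroup.mk' V) ≤ K := by
    rw [← Subgroup.map_commutator, Subgroup.map_eq_bot_iff, QuotientGroup.ker_mk'] at hbot
    rw [Subgroup.map_commutator]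
    exact hbot
  have h5 : (⁅U, ⁅G, D⁆⁆ : Subgroup Γ).map (QuotientGroup.mk' V) = ⊥ := by
    rw [Subgroup.map_commutator, Subgroup.commutator_comm,
      Subgroup.commutator_eq_bot_iff_le_centralizer]
    exact hLK.trans hKC
  rw [Subgroup.map_eq_bot_iff, QuotientGroup.ker_mk'] at h5
  exact h5

end Cfsg.Agent.H452.TopN
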