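import Mathlib
import Cfsg.Agent.H452.TopN
import Cfsg.Agent.H452.MinAct
import Cfsg.Agent.H452.Orbit

/-!
# The two-step property for a cyclic `p`-group: reduction to the critical configuration

`Cyc p m Γ A D` : `A = ⟨σ⟩`, `D = ⟨σ ^ p ^ m⟩`, `σ ^ p ^ (m + 1) = 1`.
`Crit` : the critical configuration; `t2_of_noCrit`: if it does not occur then `T2 p (Cyc p m)`.
`t2_two`: `T2 2 (Cyc 2 1)`.
-/

set_option autoImplicit false

namespace Cfsg.Agent.H452.T2

open Module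
open Cfsg.Agent.OddOrderLocal.Thm34Weights
open Cfsg.Agent.Lib.CoprimeCommutator
open Cfsg.Agent.H452.Base Cfsg.Agent.H452.TopN Cfsg.Agent.H452.MinAct Cfsg.Agent.H452.Orbit

attribute [local instance] wtAction

universe u

/-- `A = ⟨σ⟩` with `σ ^ p ^ (m + 1) = 1` and `D = ⟨σ ^ p ^ m⟩`. -/
def Cyc (p m : ℕ) : Pr.{u} := fun Γ _ A D =>
  ∃ σ : Γ, A = Subgroup.zpowers σ ∧ D = Subgroup.zpowers (σ ^ p ^ m) ∧ σ ^ p ^ (m + 1) = 1

theorem pow_mem_zpowers {Γ : Type*} [Group Γ] (σ : Γ) (k : ℕ) :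
    Subgroup.zpowers (σ ^ k) ≤ Subgroup.zpowers σ := by
  rw [Subgroup.zpowers_le]
  exact Subgroup.pow_mem _ (Subgroup.mem_zpowers σ) _

theorem zpowers_le_normalizer_pow {Γ : Type*} [Group Γ] (σ : Γ) (k : ℕ) :
    Subgroup.zpowers σ ≤ Subgroup.normalizer (Subgroup.zpowers (σ ^ k) : Set Γ) := by
  apply le_normalizer_of_conj
  rintro a ⟨i, rfl⟩ x ⟨j, rfl⟩
  have h1 : Commute (σ ^ i) ((σ ^ k) ^ j) :=
    (((Commute.refl σ).pow_right k).zpow_right j).zpow_left i
  show σ ^ i * (σ ^ k) ^ j * (σ ^ i)⁻¹ ∈ _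
  rw [h1.eq, mul_inv_cancel_right]
  exact ⟨j, rfl⟩

theorem closed_cyc (p m : ℕ) : Closed p (Cyc.{u} p m) where
  le := by
    rintro Γ _ A D ⟨σ, rfl, rfl, _⟩
    exact pow_mem_zpowers σ _
  norm := by
    rintro Γ _ A D ⟨σ, rfl, rfl, _⟩
    exact zpowers_le_normalizer_pow σ _
  quot := by
    rintro Γ _ _ A D N _ _ ⟨σ, rfl, rfl, h⟩
    refine ⟨QuotientGroup.mk' N σ, MonoidHom.map_zpowers _ _, ?_, ?_⟩
    · rw [MonoidHom.map_zpowers, map_pow]
    · rw [← map_pow, h, map_one]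

/-- The critical configuration. -/
structure Crit (p m r : ℕ) {F : Type*} [Field F] {Γ : Type*} [Group Γ] {V : Type*}
    [AddCommGroup V] [Module F V] (ρ : Representation F Γ V) (σ : Γ) (Q Z : Subgroup Γ) : Prop where
  prime : r.Prime
  ne : r ≠ p
  pF : (p : F) ≠ 0
  rF : (r : F) ≠ 0
  faithful : ∀ g, ρ g = 1 → g = 1
  pow : σ ^ p ^ (m + 1) = 1
  isp : IsPGroup r Q
  normQ : Q.Normal
  normZ : Z.Normal
  le : Z ≤ Q
  central : ∀ z ∈ Z, ∀ x ∈ Q, z * x = x * z
  mem : ∀ x ∈ Q, (∀ y ∈ Q, x * y = y * x) → x ∈ Z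
  comm : ∀ x ∈ Q, ∀ y ∈ Q, x * y * x⁻¹ * y⁻¹ ∈ Z
  rpow : ∀ x ∈ Q, x ^ r ∈ Z
  fixZ : ∀ x ∈ Q, (x ∈ Z ↔ x * σ ^ p ^ m = σ ^ p ^ m * x)
  gen : ⁅Q, Subgroup.zpowers (σ ^ p ^ m)⁆ = Q
  fixQ : ∀ x ∈ Q, σ * x = x * σ → x = 1
  fixV : ∀ v, ρ σ v = v → v = 0
  ne_bot : Z ≠ ⊥

theorem commute_zpowers {Γ : Type*} [Group Γ] {σ x : Γ} (h : σ * x = x * σ) :
    ∀ a ∈ Subgroup.zpowers σ, a * x = x * a := by
  rintro _ ⟨i, rfl⟩
  exact ((show Commute σ x from h).zpow_left i)

theorem isPGroup_zpowers {Γ : Type*} [Group Γ] {p k : ℕ} [Fact p.Prime] {σ : Γ}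
    (hσ : σ ^ p ^ k = 1) : IsPGroup p (Subgroup.zpowers σ) := by
  rintro ⟨_, i, rfl⟩
  refine ⟨k, Subtype.ext ?_⟩
  show (σ ^ i) ^ p ^ k = 1
  rw [← zpow_natCast, ← zpow_mul, mul_comm, zpow_mul, zpow_natCast, hσ, one_zpow]

theorem cast_card_ne_zero {Γ : Type*} [Group Γ] {p : ℕ} [Fact p.Prime] {F : Type*} [Field F]
    (hp : (p : F) ≠ 0) {P : Subgroup Γ} [Finite P] (hP : IsPGroup p P) : (Nat.card P : F) ≠ 0 := by
  obtain ⟨k, hk⟩ := IsPGroup.iff_card.1 hP
  rw [hk, Nat.cast_pow]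
  exact pow_ne_zero _ hp

section crit

variable {p m r : ℕ} {F : Type*} [Field F] {Γ : Type*} [Group Γ] [Finite Γ] {V : Type*}
    [AddCommGroup V] [Module F V] {ρ : Representation F Γ V} {σ : Γ} {Q Z : Subgroup Γ}

omit [Finite Γ] in
theorem Crit.abel (h : Crit p m r ρ σ Q Z) : ∀ a ∈ Z, ∀ b ∈ Z, a * b = b * a :=
  fun a ha b hb => h.central a ha b (h.le hb)

theorem Crit.cardZ (h : Crit p m r ρ σ Q Z) : (Nat.card Z : F) ≠ 0 := by
  have : Fact r.Prime := ⟨h.prime⟩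
  exact cast_card_ne_zero h.rF (h.isp.to_le h.le)

theorem Crit.cardQ (h : Crit p m r ρ σ Q Z) : (Nat.card Q : F) ≠ 0 := by
  have : Fact r.Prime := ⟨h.prime⟩
  exact cast_card_ne_zero h.rF h.isp

theorem Crit.cardC [Fact p.Prime] (h : Crit p m r ρ σ Q Z) :
    (Nat.card (Subgroup.zpowers σ) : F) ≠ 0 :=
  cast_card_ne_zero h.pF (isPGroup_zpowers h.pow)

omit [Finite Γ] in
/-- elements of `Q` fix all weights of `Z` -/
theorem Crit.smul_eq (h : Crit p m r ρ σ Q Z) [Z.Normal] (χ : Z → F) {x : Γ} (hx : x ∈ Q) :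
    x • χ = χ := by
  funext z
  rw [wt_smul_def]
  congr 1
  apply Subtype.ext
  rw [MulAut.conjNormal_apply]
  have := h.central z z.2 x⁻¹ (Q.inv_mem hx)
  rw [← this, mul_inv_cancel_right]

omit [Finite Γ] in
theorem Crit.ne_one (h : Crit p m r ρ σ Q Z) : σ ^ p ^ m ≠ 1 := by
  intro h1
  have h2 := h.gen
  rw [h1, Subgroup.zpowers_one_eq_bot, Subgroup.commutator_bot_right] at h2
  apply h.ne_bot
  rw [eq_bot_iff, h2]
  exact h.le

/-- There is a weight of `Z` with nonzero weight space and which is not trivial. -/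
theorem Crit.exists_weight [IsAlgClosed F] [FiniteDimensional F V] (h : Crit p m r ρ σ Q Z) :
    ∃ χ : Z → F, wt ρ Z χ ≠ ⊥ ∧ ∃ z, χ z ≠ 1 := by
  by_contra hcon
  push Not at hcon
  apply h.ne_bot
  rw [eq_bot_iff]
  intro z hz
  rw [Subgroup.mem_bot]
  apply h.faithful
  have h1 : (⊤ : Submodule F V) ≤ LinearMap.ker (ρ z - 1) := by
    rw [← iSup_wt ρ Z h.cardZ h.abel]
    apply iSup_le
    intro χ v hv
    by_cases hχ : wt ρ Z χ = ⊥
    · rw [hχ, Submodule.mem_bot] at hv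
      rw [hv]; exact Submodule.zero_mem _
    · rw [mem_wt] at hv
      have h2 := hv ⟨z, hz⟩
      rw [hcon χ hχ, one_smul] at h2
      rw [LinearMap.mem_ker, LinearMap.sub_apply, sub_eq_zero]
      exact h2
  ext v
  have h3 := h1 (Submodule.mem_top (x := v))
  rw [LinearMap.mem_ker, LinearMap.sub_apply, sub_eq_zero] at h3
  exact h3

/-- A weight invariant under `σ` is trivial. -/
theorem Crit.eq_one_of_smul (h : Crit p m r ρ σ Q Z) [Z.Normal] {χ : Z → F} (hχ : wt ρ Z χ ≠ ⊥)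
    (hs : σ • χ = χ) (z : Z) : χ z = 1 := by
  let f : Z → Z := fun w => w⁻¹ * MulAut.conjNormal σ w
  have hf : Function.Injective f := by
    intro a b hab
    have h1 : (a : Γ)⁻¹ * (σ * a * σ⁻¹) = (b : Γ)⁻¹ * (σ * b * σ⁻¹) := by
      have := congrArg Subtype.val hab
      simpa [f, MulAut.conjNormal_apply] using this
    have h2 : ((b : Γ) * (a : Γ)⁻¹) = 1 := by
      apply h.fixQ _ (Q.mul_mem (h.le b.2) (Q.inv_mem (h.le a.2)))
      have h3 : (b : Γ) * (a : Γ)⁻¹ = (σ * b * σ⁻¹) * (σ * a * σ⁻¹)⁻¹ := by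
        rw [eq_mul_inv_iff_mul_eq, mul_assoc, h1, mul_inv_cancel_left]
      have h4 : (σ * b * σ⁻¹) * (σ * a * σ⁻¹)⁻¹ = σ * (b * (a : Γ)⁻¹) * σ⁻¹ := by group
      rw [h4] at h3
      rw [← mul_inv_eq_iff_eq_mul, ← h3]
    exact Subtype.ext (mul_inv_eq_one.1 h2).symm
  obtain ⟨w, hw⟩ := (Finite.injective_iff_surjective.1 hf) z
  rw [← hw]
  show χ (w⁻¹ * MulAut.conjNormal σ w) = 1
  have h5 : χ (MulAut.conjNormal σ w) = χ w := by
    have h6 := congrFun hs (MulAut.conjNormal σ w)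
    rw [wt_smul_def] at h6
    rw [← h6]
    congr 1
    rw [map_inv]
    exact (MulAut.conjNormal (H := Z) σ).symm_apply_apply w
  rw [wt_mul hχ, h5, ← wt_mul hχ, inv_mul_cancel, wt_one hχ]

end crit

/-- no critical configuration over `F` -/
def NoCrit (p m : ℕ) (F : Type) [Field F] : Prop :=
  ∀ (r : ℕ) (Γ : Type u) [Group Γ] [Finite Γ] (V : Type u) [AddCommGroup V] [Module F V]
    [FiniteDimensional F V] (ρ : Representation F Γ V) (σ : Γ) (Q Z : Subgroup Γ),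
    ¬ Crit p m r ρ σ Q Z

section reduction

variable {p m : ℕ} [hp : Fact p.Prime] {F : Type} [Field F] [IsAlgClosed F]

theorem pow_fixed {Γ : Type*} [Group Γ] {F : Type*} [Field F] {V : Type*} [AddCommGroup V] [Module F V]
    (ρ : Representation F Γ V) {σ : Γ} {v : V} (h : ρ σ v = v) : ∀ a ∈ Subgroup.zpowers σ, ρ a v = v := by
  rintro _ ⟨i, rfl⟩
  have hinv : ρ σ⁻¹ v = v := by
    conv_lhs => rw [← h]
    rw [← End.mul_apply, ← map_mul, inv_mul_cancel, map_one, End.one_apply]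
  have hn : ∀ n : ℕ, ρ (σ ^ n) v = v := by
    intro n
    induction n with
    | zero => rw [pow_zero, map_one, End.one_apply]
    | succ n ih => rw [pow_succ, map_mul, End.mul_apply, h, ih]
  have hn' : ∀ n : ℕ, ρ (σ⁻¹ ^ n) v = v := by
    intro n
    induction n with
    | zero => rw [pow_zero, map_one, End.one_apply]
    | succ n ih => rw [pow_succ, map_mul, End.mul_apply, hinv, ih]
  obtain ⟨n, rfl | rfl⟩ := i.eq_nat_or_neg
  · show ρ (σ ^ (n : ℤ)) v = v
    rw [zpow_natCast]; exact hn n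
  · show ρ (σ ^ (-(n : ℤ))) v = v
    rw [zpow_neg, zpow_natCast, ← inv_pow]; exact hn' n

theorem faithful_case (hN : NoCrit.{u} p m F) {Γ : Type u} [Group Γ] [Finite Γ] {V : Type u}
    [AddCommGroup V] [Module F V] [FiniteDimensional F V] (ρ : Representation F Γ V)
    (hρ : ∀ g, ρ g = 1 → g = 1) {σ : Γ} (hσ : σ ^ p ^ (m + 1) = 1) {r : ℕ} (hr : r.Prime)
    (hrp : r ≠ p) (hpF : (p : F) ≠ 0) (hrF : (r : F) ≠ 0) (hV : ∀ v, ρ σ v = v → v = 0) :
    ∀ (k : ℕ) (Q : Subgroup Γ), Nat.card Q = k → IsPGroup r Q →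
      Subgroup.zpowers σ ≤ Subgroup.normalizer (Q : Set Γ) → (∀ x ∈ Q, σ * x = x * σ → x = 1) →
      ⁅Q, Subgroup.zpowers (σ ^ p ^ m)⁆ = ⊥ := by
  intro k
  induction k using Nat.strong_induction_on with
  | _ k ih =>
  intro Q hk hQ hσQ hfix
  have hrf : Fact r.Prime := ⟨hr⟩
  by_contra hne
  have hC : IsPGroup p (Subgroup.zpowers σ) := isPGroup_zpowers hσ
  have hrY : ¬ r ∣ Nat.card (Subgroup.zpowers (σ ^ p ^ m)) := by
    obtain ⟨j, hj⟩ := IsPGroup.iff_card.1 (hC.to_le (pow_mem_zpowers σ (p ^ m)))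
    rw [hj]
    intro hd
    exact hrp ((Nat.prime_dvd_prime_iff_eq hr hp.out).1 (hr.dvd_of_dvd_pow hd))
  have hproper : ∀ H : Subgroup Γ, H ≤ Q → H ≠ Q →
      Subgroup.zpowers σ ≤ Subgroup.normalizer (H : Set Γ) →
      ⁅H, Subgroup.zpowers (σ ^ p ^ m)⁆ = ⊥ := by
    intro H hHQ hHne hH
    apply ih (Nat.card H) _ H rfl (hQ.to_le hHQ) hH (fun x hx => hfix x (hHQ hx))
    rw [← hk]
    have hlt : H < Q := lt_of_le_of_ne hHQ hHne
    exact Set.Finite.card_lt_card (Set.toFinite _) hlt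
  obtain ⟨h1, h2, h3, h4, h5⟩ := minAct hQ (pow_mem_zpowers σ (p ^ m))
    (zpowers_le_normalizer_pow σ (p ^ m)) hσQ hrY hproper hne
  by_cases hab : ⁅Q, Q⁆ = ⊥
  · apply hne
    rw [MinAct.commutator_eq_bot_iff] at hab ⊢
    have h6 := comm_of_min ρ Q (cast_card_ne_zero hrF hQ) hab (Subgroup.zpowers σ)
      (cast_card_ne_zero hpF hC) hσQ (fun v hv => hV v (hv σ (Subgroup.mem_zpowers σ)))
      (φ := σ ^ p ^ m) (Subgroup.pow_mem _ (Subgroup.mem_zpowers σ) _)
      (fun H hH hH1 => mem_of_ne_bot hp.out hσ hH hH1)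
    intro x hx y hy
    have h7 := h6 x hx
    have h8 : σ ^ p ^ m * x = x * σ ^ p ^ m := by
      have h9 : ρ ((σ ^ p ^ m * x) * (x * σ ^ p ^ m)⁻¹) = 1 := by
        rw [map_mul, h7, ← map_mul, mul_inv_cancel, map_one]
      exact mul_inv_eq_one.1 (hρ _ h9)
    exact (commute_zpowers h8 y hy).symm
  · have h6 := h5 hab
    set Z : Subgroup Γ := Q ⊓ Subgroup.centralizer (Q : Set Γ) with hZdef
    have hQQZ : ⁅Q, Q⁆ ≤ Z := h2
    have hCZ : Q ⊓ Subgroup.centralizer (Subgroup.zpowers (σ ^ p ^ m) : Set Γ) ≤ Z := h3.trans h2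
    let M : Subgroup Γ := Q ⊔ Subgroup.zpowers σ
    have hQM : Q ≤ M := le_sup_left
    have hσM : σ ∈ M := (le_sup_right : Subgroup.zpowers σ ≤ M) (Subgroup.mem_zpowers σ)
    have hMQ : M ≤ Subgroup.normalizer (Q : Set Γ) := sup_le Subgroup.le_normalizer hσQ
    have hMZ : M ≤ Subgroup.normalizer (Z : Set Γ) :=
      le_normalizer_inf hMQ (le_normalizer_centralizer hMQ)
    have hZQ : Z ≤ Q := inf_le_left
    have hQe : (Q.subgroupOf M).map M.subtype = Q := by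
      rw [Subgroup.subgroupOf_map_subtype, inf_eq_left.2 hQM]
    apply hN r M V (ρ.comp M.subtype) ⟨σ, hσM⟩ (Q.subgroupOf M) (Z.subgroupOf M)
    exact
    { prime := hr
      ne := hrp
      pF := hpF
      rF := hrF
      faithful := fun g hg => Subtype.ext (hρ g hg)
      pow := Subtype.ext hσ
      isp := hQ.of_equiv (Subgroup.subgroupOfEquivOfLe hQM).symm
      normQ := Subgroup.normal_subgroupOf_of_le_normalizer hMQ
      normZ := Subgroup.normal_subgroupOf_of_le_normalizer hMZ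
      le := fun x hx => hZQ hx
      central := fun z hz x hx => Subtype.ext ((mem_inf_centralizer.1 hz).2 x hx)
      mem := fun x hx hxy => by
        rw [Subgroup.mem_subgroupOf, hZdef, mem_inf_centralizer]
        exact ⟨hx, fun y hy => congrArg Subtype.val (hxy ⟨y, hQM hy⟩ hy)⟩
      comm := fun x hx y hy => by
        rw [Subgroup.mem_subgroupOf]
        apply hQQZ
        have := Subgroup.commutator_mem_commutator (H₁ := Q) (H₂ := Q) hx hy
        rwa [commutatorElement_def] at this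
      rpow := fun x hx => by
        rw [Subgroup.mem_subgroupOf]
        exact hQQZ (h4 x hx)
      fixZ := fun x hx => by
        rw [Subgroup.mem_subgroupOf]
        constructor
        · intro hz
          exact Subtype.ext ((mem_inf_centralizer.1 (h6 hz)).2 _ (Subgroup.mem_zpowers _))
        · intro hz
          apply hCZ
          rw [mem_inf_centralizer]
          refine ⟨hx, fun y hy => ?_⟩
          have h7 : σ ^ p ^ m * (x : Γ) = x * σ ^ p ^ m := (congrArg Subtype.val hz).symm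
          exact (commute_zpowers h7 y hy).symm
      gen := by
        apply Subgroup.map_injective M.subtype_injective
        rw [Subgroup.map_commutator, MonoidHom.map_zpowers, hQe]
        exact h1
      fixQ := fun x hx hσx => Subtype.ext (hfix x hx (congrArg Subtype.val hσx))
      fixV := fun v hv => hV v hv
      ne_bot := by
        intro hb
        apply hab
        rw [eq_bot_iff]
        intro x hx
        have h7 : (⟨x, hQM (Subgroup.commutator_le_self Q hx)⟩ : M) ∈ Z.subgroupOf M := hQQZ hx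
        rw [hb, Subgroup.mem_bot] at h7
        exact congrArg Subtype.val h7 }

theorem t2_of_noCrit (h : ∀ (F : Type) [Field F] [IsAlgClosed F], NoCrit.{u} p m F) :
    T2 p (Cyc.{u} p m) := by
  rintro Γ _ _ A D Q r F _ _ V _ _ _ ρ ⟨σ, rfl, rfl, hσ⟩ hA hr hrp hQ hAQ hfix hpF hrF hV
  let N : Subgroup Γ := MonoidHom.ker ρ
  have hNn : N.Normal := MonoidHom.normal_ker ρ
  let ρ' : Representation F (Γ ⧸ N) V := QuotientGroup.lift N ρ le_rfl
  have hρ' : ∀ g, ρ' g = 1 → g = 1 := by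
    intro g hg
    obtain ⟨g, rfl⟩ := QuotientGroup.mk_surjective g
    exact (QuotientGroup.eq_one_iff g).2 (MonoidHom.mem_ker.2 hg)
  have hAn : Subgroup.zpowers σ ≤ Subgroup.normalizer ((N ⊓ Q : Subgroup Γ) : Set Γ) :=
    le_normalizer_inf (by rw [Subgroup.normalizer_eq_top_iff.2 hNn]; exact le_top) hAQ
  have hrf : Fact r.Prime := ⟨hr⟩
  have hpN : ¬ p ∣ Nat.card (N ⊓ Q : Subgroup Γ) := by
    obtain ⟨j, hj⟩ := IsPGroup.iff_card.1 (hQ.to_le (inf_le_right : N ⊓ Q ≤ Q))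
    rw [hj]
    intro hd
    exact hrp ((Nat.prime_dvd_prime_iff_eq hp.out hr).1 (hp.out.dvd_of_dvd_pow hd)).symm
  have key := faithful_case (h F) ρ' hρ' (σ := QuotientGroup.mk' N σ) (by rw [← map_pow, hσ, map_one])
    hr hrp hpF hrF (fun v hv => hV v (fun a ha => pow_fixed ρ hv a ha)) _
    (Q.map (QuotientGroup.mk' N)) rfl (hQ.map _) (by
      rw [← MonoidHom.map_zpowers]
      apply le_normalizer_of_conj
      rintro _ ⟨a, ha, rfl⟩ _ ⟨x, hx, rfl⟩
      exact ⟨a * x * a⁻¹, conj_of_le_normalizer hAQ ha hx, by rw [map_mul, map_mul, map_inv]⟩) (by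
      rintro _ ⟨x, hx, rfl⟩ hσx
      refine (QuotientGroup.eq_one_iff x).2 ?_
      refine (mem_of_fixed_mod (G := Q) (N := N ⊓ Q) hA hfix inf_le_right hpN hAn hx ?_).1
      intro a ha
      refine ⟨?_, Q.mul_mem (Q.inv_mem hx) (conj_of_le_normalizer hAQ ha hx)⟩
      have h1 := commute_zpowers hσx (QuotientGroup.mk' N a) (by
        rw [← MonoidHom.map_zpowers]; exact ⟨a, ha, rfl⟩)
      show _ ∈ N
      rw [← QuotientGroup.eq]
      show QuotientGroup.mk' N x = QuotientGroup.mk' N (a * x * a⁻¹)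
      rw [map_mul, map_mul, h1, map_inv, mul_inv_cancel_right])
  intro x hx d hd
  rw [MinAct.commutator_eq_bot_iff] at key
  have h1 := key (QuotientGroup.mk' N x) ⟨x, hx, rfl⟩ (QuotientGroup.mk' N d) (by
    rw [← map_pow, ← MonoidHom.map_zpowers]; exact ⟨d, hd, rfl⟩)
  have h2 := congrArg ρ' h1
  rw [← map_mul, ← map_mul] at h2
  exact h2

end reduction

/-- For `p = 2`, `m = 1` there is no critical configuration. -/
theorem noCrit_two (F : Type) [Field F] [IsAlgClosed F] : NoCrit.{u} 2 1 F := by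
  intro r Γ _ _ V _ _ _ ρ σ Q Z h
  have : Fact (2 : ℕ).Prime := ⟨Nat.prime_two⟩
  have hZn := h.normZ
  obtain ⟨χ, hχ, z, hz⟩ := h.exists_weight
  have hσ4 : σ ^ 4 = 1 := h.pow
  have hfix : ∀ v, (∀ a ∈ Subgroup.zpowers σ, ρ a v = v) → v = 0 :=
    fun v hv => h.fixV v (hv σ (Subgroup.mem_zpowers σ))
  have hS := stab_ne_bot ρ Z h.cardZ h.abel (Subgroup.zpowers σ) h.cardC hfix hχ
  have hφS : σ ^ 2 ^ 1 ∈ stab Z (Subgroup.zpowers σ) χ :=
    mem_of_ne_bot Nat.prime_two h.pow stab_le hS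
  have hσS : σ ∉ stab Z (Subgroup.zpowers σ) χ := by
    intro hσS
    exact hz (h.eq_one_of_smul hχ hσS.2 z)
  have hφ : σ ^ 2 ^ 1 = σ * σ := by rw [pow_one, sq]
  rw [hφ] at hφS
  have hcases : ∀ a ∈ stab Z (Subgroup.zpowers σ) χ, a = 1 ∨ a = σ * σ := by
    rintro a ha
    obtain ⟨j, hj⟩ := ha.1
    have hj' : σ ^ j = a := hj
    have h4 : σ ^ (4 : ℤ) = 1 := by exact_mod_cast hσ4
    have h5 : ∃ k : ℤ, j = 4 * k + j % 4 := ⟨j / 4, (Int.mul_ediv_add_emod j 4).symm⟩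
    obtain ⟨k, hk⟩ := h5
    have h6 : σ ^ (j % 4) = a := by
      rw [← hj']
      conv_rhs => rw [hk, zpow_add, zpow_mul, h4, one_zpow, one_mul]
    have h7 : j % 4 = 0 ∨ j % 4 = 1 ∨ j % 4 = 2 ∨ j % 4 = 3 := by omega
    rcases h7 with h7 | h7 | h7 | h7
    · left; rw [← h6, h7, zpow_zero]
    · exfalso; apply hσS
      have h8 : a = σ := by rw [← h6, h7, zpow_one]
      rwa [h8] at ha
    · right; rw [← h6, h7]; rw [zpow_ofNat, sq]
    · exfalso; apply hσS
      have h8 : a⁻¹ = σ := by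
        rw [← h6, h7, inv_eq_iff_mul_eq_one]
        rw [zpow_ofNat, ← pow_succ]
        exact hσ4
      have h9 := Subgroup.inv_mem _ ha
      rwa [h8] at h9
  -- `φ` acts as `-1`
  have hneg : ∀ v ∈ wt ρ Z χ, ρ (σ * σ) v = - v := by
    intro v hv
    have h1 : v + ρ (σ * σ) v ∈ wt ρ Z χ := by
      have h2 := smul_mem_wt hv (σ * σ)
      rw [hφS.2] at h2
      exact Submodule.add_mem _ hv h2
    have h3 : v + ρ (σ * σ) v = 0 := by
      apply eq_zero_of_stab_fixed ρ Z h.cardZ h.abel (Subgroup.zpowers σ) h.cardC hfix h1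
      intro a ha ha'
      rcases hcases a ⟨ha, ha'⟩ with rfl | rfl
      · rw [map_one, End.one_apply]
      · rw [map_add, ← End.mul_apply, ← map_mul]
        have h5 : σ * σ * (σ * σ) = 1 := by
          rw [← hσ4, pow_succ, pow_succ, pow_succ, pow_one]; simp only [mul_assoc]
        rw [h5, map_one, End.one_apply, add_comm]
    exact eq_neg_of_add_eq_zero_right h3
  -- `Q` acts trivially on the weight space
  let T : Subgroup Γ :=
    { carrier := {x | ∀ v ∈ wt ρ Z χ, ρ x v = v}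
      mul_mem' := fun {a b} ha hb v hv => by rw [map_mul, End.mul_apply, hb v hv, ha v hv]
      one_mem' := fun v _ => by rw [map_one, End.one_apply]
      inv_mem' := fun {a} ha v hv => by
        conv_lhs => rw [← ha v hv]
        rw [← End.mul_apply, ← map_mul, inv_mul_cancel, map_one, End.one_apply] }
  have hQT : Q ≤ T := by
    conv_lhs => rw [← h.gen]
    rw [Subgroup.commutator_le]
    intro x hx d hd
    have hd' : d = 1 ∨ d = σ * σ := by
      apply hcases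
      refine ⟨(pow_mem_zpowers σ _) hd, ?_⟩
      obtain ⟨i, hi⟩ := hd
      have hi' : (σ ^ 2 ^ 1) ^ i = d := hi
      rw [hφ] at hi'
      rw [← hi']
      have h8 : (σ * σ) ^ i ∈ stab Z (Subgroup.zpowers σ) χ := Subgroup.zpow_mem _ hφS i
      exact h8.2
    rcases hd' with rfl | rfl
    · rw [commutatorElement_one_right]; exact T.one_mem
    · intro v hv
      rw [commutatorElement_def]
      have hw : ∀ y ∈ Q, ∀ v ∈ wt ρ Z χ, ρ y v ∈ wt ρ Z χ := by
        intro y hy v hv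
        have h9 := smul_mem_wt hv y
        rwa [h.smul_eq χ hy] at h9
      have h10 : (σ * σ)⁻¹ = σ * σ := by
        rw [inv_eq_iff_mul_eq_one, ← hσ4, pow_succ, pow_succ, pow_succ, pow_one]
        simp only [mul_assoc]
      rw [h10, map_mul, map_mul, map_mul, End.mul_apply, End.mul_apply, End.mul_apply, hneg v hv,
        map_neg, map_neg, map_neg, hneg _ (hw _ (Q.inv_mem hx) _ hv), map_neg, neg_neg,
        ← End.mul_apply, ← map_mul, mul_inv_cancel, map_one, End.one_apply]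
  obtain ⟨v, hv, hv0⟩ := Submodule.exists_mem_ne_zero_of_ne_bot hχ
  have h11 := hQT (h.le z.2) v hv
  rw [mem_wt] at hv
  rw [hv z] at h11
  have h12 : (χ z - 1) • v = 0 := by rw [sub_smul, one_smul, h11, sub_self]
  rcases smul_eq_zero.1 h12 with h13 | h13
  · exact hz (sub_eq_zero.1 h13)
  · exact hv0 h13

theorem t2_two : T2 2 (Cyc.{u} 2 1) := by
  have : Fact (2 : ℕ).Prime := ⟨Nat.prime_two⟩
  exact t2_of_noCrit (fun F _ _ => noCrit_two F)

end Cfsg.Agent.H452.T2
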