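import Mathlib
import Cfsg.Agent.H452.T2
import Cfsg.Agent.H452.Shult
import Cfsg.Agent.H452.Num

/-!
# The two-step property for cyclic `p`-groups, `p` odd
-/

set_option autoImplicit false

namespace Cfsg.Agent.H452.T2Odd

open Module
open scoped commutatorElement
open Cfsg.Agent.OddOrderLocal.Thm34Weights
open Cfsg.Agent.Lib.CoprimeCommutator
open Cfsg.Agent.H452.Base Cfsg.Agent.H452.TopN Cfsg.Agent.H452.MinAct Cfsg.Agent.H452.Orbit
open Cfsg.Agent.H452.T2

attribute [local instance] wtAction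

universe u

/-- an automorphism acting freely outside one point of `X / S` -/
theorem index_mod {X : Type*} [Group X] [Finite X] (S : Subgroup X) [hn : S.Normal] (θ : MulAut X)
    (hθS : ∀ x ∈ S, θ x ∈ S) {N : ℕ} (hN : 0 < N) (hθN : ∀ x, (θ ^ N) x * x⁻¹ ∈ S)
    (hfree : ∀ i, 0 < i → i < N → ∀ x, (θ ^ i) x * x⁻¹ ∈ S → x ∈ S) (hne : S ≠ ⊤) :
    N ∣ S.index + (N - 1) := by
  have hθS' : S.map (θ : X →* X) = S := by
    have h1 : S.map (θ : X →* X) ≤ S := by
      rintro _ ⟨x, hx, rfl⟩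
      exact hθS x hx
    apply Subgroup.eq_of_le_of_card_ge h1
    rw [Subgroup.card_map_of_injective (f := (θ : X →* X)) θ.injective]
  let σ : Equiv.Perm (X ⧸ S) := (QuotientGroup.congr S S θ hθS').toEquiv
  have hσ : ∀ x : X, σ (QuotientGroup.mk x) = QuotientGroup.mk (θ x) := fun x => rfl
  have hσn : ∀ (n : ℕ) (x : X), (σ ^ n) (QuotientGroup.mk x) = QuotientGroup.mk ((θ ^ n) x) := by
    intro n
    induction n with
    | zero => intro x; rfl
    | succ n ih =>
      intro x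
      rw [pow_succ', Equiv.Perm.mul_apply, ih, hσ, pow_succ']
      rfl
  have hmk : ∀ x y : X, (QuotientGroup.mk x : X ⧸ S) = QuotientGroup.mk y ↔ x * y⁻¹ ∈ S := by
    intro x y
    rw [eq_comm, QuotientGroup.eq]
    constructor
    · intro h1
      have h2 := hn.conj_mem _ h1 y
      have h3 : y * (y⁻¹ * x) * y⁻¹ = x * y⁻¹ := by group
      rwa [h3] at h2
    · intro h1
      have h2 := hn.conj_mem _ h1 y⁻¹
      have h3 : y⁻¹ * (x * y⁻¹) * y⁻¹⁻¹ = y⁻¹ * x := by group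
      rwa [h3] at h2
  have hσN : σ ^ N = 1 := by
    ext q
    obtain ⟨x, rfl⟩ := QuotientGroup.mk_surjective q
    rw [hσn, Equiv.Perm.one_apply, hmk]
    exact hθN x
  have hfr : ∀ i, 0 < i → i < N → ∀ q, (σ ^ i) q = q → q = (QuotientGroup.mk (1 : X)) := by
    intro i hi hiN q hq
    obtain ⟨x, rfl⟩ := QuotientGroup.mk_surjective q
    rw [hσn, hmk] at hq
    exact (QuotientGroup.eq_one_iff x).2 (hfree i hi hiN x hq)
  have h₀ : σ (QuotientGroup.mk (1 : X)) = QuotientGroup.mk (1 : X) := by rw [hσ, map_one]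
  have hex : ∃ q : X ⧸ S, q ≠ QuotientGroup.mk 1 := by
    by_contra hcon
    push Not at hcon
    apply hne
    rw [eq_top_iff]
    intro x _
    exact (QuotientGroup.eq_one_iff x).1 (hcon (QuotientGroup.mk x))
  have hcount := Shult.orbit_count σ hN hσN (QuotientGroup.mk (1 : X)) hfr h₀ hex
  rw [← Subgroup.index_eq_card] at hcount
  exact ⟨_, hcount.symm⟩

/-- Lemma E for a group acting commutatively (not nec. faithfully) and a cyclic `p`-group. -/
theorem comm_of_cyclic {F : Type*} [Field F] [IsAlgClosed F] {G : Type*} [Group G] [Finite G]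
    {V : Type*} [AddCommGroup V] [Module F V] [FiniteDimensional F V] (ρ : Representation F G V)
    (N : Subgroup G) (hN : (Nat.card N : F) ≠ 0) (hcomm : ∀ a ∈ N, ∀ b ∈ N, ρ (a * b) = ρ (b * a))
    {τ : G} {p k : ℕ} [hp : Fact p.Prime] (hpF : (p : F) ≠ 0) (hτ : τ ^ p ^ (k + 1) = 1)
    (hτN : Subgroup.zpowers τ ≤ Subgroup.normalizer (N : Set G))
    (hfix : ∀ v, ρ τ v = v → v = 0) : ∀ n ∈ N, ρ (τ ^ p ^ k * n) = ρ (n * τ ^ p ^ k) := by
  let K : Subgroup G := MonoidHom.ker ρ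
  have hKn : K.Normal := MonoidHom.normal_ker ρ
  let ρ' : Representation F (G ⧸ K) V := QuotientGroup.lift K ρ le_rfl
  have hρ' : ∀ g, ρ' (QuotientGroup.mk' K g) = ρ g := fun g => rfl
  have hN' : (Nat.card (N.map (QuotientGroup.mk' K)) : F) ≠ 0 := by
    intro h
    apply hN
    obtain ⟨c, hc⟩ := Subgroup.card_map_dvd N (QuotientGroup.mk' K)
    rw [hc, Nat.cast_mul, h, zero_mul]
  have hcomm' : ∀ a ∈ N.map (QuotientGroup.mk' K), ∀ b ∈ N.map (QuotientGroup.mk' K),
      a * b = b * a := by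
    rintro _ ⟨a, ha, rfl⟩ _ ⟨b, hb, rfl⟩
    rw [← map_mul, ← map_mul]
    refine QuotientGroup.eq.2 ?_
    show (a * b)⁻¹ * (b * a) ∈ K
    rw [MonoidHom.mem_ker, map_mul ρ, ← hcomm a ha b hb, ← map_mul, inv_mul_cancel, map_one]
  have hτ' : (QuotientGroup.mk' K τ) ^ p ^ (k + 1) = 1 := by rw [← map_pow, hτ, map_one]
  have hA := isPGroup_zpowers (p := p) hτ'
  have key := comm_of_min ρ' (N.map (QuotientGroup.mk' K)) hN' hcomm'
    (Subgroup.zpowers (QuotientGroup.mk' K τ)) (cast_card_ne_zero hpF hA) (by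
      rw [← MonoidHom.map_zpowers]
      apply le_normalizer_of_conj
      rintro _ ⟨a, ha, rfl⟩ _ ⟨x, hx, rfl⟩
      exact ⟨a * x * a⁻¹, conj_of_le_normalizer hτN ha hx, by rw [map_mul, map_mul, map_inv]⟩)
    (fun v hv => hfix v (hv _ (Subgroup.mem_zpowers _))) (φ := (QuotientGroup.mk' K τ) ^ p ^ k)
    (Subgroup.pow_mem _ (Subgroup.mem_zpowers _) _)
    (fun H hH hH1 => mem_of_ne_bot hp.out hτ' hH hH1)
  intro n hn
  have h1 := key (QuotientGroup.mk' K n) ⟨n, hn, rfl⟩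
  rw [← map_pow, ← map_mul, ← map_mul] at h1
  exact h1

/-- subgroups of a cyclic `p`-group -/
theorem exists_zpowers {G : Type*} [Group G] {p n : ℕ} (hp : p.Prime) {σ : G}
    (hσ : σ ^ p ^ n = 1) {H : Subgroup G} (hH : H ≤ Subgroup.zpowers σ) :
    ∃ j ≤ n, H = Subgroup.zpowers (σ ^ p ^ j) := by
  classical
  have hex : ∃ j, σ ^ p ^ j ∈ H := ⟨n, by rw [hσ]; exact H.one_mem⟩
  refine ⟨Nat.find hex, Nat.find_min' hex (by rw [hσ]; exact H.one_mem), ?_⟩
  apply le_antisymm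
  · intro h hh
    obtain ⟨l, hl⟩ := hH hh
    have hl' : σ ^ l = h := hl
    have hb := Int.gcd_eq_gcd_ab l (p ^ n : ℕ)
    have hg : (Int.gcd l (p ^ n : ℕ)) ∣ p ^ n := by
      have := Int.gcd_dvd_natAbs_right l ((p ^ n : ℕ) : ℤ)
      rwa [Int.natAbs_natCast] at this
    obtain ⟨i, hi, hi'⟩ := (Nat.dvd_prime_pow hp).1 hg
    have hmem : σ ^ p ^ i ∈ H := by
      have h2 : σ ^ ((p ^ i : ℕ) : ℤ) = h ^ (Int.gcdA l (p ^ n : ℕ)) := by
        rw [← hi', hb, zpow_add, zpow_mul, hl', zpow_mul, zpow_natCast, hσ, one_zpow, mul_one]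
      rw [zpow_natCast] at h2
      rw [h2]
      exact H.zpow_mem hh _
    have hle : Nat.find hex ≤ i := Nat.find_min' hex hmem
    have h3 : ((p ^ Nat.find hex : ℕ) : ℤ) ∣ l := by
      have h4 : ((p ^ i : ℕ) : ℤ) ∣ l := by
        rw [← hi']
        exact Int.gcd_dvd_left ..
      exact (Int.natCast_dvd_natCast.2 (pow_dvd_pow p hle)).trans h4
    obtain ⟨c, hc⟩ := h3
    refine ⟨c, ?_⟩
    show (σ ^ p ^ Nat.find hex) ^ c = h
    rw [← hl', hc, zpow_mul, zpow_natCast]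
  · rw [Subgroup.zpowers_le]
    exact Nat.find_spec hex

section crit

variable {p m r : ℕ} [hp : Fact p.Prime] {F : Type*} [Field F] {Γ : Type*} [Group Γ] [Finite Γ]
  {V : Type*} [AddCommGroup V] [Module F V] {ρ : Representation F Γ V} {σ : Γ} {Q Z : Subgroup Γ}

/-- the representation of the stabiliser of a weight on the weight space -/
def wrep (ρ : Representation F Γ V) (Z : Subgroup Γ) [Z.Normal] (χ : Z → F) :
    Representation F (MulAction.stabilizer Γ χ) (wt ρ Z χ) :=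
  Representation.subrepresentation (ρ.comp (MulAction.stabilizer Γ χ).subtype) (wt ρ Z χ) (fun g v hv => by
    have h1 := smul_mem_wt hv (g : Γ)
    rwa [MulAction.mem_stabilizer_iff.1 g.2] at h1)

omit hp [Finite Γ] in
theorem wrep_apply [Z.Normal] (χ : Z → F) (g : MulAction.stabilizer Γ χ) (v : wt ρ Z χ) :
    ((wrep ρ Z χ g v : wt ρ Z χ) : V) = ρ g v := rfl

/-- the elements of `Q` acting as scalars on the weight space of `ψ` -/
def Tn (h : Crit p m r ρ σ Q Z) [Z.Normal] (ψ : Z → F) : Subgroup Γ where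
  carrier := {x | x ∈ Q ∧ ∃ c : F, ∀ v ∈ wt ρ Z ψ, ρ x v = c • v}
  mul_mem' := by
    rintro a b ⟨ha, c, hc⟩ ⟨hb, d, hd⟩
    refine ⟨Q.mul_mem ha hb, c * d, fun v hv => ?_⟩
    rw [map_mul, End.mul_apply, hd v hv, map_smul, hc v hv, smul_smul, mul_comm]
  one_mem' := ⟨Q.one_mem, 1, fun v _ => by rw [map_one, End.one_apply, one_smul]⟩
  inv_mem' := by
    rintro a ⟨ha, c, hc⟩
    refine ⟨Q.inv_mem ha, c⁻¹, fun v hv => ?_⟩
    have h1 : ρ a⁻¹ v ∈ wt ρ Z ψ := by
      have h2 := smul_mem_wt hv a⁻¹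
      rwa [h.smul_eq ψ (Q.inv_mem ha)] at h2
    have h2 := hc _ h1
    rw [← End.mul_apply, ← map_mul, mul_inv_cancel, map_one, End.one_apply] at h2
    by_cases hc0 : c = 0
    · rw [hc0, zero_smul] at h2
      rw [h2, map_zero, smul_zero]
    · conv_rhs => rw [h2]
      rw [smul_smul, inv_mul_cancel₀ hc0, one_smul]

omit hp [Finite Γ] in
theorem mem_Tn (h : Crit p m r ρ σ Q Z) [Z.Normal] {ψ : Z → F} {x : Γ} :
    x ∈ Tn h ψ ↔ x ∈ Q ∧ ∃ c : F, ∀ v ∈ wt ρ Z ψ, ρ x v = c • v := Iff.rfl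

omit hp [Finite Γ] in
theorem Tn_le (h : Crit p m r ρ σ Q Z) [Z.Normal] (ψ : Z → F) : Tn h ψ ≤ Q := fun _ hx => hx.1

omit hp [Finite Γ] in
theorem le_Tn (h : Crit p m r ρ σ Q Z) [Z.Normal] (ψ : Z → F) : Z ≤ Tn h ψ := by
  intro z hz
  refine ⟨h.le hz, ψ ⟨z, hz⟩, fun v hv => ?_⟩
  rw [mem_wt] at hv
  exact hv ⟨z, hz⟩

omit hp [Finite Γ] in
theorem Tn_conj (h : Crit p m r ρ σ Q Z) [Z.Normal] {ψ : Z → F} (g : Γ) {x : Γ} (hx : x ∈ Tn h ψ) :
    g * x * g⁻¹ ∈ Tn h (g • ψ) := by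
  obtain ⟨hxQ, c, hc⟩ := hx
  refine ⟨h.normQ.conj_mem x hxQ g, c, fun v hv => ?_⟩
  have h1 : ρ g⁻¹ v ∈ wt ρ Z ψ := by
    have h2 := smul_mem_wt hv g⁻¹
    rwa [inv_smul_smul] at h2
  rw [map_mul, map_mul, End.mul_apply, End.mul_apply, hc _ h1, map_smul, ← End.mul_apply, ← map_mul,
    mul_inv_cancel, map_one, End.one_apply]

omit hp in
theorem Tn_card (h : Crit p m r ρ σ Q Z) [Z.Normal] (ψ : Z → F) (g : Γ) :
    (Tn h (g • ψ)).relIndex Q = (Tn h ψ).relIndex Q := by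
  have h1 : ∀ (ψ : Z → F) (g : Γ), Nat.card (Tn h ψ) ≤ Nat.card (Tn h (g • ψ)) := by
    intro ψ g
    apply Nat.card_le_card_of_injective
      (fun x : Tn h ψ => (⟨g * x * g⁻¹, Tn_conj h g x.2⟩ : Tn h (g • ψ)))
    intro a b hab
    have h2 : g * (a : Γ) * g⁻¹ = g * b * g⁻¹ := congrArg Subtype.val hab
    apply Subtype.ext
    simpa using h2
  have h2 : Nat.card (Tn h (g • ψ)) = Nat.card (Tn h ψ) := by
    apply le_antisymm
    · have h3 := h1 (g • ψ) g⁻¹
      rwa [inv_smul_smul] at h3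
    · exact h1 ψ g
  have h3 : ∀ H : Subgroup Γ, H ≤ Q → Nat.card H * H.relIndex Q = Nat.card Q := by
    intro H hH
    have h4 := (H.subgroupOf Q).card_mul_index
    rwa [Nat.card_congr (Subgroup.subgroupOfEquivOfLe hH).toEquiv] at h4
  have h4 := h3 _ (Tn_le h (g • ψ))
  have h5 := h3 _ (Tn_le h ψ)
  rw [h2, ← h5] at h4
  exact Nat.eq_of_mul_eq_mul_left Nat.card_pos h4

omit hp [Finite Γ] in
/-- a subgroup between `Z` and `Q` is normalised by `Q` -/
theorem conj_mem_of_le (h : Crit p m r ρ σ Q Z) {D : Subgroup Γ} (hZD : Z ≤ D) (hDQ : D ≤ Q)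
    {x y : Γ} (hx : x ∈ D) (hy : y ∈ Q) : y * x * y⁻¹ ∈ D := by
  have h1 : y * x * y⁻¹ = (y * x * y⁻¹ * x⁻¹) * x := by group
  rw [h1]
  exact D.mul_mem (hZD (h.comm y hy x (hDQ hx))) hx

/-- nontrivial elements of `⟨σ⟩` act freely on `Q / D` for an invariant `D ≥ Z`. -/
theorem free_gen (h : Crit p m r ρ σ Q Z) {D : Subgroup Γ} (hZD : Z ≤ D) (hDQ : D ≤ Q) {c : Γ}
    (hc : c ∈ Subgroup.zpowers σ) (hc1 : c ≠ 1)
    (hcD : Subgroup.zpowers c ≤ Subgroup.normalizer (D : Set Γ)) {x : Γ} (hx : x ∈ Q)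
    (hcx : c * x * c⁻¹ * x⁻¹ ∈ D) : x ∈ D := by
  have hφ : σ ^ p ^ m ∈ Subgroup.zpowers c := by
    apply mem_of_ne_bot hp.out h.pow (by rw [Subgroup.zpowers_le]; exact hc)
    intro hb
    exact hc1 (Subgroup.zpowers_eq_bot.1 hb)
  let E : Subgroup Γ :=
    { carrier := {a | a ∈ Subgroup.zpowers c ∧ a * x * a⁻¹ * x⁻¹ ∈ D}
      mul_mem' := by
        rintro a b ⟨ha, ha'⟩ ⟨hb, hb'⟩
        refine ⟨Subgroup.mul_mem _ ha hb, ?_⟩
        have h1 : a * b * x * (a * b)⁻¹ * x⁻¹ = (a * (b * x * b⁻¹ * x⁻¹) * a⁻¹) *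
            (a * x * a⁻¹ * x⁻¹) := by group
        rw [h1]
        exact D.mul_mem (conj_of_le_normalizer hcD ha hb') ha'
      one_mem' := by
        refine ⟨Subgroup.one_mem _, ?_⟩
        have h1 : (1 : Γ) * x * 1⁻¹ * x⁻¹ = 1 := by group
        rw [h1]; exact D.one_mem
      inv_mem' := by
        rintro a ⟨ha, ha'⟩
        refine ⟨Subgroup.inv_mem _ ha, ?_⟩
        have h1 : a⁻¹ * x * a⁻¹⁻¹ * x⁻¹ = (a⁻¹ * (a * x * a⁻¹ * x⁻¹) * a⁻¹⁻¹)⁻¹ := by group
        rw [h1]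
        exact D.inv_mem (conj_of_le_normalizer hcD (Subgroup.inv_mem _ ha) ha') }
  have hE : Subgroup.zpowers c ≤ E := by
    rw [Subgroup.zpowers_le]
    exact ⟨Subgroup.mem_zpowers c, hcx⟩
  have hφp : IsPGroup p (Subgroup.zpowers (σ ^ p ^ m)) :=
    (isPGroup_zpowers h.pow).to_le (pow_mem_zpowers σ _)
  have hφc : Subgroup.zpowers (σ ^ p ^ m) ≤ Subgroup.zpowers c := by
    rw [Subgroup.zpowers_le]; exact hφ
  have hpD : ¬ p ∣ Nat.card D := by
    have : Fact r.Prime := ⟨h.prime⟩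
    obtain ⟨j, hj⟩ := IsPGroup.iff_card.1 (h.isp.to_le hDQ)
    rw [hj]
    intro hd
    exact h.ne ((Nat.prime_dvd_prime_iff_eq hp.out h.prime).1 (hp.out.dvd_of_dvd_pow hd)).symm
  obtain ⟨y, hy, hxy⟩ := exists_fixed_in_coset p (Subgroup.zpowers (σ ^ p ^ m)) D hφp
    (hφc.trans hcD) hpD x (by
      intro a ha
      have h1 := (hE (hφc ha)).2
      have h2 : x⁻¹ * (a * x * a⁻¹) = x⁻¹ * (a * x * a⁻¹ * x⁻¹) * x⁻¹⁻¹ := by group
      rw [h2]
      exact conj_mem_of_le h hZD hDQ h1 (Q.inv_mem hx))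
  have hyQ : y ∈ Q := by
    have h1 : y = x * (x⁻¹ * y) := by group
    rw [h1]
    exact Q.mul_mem hx (hDQ hxy)
  have hyZ : y ∈ Z := by
    rw [h.fixZ y hyQ]
    exact ((Subgroup.mem_centralizer_iff.1 hy) _ (Subgroup.mem_zpowers _)).symm
  have h1 : x = y * (x⁻¹ * y)⁻¹ := by group
  rw [h1]
  exact D.mul_mem (hZD hyZ) (D.inv_mem hxy)

omit hp in
/-- `Q` does not act by scalars on the weight space of a nontrivial weight fixed by `φ` -/
theorem not_le_Tn (h : Crit p m r ρ σ Q Z) [Z.Normal] {χ : Z → F} (hχ : wt ρ Z χ ≠ ⊥) {z : Z}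
    (hz : χ z ≠ 1) (hφ : σ ^ p ^ m • χ = χ) : ¬ Q ≤ Tn h χ := by
  intro hQT
  let T : Subgroup Γ :=
    { carrier := {x | ∀ v ∈ wt ρ Z χ, ρ x v = v}
      mul_mem' := fun {a b} ha hb v hv => by rw [map_mul, End.mul_apply, hb v hv, ha v hv]
      one_mem' := fun v _ => by rw [map_one, End.one_apply]
      inv_mem' := fun {a} ha v hv => by
        conv_lhs => rw [← ha v hv]
        rw [← End.mul_apply, ← map_mul, inv_mul_cancel, map_one, End.one_apply] }
  have hQT' : Q ≤ T := by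
    conv_lhs => rw [← h.gen]
    rw [Subgroup.commutator_le]
    intro x hx d hd
    have hd' : ∀ e ∈ Subgroup.zpowers (σ ^ p ^ m), ∀ v ∈ wt ρ Z χ, ρ e v ∈ wt ρ Z χ := by
      intro e he v hv
      have h1 : e ∈ MulAction.stabilizer Γ χ := by
        have h2 : Subgroup.zpowers (σ ^ p ^ m) ≤ MulAction.stabilizer Γ χ := by
          rw [Subgroup.zpowers_le]; exact hφ
        exact h2 he
      have h2 := smul_mem_wt hv e
      rwa [MulAction.mem_stabilizer_iff.1 h1] at h2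
    intro v hv
    obtain ⟨-, c, hc⟩ := hQT hx
    obtain ⟨-, c', hc'⟩ := hQT (Q.inv_mem hx)
    have hd1 := hd' d⁻¹ (Subgroup.inv_mem _ hd) v hv
    have h3 : ρ x (ρ x⁻¹ v) = v := by
      rw [← End.mul_apply, ← map_mul, mul_inv_cancel, map_one, End.one_apply]
    rw [hc' v hv, map_smul, hc v hv] at h3
    rw [commutatorElement_def, map_mul, map_mul, map_mul, End.mul_apply, End.mul_apply,
      End.mul_apply, hc' _ hd1, map_smul, map_smul]
    have h4 : ρ d (ρ d⁻¹ v) = v := by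
      rw [← End.mul_apply, ← map_mul, mul_inv_cancel, map_one, End.one_apply]
    rw [h4, hc v hv, h3]
  obtain ⟨v, hv, hv0⟩ := Submodule.exists_mem_ne_zero_of_ne_bot hχ
  have h11 := hQT' (h.le z.2) v hv
  rw [mem_wt] at hv
  rw [hv z] at h11
  have h12 : (χ z - 1) • v = 0 := by rw [sub_smul, one_smul, h11, sub_self]
  rcases smul_eq_zero.1 h12 with h13 | h13
  · exact hz (sub_eq_zero.1 h13)
  · exact hv0 h13

omit hp [Finite Γ] in
theorem Q_le_stab (h : Crit p m r ρ σ Q Z) [Z.Normal] (χ : Z → F) : Q ≤ MulAction.stabilizer Γ χ :=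
  fun _ hx => h.smul_eq χ hx

/-- the hypotheses of Shult's lemma hold on a weight space -/
theorem shult_hyp [IsAlgClosed F] [FiniteDimensional F V] (h : Crit p m r ρ σ Q Z) [hZn : Z.Normal]
    [hQn : Q.Normal] {χ : Z → F} (hχ : wt ρ Z χ ≠ ⊥) {j : ℕ} (hj : j ≤ m)
    (hst : stab Z (Subgroup.zpowers σ) χ = Subgroup.zpowers (σ ^ p ^ j))
    (hτM : σ ^ p ^ j ∈ MulAction.stabilizer Γ χ) :
    Shult.Hyp ((wrep ρ Z χ).comp (Subgroup.inclusion (Q_le_stab h χ))) (wrep ρ Z χ ⟨_, hτM⟩)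
      (MulAut.conjNormal (σ ^ p ^ j)) (p ^ (m - j + 1)) ((Tn h χ).subgroupOf Q) := by
  set τ := σ ^ p ^ j with hτdef
  have hτN : τ ^ p ^ (m - j + 1) = 1 := by
    rw [hτdef, ← pow_mul, ← pow_add]
    have h1 : j + (m - j + 1) = m + 1 := by omega
    rw [h1, h.pow]
  have hτφ : τ ^ p ^ (m - j) = σ ^ p ^ m := by
    rw [hτdef, ← pow_mul, ← pow_add]
    have h1 : j + (m - j) = m := by omega
    rw [h1]
  have hord : orderOf τ = p ^ (m - j + 1) :=
    orderOf_eq_prime_pow (by rw [hτφ]; exact h.ne_one) hτN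
  have hCF := h.cardC
  have hfixC : ∀ v, (∀ a ∈ Subgroup.zpowers σ, ρ a v = v) → v = 0 :=
    fun v hv => h.fixV v (hv σ (Subgroup.mem_zpowers σ))
  have hfixτ : ∀ v ∈ wt ρ Z χ, ρ τ v = v → v = 0 := by
    intro v hv hτv
    apply eq_zero_of_stab_fixed ρ Z h.cardZ h.abel (Subgroup.zpowers σ) hCF hfixC hv
    intro a ha ha'
    have h1 : a ∈ stab Z (Subgroup.zpowers σ) χ := ⟨ha, ha'⟩
    rw [hst] at h1
    exact pow_fixed ρ hτv a h1
  have hτC : τ ∈ Subgroup.zpowers σ := Subgroup.pow_mem _ (Subgroup.mem_zpowers σ) _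
  have hτTn : ∀ i : ℕ, Subgroup.zpowers (τ ^ i) ≤ Subgroup.normalizer (Tn h χ : Set Γ) := by
    intro i
    apply le_normalizer_of_conj
    intro a ha x hx
    have h1 := Tn_conj h a hx
    have h2 : a ∈ MulAction.stabilizer Γ χ := by
      have h3 : Subgroup.zpowers (τ ^ i) ≤ MulAction.stabilizer Γ χ := by
        rw [Subgroup.zpowers_le]; exact Subgroup.pow_mem _ hτM i
      exact h3 ha
    rwa [MulAction.mem_stabilizer_iff.1 h2] at h1
  have hwt : ∀ x ∈ Q, ∀ v ∈ wt ρ Z χ, ρ x v ∈ wt ρ Z χ := by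
    intro x hx v hv
    have h1 := smul_mem_wt hv x
    rwa [h.smul_eq χ hx] at h1
  have hα : ∀ (x : Q) (v : wt ρ Z χ),
      ((((wrep ρ Z χ).comp (Subgroup.inclusion (Q_le_stab h χ))) x v : wt ρ Z χ) : V) = ρ x v :=
    fun x v => rfl
  have ht : ∀ v : wt ρ Z χ, ((wrep ρ Z χ ⟨τ, hτM⟩ v : wt ρ Z χ) : V) = ρ τ v := fun v => rfl
  exact
  { tN := by
      rw [← map_pow]
      have h1 : (⟨τ, hτM⟩ : MulAction.stabilizer Γ χ) ^ p ^ (m - j + 1) = 1 := Subtype.ext hτN
      rw [h1, map_one]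
    NF := by
      rw [Nat.cast_pow]
      exact pow_ne_zero _ h.pF
    XF := h.cardQ
    inter := by
      intro x
      ext v
      show ρ τ (ρ x v) = ρ (τ * x * τ⁻¹) (ρ τ v)
      rw [← End.mul_apply, ← End.mul_apply, ← map_mul, ← map_mul, inv_mul_cancel_right]
    fix := by
      intro w hw
      apply Subtype.ext
      exact hfixτ w w.2 (congrArg Subtype.val hw)
    scal := by
      intro x
      rw [Subgroup.mem_subgroupOf, mem_Tn]
      constructor
      · rintro ⟨_, c, hc⟩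
        refine ⟨c, ?_⟩
        ext v
        exact hc v v.2
      · rintro ⟨c, hc⟩
        refine ⟨x.2, c, fun v hv => ?_⟩
        exact congrArg Subtype.val (LinearMap.congr_fun hc (⟨v, hv⟩ : wt ρ Z χ))
    comm := by
      intro x y
      rw [Subgroup.mem_subgroupOf]
      exact le_Tn h χ (h.comm x x.2 y y.2)
    free := by
      intro i hi hiN x hx
      rw [Subgroup.mem_subgroupOf] at hx ⊢
      rw [← map_pow] at hx
      have h1 : (((MulAut.conjNormal (τ ^ i) : MulAut Q) x * x⁻¹ : Q) : Γ) =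
          τ ^ i * x * (τ ^ i)⁻¹ * (x : Γ)⁻¹ := by
        rw [Subgroup.coe_mul, Subgroup.coe_inv, MulAut.conjNormal_apply]
      rw [h1] at hx
      apply free_gen h (le_Tn h χ) (Tn_le h χ) (Subgroup.pow_mem _ hτC i) _ (hτTn i) x.2 hx
      intro h2
      have h3 := orderOf_dvd_of_pow_eq_one h2
      rw [hord] at h3
      exact absurd (Nat.le_of_dvd hi h3) (by omega)
    max := by
      intro x hx
      rw [Subgroup.mem_subgroupOf]
      -- the subgroup of elements commuting with `Q` on the weight space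
      let M : Subgroup Γ := MulAction.stabilizer Γ χ
      let K : Subgroup M := MonoidHom.ker (wrep ρ Z χ)
      have hKn : K.Normal := MonoidHom.normal_ker _
      let QM : Subgroup M := Q.subgroupOf M
      have hQMn : QM.Normal := Subgroup.Normal.subgroupOf hQn M
      have hQMn' : (QM.map (QuotientGroup.mk' K)).Normal :=
        hQMn.map _ (QuotientGroup.mk'_surjective K)
      let Y : Subgroup M := QM ⊓ (Subgroup.centralizer (QM.map (QuotientGroup.mk' K) :
        Set (M ⧸ K))).comap (QuotientGroup.mk' K)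
      have hYn : Y.Normal := inferInstance
      have hK : ∀ a b : M, QuotientGroup.mk' K a = QuotientGroup.mk' K b ↔
          wrep ρ Z χ a = wrep ρ Z χ b := by
        intro a b
        constructor
        · intro h1
          have h2 : a⁻¹ * b ∈ K := QuotientGroup.eq.1 h1
          rw [MonoidHom.mem_ker, map_mul] at h2
          have h3 : wrep ρ Z χ a * (wrep ρ Z χ a⁻¹ * wrep ρ Z χ b) = wrep ρ Z χ a := by
            rw [h2, mul_one]
          rw [← mul_assoc, ← map_mul, mul_inv_cancel, map_one, one_mul] at h3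
          exact h3.symm
        · intro h1
          refine QuotientGroup.eq.2 ?_
          rw [MonoidHom.mem_ker, map_mul, ← h1, ← map_mul, inv_mul_cancel, map_one]
      have hYcomm : ∀ a ∈ Y, ∀ b ∈ QM, wrep ρ Z χ (a * b) = wrep ρ Z χ (b * a) := by
        intro a ha b hb
        rw [← hK, map_mul, map_mul]
        exact ((Subgroup.mem_centralizer_iff.1 (Subgroup.mem_comap.1 ha.2)) _ ⟨b, hb, rfl⟩).symm
      have hxM : (x : Γ) ∈ M := Q_le_stab h χ x.2
      have hxY : (⟨x, hxM⟩ : M) ∈ Y := by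
        refine ⟨x.2, Subgroup.mem_comap.2 (Subgroup.mem_centralizer_iff.2 ?_)⟩
        rintro _ ⟨b, hb, rfl⟩
        rw [← map_mul, ← map_mul, hK]
        exact (hx ⟨b, hb⟩).symm
      have hYF : (Nat.card Y : F) ≠ 0 := by
        have h1 : Nat.card Y ∣ Nat.card Q := by
          have h2 : Nat.card QM = Nat.card Q :=
            Nat.card_congr (Subgroup.subgroupOfEquivOfLe (Q_le_stab h χ)).toEquiv
          rw [← h2]
          exact Subgroup.card_dvd_of_le inf_le_left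
        intro h0
        apply h.cardQ
        obtain ⟨c, hc⟩ := h1
        rw [hc, Nat.cast_mul, h0, zero_mul]
      have key := comm_of_cyclic (wrep ρ Z χ) Y hYF (fun a ha b hb => hYcomm a ha b hb.1)
        (τ := (⟨τ, hτM⟩ : M)) (p := p) (k := m - j) h.pF (Subtype.ext hτN)
        (by rw [Subgroup.normalizer_eq_top_iff.2 hYn]; exact le_top) (by
          intro v hv
          apply Subtype.ext
          exact hfixτ v v.2 (congrArg Subtype.val hv)) _ hxY
      -- the kernel on the weight space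
      let Kn : Subgroup Γ :=
        { carrier := {y | y ∈ Q ∧ ∀ v ∈ wt ρ Z χ, ρ y v = v}
          mul_mem' := by
            rintro a b ⟨ha, ha'⟩ ⟨hb, hb'⟩
            exact ⟨Q.mul_mem ha hb, fun v hv => by rw [map_mul, End.mul_apply, hb' v hv, ha' v hv]⟩
          one_mem' := ⟨Q.one_mem, fun v _ => by rw [map_one, End.one_apply]⟩
          inv_mem' := by
            rintro a ⟨ha, ha'⟩
            refine ⟨Q.inv_mem ha, fun v hv => ?_⟩
            conv_lhs => rw [← ha' v hv]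
            rw [← End.mul_apply, ← map_mul, inv_mul_cancel, map_one, End.one_apply] }
      have hKnQ : Kn ≤ Q := fun y hy => hy.1
      have hφM : ∀ a ∈ Subgroup.zpowers (σ ^ p ^ m), a ∈ M := by
        have h1 : Subgroup.zpowers (σ ^ p ^ m) ≤ M := by
          rw [Subgroup.zpowers_le, ← hτφ]
          exact Subgroup.pow_mem _ hτM _
        exact h1
      have hφKn : Subgroup.zpowers (σ ^ p ^ m) ≤ Subgroup.normalizer (Kn : Set Γ) := by
        apply le_normalizer_of_conj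
        intro a ha y hy
        refine ⟨hQn.conj_mem y hy.1 a, fun v hv => ?_⟩
        have h1 : ρ a⁻¹ v ∈ wt ρ Z χ := by
          have h2 := smul_mem_wt hv a⁻¹
          rwa [MulAction.mem_stabilizer_iff.1 (Subgroup.inv_mem _ (hφM a ha))] at h2
        rw [map_mul, map_mul, End.mul_apply, End.mul_apply, hy.2 _ h1, ← End.mul_apply, ← map_mul,
          mul_inv_cancel, map_one, End.one_apply]
      have hpKn : ¬ p ∣ Nat.card Kn := by
        have : Fact r.Prime := ⟨h.prime⟩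
        obtain ⟨j, hj⟩ := IsPGroup.iff_card.1 (h.isp.to_le hKnQ)
        rw [hj]
        intro hd
        exact h.ne ((Nat.prime_dvd_prime_iff_eq hp.out h.prime).1 (hp.out.dvd_of_dvd_pow hd)).symm
      have hφp : IsPGroup p (Subgroup.zpowers (σ ^ p ^ m)) :=
        (isPGroup_zpowers h.pow).to_le (pow_mem_zpowers σ _)
      -- `⟨φ⟩` commutes with `x` modulo the kernel
      have hmod : ∀ a ∈ Subgroup.zpowers (σ ^ p ^ m), (x : Γ)⁻¹ * (a * x * a⁻¹) ∈ Kn := by
        intro a ha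
        refine ⟨Q.mul_mem (Q.inv_mem x.2) (hQn.conj_mem x x.2 a), ?_⟩
        have h1 : QuotientGroup.mk' K ⟨a, hφM a ha⟩ * QuotientGroup.mk' K ⟨x, hxM⟩ =
            QuotientGroup.mk' K ⟨x, hxM⟩ * QuotientGroup.mk' K ⟨a, hφM a ha⟩ := by
          have h2 : QuotientGroup.mk' K ((⟨τ, hτM⟩ : M) ^ p ^ (m - j)) * QuotientGroup.mk' K ⟨x, hxM⟩ =
              QuotientGroup.mk' K ⟨x, hxM⟩ * QuotientGroup.mk' K ((⟨τ, hτM⟩ : M) ^ p ^ (m - j)) := by
            rw [← map_mul, ← map_mul, hK]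
            exact key
          have ha0 := ha
          obtain ⟨i, hi⟩ := ha0
          have h3 : (⟨a, hφM a ha⟩ : M) = ((⟨τ, hτM⟩ : M) ^ p ^ (m - j)) ^ i := by
            apply Subtype.ext
            show a = (τ ^ p ^ (m - j)) ^ i
            rw [hτφ]
            exact hi.symm
          rw [h3, map_zpow]
          exact ((show Commute _ _ from h2).zpow_left i)
        intro v hv
        rw [← map_mul, ← map_mul, hK] at h1
        have h4 := congrArg Subtype.val (LinearMap.congr_fun h1 (⟨ρ a⁻¹ v, by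
          have h2 := smul_mem_wt hv a⁻¹
          rwa [MulAction.mem_stabilizer_iff.1 (Subgroup.inv_mem _ (hφM a ha))] at h2⟩ : wt ρ Z χ))
        have h5 : ρ (a * x) (ρ a⁻¹ v) = ρ (x * a) (ρ a⁻¹ v) := h4
        rw [map_mul, End.mul_apply, map_mul _ (a * x) a⁻¹, End.mul_apply, h5, ← End.mul_apply,
          ← End.mul_apply, ← map_mul, ← map_mul]
        have h6 : (x : Γ)⁻¹ * ((x : Γ) * a) * a⁻¹ = 1 := by group
        rw [h6, map_one, End.one_apply]
      obtain ⟨y, hy, hxy⟩ := exists_fixed_in_coset p (Subgroup.zpowers (σ ^ p ^ m)) Kn hφp hφKn hpKn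
        (x : Γ) hmod
      have hyQ : y ∈ Q := by
        have h1 : y = x * ((x : Γ)⁻¹ * y) := by group
        rw [h1]
        exact Q.mul_mem x.2 (hKnQ hxy)
      have hyZ : y ∈ Z := by
        rw [h.fixZ y hyQ]
        exact ((Subgroup.mem_centralizer_iff.1 hy) _ (Subgroup.mem_zpowers _)).symm
      have h1 : (x : Γ) = y * ((x : Γ)⁻¹ * y)⁻¹ := by group
      rw [h1]
      refine (Tn h χ).mul_mem (le_Tn h χ hyZ) ((Tn h χ).inv_mem ?_)
      exact ⟨hxy.1, 1, fun v hv => by rw [one_smul]; exact hxy.2 v hv⟩ }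

end crit

/-- For odd `p` there is no critical configuration. -/
theorem noCrit_odd {p : ℕ} [hp : Fact p.Prime] (hp2 : p ≠ 2) (m : ℕ) (F : Type) [Field F]
    [IsAlgClosed F] : NoCrit.{u} p m F := by
  classical
  intro r Γ _ _ V _ _ _ ρ σ Q Z h
  have hZn := h.normZ
  have hQn := h.normQ
  have hrf : Fact r.Prime := ⟨h.prime⟩
  obtain ⟨χ, hχ, z, hz⟩ := h.exists_weight
  have hfixC : ∀ v, (∀ a ∈ Subgroup.zpowers σ, ρ a v = v) → v = 0 :=
    fun v hv => h.fixV v (hv σ (Subgroup.mem_zpowers σ))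
  have hS := stab_ne_bot ρ Z h.cardZ h.abel (Subgroup.zpowers σ) h.cardC hfixC hχ
  have hφS : σ ^ p ^ m ∈ stab Z (Subgroup.zpowers σ) χ := mem_of_ne_bot hp.out h.pow stab_le hS
  obtain ⟨j, hj1, hst⟩ := exists_zpowers hp.out h.pow (stab_le (A := Subgroup.zpowers σ) (χ := χ))
  have hj : j ≤ m := by
    by_contra hcon
    have h1 : j = m + 1 := by omega
    apply hS
    rw [hst, h1, h.pow, Subgroup.zpowers_one_eq_bot]
  have hτM : σ ^ p ^ j ∈ MulAction.stabilizer Γ χ := by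
    have h1 : σ ^ p ^ j ∈ stab Z (Subgroup.zpowers σ) χ := by rw [hst]; exact Subgroup.mem_zpowers _
    exact h1.2
  have hyp := shult_hyp h hχ hj hst hτM
  have hnt : Nontrivial (wt ρ Z χ) := Submodule.nontrivial_iff_ne_bot.2 hχ
  have hnle := not_le_Tn h hχ hz hφS.2
  have hne : (Tn h χ).subgroupOf Q ≠ ⊤ := by
    rw [Ne, Subgroup.subgroupOf_eq_top]; exact hnle
  have hidx := hyp.index_eq hne
  set k := m - j + 1 with hk
  -- the prime `r` is 2
  have hpk : 3 ≤ p ^ k := by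
    have hp3 : 3 ≤ p := by
      have := hp.out.two_le
      omega
    calc 3 ≤ p := hp3
      _ = p ^ 1 := (pow_one p).symm
      _ ≤ p ^ k := Nat.pow_le_pow_right hp.out.pos (by omega)
  obtain ⟨a, ha⟩ := IsPGroup.iff_card.1 h.isp
  have hdvd : p ^ k - 1 ∣ r ^ a := by
    have h1 : (p ^ k - 1) ^ 2 ∣ r ^ a := by
      rw [← hidx, ← ha]
      exact Subgroup.index_dvd_card _
    exact (dvd_pow_self _ two_ne_zero).trans h1
  obtain ⟨d, -, hd⟩ := (Nat.dvd_prime_pow h.prime).1 hdvd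
  have hr2 : r = 2 := by
    have h1 : 2 ∣ r ^ d := by
      rw [← hd]
      have h2 : Odd (p ^ k) := (hp.out.odd_of_ne_two hp2).pow
      obtain ⟨c, hc⟩ := h2
      exact ⟨c, by omega⟩
    exact ((Nat.prime_dvd_prime_iff_eq Nat.prime_two h.prime).1 (Nat.prime_two.dvd_of_dvd_pow h1)).symm
  subst hr2
  have hd' : 2 ^ d + 1 = p ^ k := by omega
  -- the orbit
  have hordσ : orderOf σ = p ^ (m + 1) := orderOf_eq_prime_pow h.ne_one h.pow
  let C : Subgroup Γ := Subgroup.zpowers σ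
  have hCcard : Nat.card C = p ^ (m + 1) := by rw [Nat.card_zpowers, hordσ]
  have hstc : Nat.card (MulAction.stabilizer C χ) = p ^ k := by
    have h1 : Nat.card (MulAction.stabilizer C χ) = Nat.card (stab Z C χ) := by
      apply Nat.card_congr
      exact ⟨fun c => ⟨c.1.1, c.1.2, c.2⟩, fun c => ⟨⟨c.1, c.2.1⟩, c.2.2⟩, fun _ => rfl, fun _ => rfl⟩
    rw [h1]
    show Nat.card (stab Z (Subgroup.zpowers σ) χ) = _
    rw [hst, Nat.card_zpowers]
    apply orderOf_eq_prime_pow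
    · have h2 : (σ ^ p ^ j) ^ p ^ (m - j) = σ ^ p ^ m := by
        rw [← pow_mul, ← pow_add]
        congr 2; omega
      rw [h2]; exact h.ne_one
    · have h2 : (σ ^ p ^ j) ^ p ^ (m - j + 1) = σ ^ p ^ (m + 1) := by
        rw [← pow_mul, ← pow_add]
        congr 2; omega
      rw [h2]; exact h.pow
  have hfinO : Finite (MulAction.orbit C χ) := (Set.finite_range (fun y : C => y • χ)).to_subtype
  have hOcard : Nat.card (MulAction.orbit C χ) = p ^ (m + 1 - k) := by
    have h1 := Nat.card_congr (MulAction.orbitEquivQuotientStabilizer C χ)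
    have h2 := (MulAction.stabilizer C χ).card_mul_index
    rw [hstc, hCcard] at h2
    rw [← Subgroup.index_eq_card] at h1
    rw [h1]
    have h3 : p ^ k * p ^ (m + 1 - k) = p ^ (m + 1) := by
      rw [← pow_add]; congr 1; omega
    rw [← h3] at h2
    exact Nat.eq_of_mul_eq_mul_left (pow_pos hp.out.pos _) h2
  have hrel : ∀ ψ ∈ MulAction.orbit C χ, ((Tn h ψ).subgroupOf Q).index = (p ^ k - 1) ^ 2 := by
    rintro _ ⟨c, rfl⟩
    have h1 := Tn_card h χ (c : Γ)
    have h2 : ((Tn h χ).subgroupOf Q).index = (Tn h χ).relIndex Q := rfl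
    rw [← hidx, h2, ← h1]
    rfl
  have hgood : ∃ x ∈ Q, x ∉ Tn h χ ∧ ∀ ψ ∈ MulAction.orbit C χ, ψ ≠ χ → x ∈ Tn h ψ := by
    by_contra hcon
    push Not at hcon
    have hcon' : ∀ x ∈ Q, (∀ ψ ∈ MulAction.orbit C χ, ψ ≠ χ → x ∈ Tn h ψ) → x ∈ Tn h χ := by
      intro x hx hψ
      by_contra hxT
      obtain ⟨ψ, hψ1, hψ2, hψ3⟩ := hcon x hx hxT
      exact hψ3 (hψ ψ hψ1 hψ2)
    let I : Type u := {ψ : MulAction.orbit C χ // (ψ : Z → F) ≠ χ}
    have hIf : Fintype I := Fintype.ofFinite I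
    have hIcard : Fintype.card I + 1 = p ^ (m + 1 - k) := by
      have hOf : Fintype (MulAction.orbit C χ) := Fintype.ofFinite _
      rw [← hOcard, Nat.card_eq_fintype_card]
      have h1 : Fintype.card I = Fintype.card {ψ : MulAction.orbit C χ //
          ψ ≠ ⟨χ, MulAction.mem_orbit_self χ⟩} := by
        apply Fintype.card_congr
        apply Equiv.subtypeEquivRight
        intro ψ
        rw [Ne, Ne, Subtype.ext_iff]
      rw [h1, Fintype.card_subtype_compl, Fintype.card_subtype_eq]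
      have h2 : 0 < Fintype.card (MulAction.orbit C χ) :=
        Fintype.card_pos_iff.2 ⟨⟨χ, MulAction.mem_orbit_self χ⟩⟩
      omega
    let D : Subgroup Q := ⨅ i : I, (Tn h (i.1 : Z → F)).subgroupOf Q
    have hmemD : ∀ x : Q, x ∈ D ↔ ∀ ψ ∈ MulAction.orbit C χ, (x : Γ) ∈ Tn h ψ := by
      intro x
      rw [Subgroup.mem_iInf]
      constructor
      · intro hx ψ hψ
        have h1 : ∀ ψ ∈ MulAction.orbit C χ, ψ ≠ χ → (x : Γ) ∈ Tn h ψ :=
          fun ψ hψ hψ1 => hx ⟨⟨ψ, hψ⟩, hψ1⟩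
        by_cases hψ1 : ψ = χ
        · rw [hψ1]
          exact hcon' x x.2 h1
        · exact h1 ψ hψ hψ1
      · intro hx i
        exact hx _ i.1.2
    have hDidx : D.index ≤ 2 ^ (2 * d * Fintype.card I) := by
      refine (Subgroup.index_iInf_le (fun i : I => (Tn h (i.1 : Z → F)).subgroupOf Q)).trans ?_
      have h1 : ∀ i ∈ (Finset.univ : Finset I), ((Tn h (i.1 : Z → F)).subgroupOf Q).index =
          2 ^ (2 * d) := by
        intro i _
        rw [hrel _ i.1.2, hd, ← pow_mul, mul_comm]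
      rw [Finset.prod_congr rfl h1, Finset.prod_const, Finset.card_univ, ← pow_mul]
    have hDn : D.Normal := by
      constructor
      intro x hx y
      rw [hmemD] at hx ⊢
      intro ψ hψ
      exact conj_mem_of_le h (le_Tn h ψ) (Tn_le h ψ) (hx ψ hψ) y.2
    have hconj : ∀ c ∈ C, ∀ x : Γ, x ∈ Q → (∀ ψ ∈ MulAction.orbit C χ, x ∈ Tn h ψ) →
        ∀ ψ ∈ MulAction.orbit C χ, c * x * c⁻¹ ∈ Tn h ψ := by
      intro c hc x hx hxψ ψ hψ
      have h1 : c⁻¹ • ψ ∈ MulAction.orbit C χ := by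
        obtain ⟨c', rfl⟩ := hψ
        refine ⟨⟨c⁻¹, C.inv_mem hc⟩ * c', ?_⟩
        exact mul_smul (c⁻¹ : Γ) (c' : Γ) χ
      have h2 := Tn_conj h c (hxψ _ h1)
      rwa [smul_inv_smul] at h2
    have hDne : D ≠ ⊤ := by
      intro h1
      apply hnle
      intro x hx
      have h2 : (⟨x, hx⟩ : Q) ∈ D := by rw [h1]; trivial
      exact (hmemD _).1 h2 χ (MulAction.mem_orbit_self χ)
    have hmod := index_mod D (MulAut.conjNormal σ : MulAut Q) (N := p ^ (m + 1)) (by
        intro x hx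
        rw [hmemD] at hx ⊢
        rw [MulAut.conjNormal_apply]
        exact hconj σ (Subgroup.mem_zpowers σ) x x.2 hx) (pow_pos hp.out.pos _) (by
        intro x
        rw [← map_pow, h.pow, map_one]
        have h1 : (1 : MulAut Q) x * x⁻¹ = 1 := mul_inv_cancel x
        rw [h1]; exact D.one_mem) (by
        intro i hi hiN x hx
        rw [← map_pow, hmemD] at hx
        rw [hmemD]
        let D' : Subgroup Γ := D.map Q.subtype
        have hD' : ∀ x : Γ, x ∈ D' ↔ x ∈ Q ∧ ∀ ψ ∈ MulAction.orbit C χ, x ∈ Tn h ψ := by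
          intro x
          constructor
          · rintro ⟨y, hy, rfl⟩
            exact ⟨y.2, (hmemD y).1 hy⟩
          · rintro ⟨h1, h2⟩
            exact ⟨⟨x, h1⟩, (hmemD _).2 h2, rfl⟩
        have h1 : (x : Γ) ∈ D' := by
          apply free_gen h (c := σ ^ i)
          · intro z hz
            rw [hD']
            exact ⟨h.le hz, fun ψ _ => le_Tn h ψ hz⟩
          · exact fun x hx => ((hD' x).1 hx).1
          · exact Subgroup.pow_mem _ (Subgroup.mem_zpowers σ) _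
          · intro h2
            have h3 := orderOf_dvd_of_pow_eq_one h2
            rw [hordσ] at h3
            exact absurd (Nat.le_of_dvd hi h3) (by omega)
          · apply le_normalizer_of_conj
            intro c hc x hx
            rw [hD'] at hx ⊢
            exact ⟨hQn.conj_mem x hx.1 c, hconj c ((pow_mem_zpowers σ i) hc) x hx.1 hx.2⟩
          · exact x.2
          · rw [hD']
            have h2 : (((MulAut.conjNormal (σ ^ i) : MulAut Q) x * x⁻¹ : Q) : Γ) =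
                σ ^ i * x * (σ ^ i)⁻¹ * (x : Γ)⁻¹ := by
              rw [Subgroup.coe_mul, Subgroup.coe_inv, MulAut.conjNormal_apply]
            rw [← h2]
            exact ⟨Subtype.prop _, hx⟩
        exact ((hD' x).1 h1).2) hDne
    -- arithmetic
    have hDdvd : D.index ∣ 2 ^ a := by
      rw [← ha]
      exact Subgroup.index_dvd_card D
    obtain ⟨M, -, hM⟩ := (Nat.dvd_prime_pow h.prime).1 hDdvd
    have hM0 : 0 < M := by
      rcases Nat.eq_zero_or_pos M with h0 | h0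
      · exfalso
        apply hDne
        rw [h0, pow_zero] at hM
        exact Subgroup.index_eq_one.1 hM
      · exact h0
    rw [hM] at hmod hDidx
    have hdv : p ^ (m + 1) ∣ 2 ^ M - 1 := by
      have h1 : 1 ≤ 2 ^ M := Nat.one_le_two_pow
      have h2 : 1 ≤ p ^ (m + 1) := Nat.one_le_pow _ _ hp.out.pos
      have h3 : 2 ^ M + (p ^ (m + 1) - 1) = (2 ^ M - 1) + p ^ (m + 1) := by omega
      rw [h3] at hmod
      exact (Nat.dvd_add_left dvd_rfl).1 hmod
    have h1 := Num.le_of_dvd hp.out hp2 (by omega) hd' (by omega) hM0 hdv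
    have h2 : M ≤ 2 * d * Fintype.card I :=
      (Nat.pow_le_pow_iff_right (by norm_num)).1 hDidx
    rw [← hIcard, mul_add, mul_one] at h1
    have hd1 : 0 < d := by
      rcases Nat.eq_zero_or_pos d with h0 | h0
      · rw [h0, pow_zero] at hd'
        omega
      · exact h0
    omega
  obtain ⟨x, hxQ, hxT, hxψ⟩ := hgood
  -- an element `y` not commuting with `x` on the weight space
  obtain ⟨y, hy⟩ : ∃ y : Q, ¬ (((wrep ρ Z χ).comp (Subgroup.inclusion (Q_le_stab h χ))) (⟨x, hxQ⟩ * y) =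
      ((wrep ρ Z χ).comp (Subgroup.inclusion (Q_le_stab h χ))) (y * ⟨x, hxQ⟩)) := by
    by_contra hcon
    push Not at hcon
    exact hxT (hyp.max _ hcon)
  have hz₀ : x * y * x⁻¹ * (y : Γ)⁻¹ ∈ Z := h.comm x hxQ y y.2
  set z₀ : Z := ⟨x * y * x⁻¹ * (y : Γ)⁻¹, hz₀⟩ with hz₀def
  have hχz₀ : χ z₀ ≠ 1 := by
    intro h1
    apply hy
    ext v
    show ρ (x * y) v = ρ (y * x) v
    have h2 : x * y = (x * y * x⁻¹ * (y : Γ)⁻¹) * (y * x) := by group
    have h3 : ρ (y * x) (v : V) ∈ wt ρ Z χ := by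
      have h4 := smul_mem_wt v.2 (y * x)
      rwa [h.smul_eq χ (Q.mul_mem y.2 hxQ)] at h4
    rw [mem_wt] at h3
    have h4 := h3 z₀
    rw [h1, one_smul] at h4
    rw [h2, map_mul, End.mul_apply]
    exact h4
  have hψz₀ : ∀ ψ ∈ MulAction.orbit C χ, ψ ≠ χ → ψ z₀ = 1 := by
    intro ψ hψ hψ1
    have hψ2 : wt ρ Z ψ ≠ ⊥ := by
      obtain ⟨c, rfl⟩ := hψ
      exact wt_smul_ne_bot hχ (c : Γ)
    obtain ⟨-, c, hc⟩ := hxψ ψ hψ hψ1
    obtain ⟨v, hv, hv0⟩ := Submodule.exists_mem_ne_zero_of_ne_bot hψ2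
    have hc0 : c ≠ 0 := by
      rintro rfl
      have h1 := hc v hv
      rw [zero_smul] at h1
      apply hv0
      have h2 : ρ x⁻¹ (ρ x v) = v := by
        rw [← End.mul_apply, ← map_mul, inv_mul_cancel, map_one, End.one_apply]
      rw [← h2, h1, map_zero]
    have hwt : ∀ y ∈ Q, ∀ v ∈ wt ρ Z ψ, ρ y v ∈ wt ρ Z ψ := by
      intro y hy v hv
      have h4 := smul_mem_wt hv y
      rwa [h.smul_eq ψ hy] at h4
    have h1 : ρ (x * y) v = ρ (y * x) v := by
      rw [map_mul, map_mul, End.mul_apply, End.mul_apply, hc v hv, hc _ (hwt y y.2 v hv), map_smul]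
    have h2 : x * y = (x * y * x⁻¹ * (y : Γ)⁻¹) * (y * x) := by group
    have h3 : ρ (y * x) v ∈ wt ρ Z ψ := hwt _ (Q.mul_mem y.2 hxQ) v hv
    have h3' := h3
    rw [mem_wt] at h3'
    have h4 := h3' z₀
    rw [h2, map_mul ρ (x * y * x⁻¹ * (y : Γ)⁻¹), End.mul_apply] at h1
    have h5 : ψ z₀ • ρ (y * x) v = ρ (y * x) v := by rw [← h4]; exact h1
    have h6 : (ψ z₀ - 1) • ρ (y * x) v = 0 := by rw [sub_smul, one_smul, h5, sub_self]
    rcases smul_eq_zero.1 h6 with h7 | h7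
    · exact sub_eq_zero.1 h7
    · exfalso
      apply hv0
      have h8 : ρ (y * x)⁻¹ (ρ (y * x) v) = v := by
        rw [← End.mul_apply, ← map_mul, inv_mul_cancel, map_one, End.one_apply]
      rw [← h8, h7, map_zero]
  -- the norm of `z₀` is trivial
  let cg : CommGroup Z :=
    { (inferInstance : Group Z) with mul_comm := fun a b => Subtype.ext (h.abel a a.2 b b.2) }
  have := Fintype.ofFinite C
  let P : Z := ∏ c : C, MulAut.conjNormal (c : Γ)⁻¹ z₀
  have hP : P = 1 := by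
    apply Subtype.ext
    show (P : Γ) = 1
    apply h.fixQ _ (h.le P.2)
    have h1 : MulAut.conjNormal (H := Z) σ⁻¹ P = P := by
      show MulAut.conjNormal (H := Z) σ⁻¹ (∏ c : C, MulAut.conjNormal (c : Γ)⁻¹ z₀) = _
      rw [map_prod]
      apply Fintype.prod_equiv (Equiv.mulRight (⟨σ, Subgroup.mem_zpowers σ⟩ : C))
      intro c
      rw [Equiv.coe_mulRight, Subgroup.coe_mul, mul_inv_rev, map_mul]
      rfl
    have h2 := congrArg Subtype.val h1
    rw [MulAut.conjNormal_apply, inv_inv] at h2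
    have h3 : σ⁻¹ * (P : Γ) * σ = P := h2
    calc σ * (P : Γ) = σ * (σ⁻¹ * (P : Γ) * σ) := by rw [h3]
      _ = P * σ := by group
  let χh : Z →* F :=
    { toFun := χ
      map_one' := wt_one hχ
      map_mul' := wt_mul hχ }
  have hprod : ∏ c : C, χ (MulAut.conjNormal (c : Γ)⁻¹ z₀) = 1 := by
    have h1 : χh P = 1 := by rw [hP, map_one]
    rw [map_prod] at h1
    exact h1
  have hterm : ∀ c ∈ (Finset.univ : Finset C), χ (MulAut.conjNormal (c : Γ)⁻¹ z₀) =
      if c ∈ MulAction.stabilizer C χ then χ z₀ else 1 := by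
    intro c _
    have h1 : χ (MulAut.conjNormal (c : Γ)⁻¹ z₀) = (c • χ) z₀ := rfl
    rw [h1]
    split_ifs with hc
    · rw [MulAction.mem_stabilizer_iff.1 hc]
    · exact hψz₀ _ ⟨c, rfl⟩ hc
  rw [Finset.prod_congr rfl hterm, ← Finset.prod_filter, Finset.prod_const] at hprod
  have hcf : (Finset.univ.filter (fun c : C => c ∈ MulAction.stabilizer C χ)).card = p ^ k := by
    rw [← Fintype.card_subtype, ← Nat.card_eq_fintype_card]
    exact hstc
  rw [hcf] at hprod
  apply hχz₀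
  have h1 : χ z₀ ^ 2 ^ a = 1 := by
    have h2 : z₀ ^ 2 ^ a = 1 := by
      have h3 : (⟨z₀, h.le z₀.2⟩ : Q) ^ Nat.card Q = 1 := pow_card_eq_one'
      rw [ha] at h3
      apply Subtype.ext
      show (z₀ : Γ) ^ 2 ^ a = 1
      exact congrArg Subtype.val h3
    have h3 : χh (z₀ ^ 2 ^ a) = 1 := by rw [h2, map_one]
    rw [map_pow] at h3
    exact h3
  have hcop : (p ^ k).Coprime (2 ^ a) :=
    Nat.Coprime.pow _ _ ((Nat.coprime_primes hp.out Nat.prime_two).2 hp2)
  exact orderOf_eq_one_iff.1 (Nat.eq_one_of_dvd_coprimes hcop (orderOf_dvd_of_pow_eq_one hprod)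
    (orderOf_dvd_of_pow_eq_one h1))

theorem t2_odd {p : ℕ} [hp : Fact p.Prime] (hp2 : p ≠ 2) (m : ℕ) : T2 p (Cyc.{u} p m) :=
  t2_of_noCrit (fun F _ _ => noCrit_odd hp2 m F)

end Cfsg.Agent.H452.T2Odd
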