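import Mathlib
import Cfsg.Agent.H452.PowTwo
import Cfsg.Agent.H452.Shult
import Cfsg.Agent.H452.T2Odd
import Cfsg.Agent.H452.TopH2

/-!
# Application of Shult's lemma, 2-group case

`Dat` : `σ` of order `2 ^ (m + 1)` normalises the `s`-group `Q` of class two, its centre `Z` is central in the whole
group and acts by scalars. With `φ = σ ^ 2 ^ m` and `R = ⁅Q, ⟨φ⟩⁆ Z` we get `|R| = s ^ 2 |Z|`, `1 ≤ m` and the elements
of `Q` fixed by `φ` are fixed by `σ`.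
-/

set_option autoImplicit false

namespace Cfsg.Agent.H452.Dat

open Module
open scoped commutatorElement
open Cfsg.Agent.Lib.CoprimeCommutator
open Cfsg.Agent.H452.MinAct Cfsg.Agent.H452.Shult

section dat

variable {F : Type*} [Field F] {Γ : Type*} [Group Γ] [Finite Γ] {V : Type*}
  [AddCommGroup V] [Module F V]

/-- The situation after the first reductions. -/
structure Data (ρ : Representation F Γ V) (m s : ℕ) (σ : Γ) (Q Z : Subgroup Γ) : Prop where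
  s_prime : s.Prime
  s_ne : s ≠ 2
  twoF : (2 : F) ≠ 0
  sF : (s : F) ≠ 0
  faithful : ∀ g, ρ g = 1 → g = 1
  pow : σ ^ 2 ^ (m + 1) = 1
  fixV : ∀ v, ρ σ v = v → v = 0
  isp : IsPGroup s Q
  normQ : Subgroup.zpowers σ ≤ Subgroup.normalizer (Q : Set Γ)
  le : Z ≤ Q
  central : ∀ z ∈ Z, ∀ g, z * g = g * z
  scalar : ∀ z ∈ Z, ∃ c : F, ρ z = c • 1
  mem : ∀ x ∈ Q, (∀ y ∈ Q, x * y = y * x) → x ∈ Z
  comm : ⁅Q, Q⁆ ≤ Z
  ne : ⁅Q, Subgroup.zpowers (σ ^ 2 ^ m)⁆ ≠ ⊥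

variable {ρ : Representation F Γ V} {m s : ℕ} {σ : Γ} {Q Z : Subgroup Γ}

/-- `⁅Q, ⟨φ⟩⁆ Z` -/
def RR (Q Z : Subgroup Γ) (φ : Γ) : Subgroup Γ := ⁅Q, Subgroup.zpowers φ⁆ ⊔ Z

theorem Data.Zc (h : Data ρ m s σ Q Z) : Z.Normal := by
  constructor
  intro z hz g
  rw [← h.central z hz g, mul_inv_cancel_right]
  exact hz

theorem Data.isp2 (h : Data ρ m s σ Q Z) : IsPGroup 2 (Subgroup.zpowers (σ ^ 2 ^ m)) :=
  (@T2.isPGroup_zpowers _ _ 2 _ ⟨Nat.prime_two⟩ _ h.pow).to_le (T2.pow_mem_zpowers σ (2 ^ m))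

theorem Data.two_not_dvd (h : Data ρ m s σ Q Z) {H : Subgroup Γ} (hH : H ≤ Q) : ¬ 2 ∣ Nat.card H := by
  have : Fact s.Prime := ⟨h.s_prime⟩
  obtain ⟨j, hj⟩ := IsPGroup.iff_card.1 (h.isp.to_le hH)
  rw [hj]
  intro hd
  exact h.s_ne ((Nat.prime_dvd_prime_iff_eq Nat.prime_two h.s_prime).1
    (Nat.prime_two.dvd_of_dvd_pow hd)).symm

theorem Data.φQ (h : Data ρ m s σ Q Z) :
    Subgroup.zpowers (σ ^ 2 ^ m) ≤ Subgroup.normalizer (Q : Set Γ) :=
  (T2.pow_mem_zpowers σ (2 ^ m)).trans h.normQ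

theorem Data.le_Q (h : Data ρ m s σ Q Z) : RR Q Z (σ ^ 2 ^ m) ≤ Q :=
  sup_le (commutator_le_left h.φQ) h.le

omit [Finite Γ] in
theorem comm_zpowers {φ t : Γ} (ht : t * φ = φ * t) : ∀ a ∈ Subgroup.zpowers φ, a * t = t * a :=
  T2.commute_zpowers ht.symm

/-- `R` commutes with the elements of `Q` fixed by `φ`. -/
theorem Data.comm_R (h : Data ρ m s σ Q Z) {x t : Γ} (hx : x ∈ RR Q Z (σ ^ 2 ^ m)) (ht : t ∈ Q)
    (htφ : t * σ ^ 2 ^ m = σ ^ 2 ^ m * t) : x * t = t * x := by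
  set φ := σ ^ 2 ^ m with hφ
  let T : Subgroup Γ := Q ⊓ Subgroup.centralizer (Subgroup.zpowers φ : Set Γ)
  have htT : t ∈ T := by
    refine ⟨ht, Subgroup.mem_centralizer_iff.2 ?_⟩
    exact comm_zpowers htφ
  have h1 : ⁅⁅Q, Subgroup.zpowers φ⁆, T⁆ = ⊥ := by
    apply Subgroup.commutator_commutator_eq_bot_of_rotate
    · have h2 : ⁅Subgroup.zpowers φ, T⁆ = ⊥ := by
        rw [MinAct.commutator_eq_bot_iff]
        intro a ha t' ht'
        exact (Subgroup.mem_centralizer_iff.1 ht'.2) a ha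
      rw [h2, Subgroup.commutator_bot_left]
    · rw [eq_bot_iff]
      have h2 : ⁅T, Q⁆ ≤ Z := (Subgroup.commutator_mono inf_le_left le_rfl).trans h.comm
      refine (Subgroup.commutator_mono h2 le_rfl).trans ?_
      rw [← eq_bot_iff, MinAct.commutator_eq_bot_iff]
      intro z hz a _
      exact h.central z hz a
  have h2 : RR Q Z φ ≤ Subgroup.centralizer ({t} : Set Γ) := by
    apply sup_le
    · intro y hy
      rw [Subgroup.mem_centralizer_iff]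
      intro t' ht'
      rw [Set.mem_singleton_iff.1 ht']
      exact (MinAct.commutator_eq_bot_iff.1 h1 y hy t htT).symm
    · intro y hy
      rw [Subgroup.mem_centralizer_iff]
      intro t' ht'
      rw [Set.mem_singleton_iff.1 ht']
      exact (h.central y hy t).symm
  exact ((Subgroup.mem_centralizer_iff.1 (h2 hx)) t rfl).symm

/-- `Q = ⁅Q, ⟨φ⟩⁆ C_Q(φ)` -/
theorem Data.decomp (h : Data ρ m s σ Q Z) {x : Γ} (hx : x ∈ Q) :
    ∃ y ∈ (⁅Q, Subgroup.zpowers (σ ^ 2 ^ m)⁆ : Subgroup Γ), ∃ t ∈ Q,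
      t * σ ^ 2 ^ m = σ ^ 2 ^ m * t ∧ x = y * t := by
  have : Fact (Nat.Prime 2) := ⟨Nat.prime_two⟩
  obtain ⟨y, hy, t, ht, hyt⟩ := exists_commutator_mul_fixed_of_isPGroup 2
    (Subgroup.zpowers (σ ^ 2 ^ m)) Q h.isp2 h.φQ (h.two_not_dvd le_rfl) x hx
  exact ⟨y, hy, t, ht.1, ((Subgroup.mem_centralizer_iff.1 ht.2) _ (Subgroup.mem_zpowers _)).symm, hyt⟩

theorem Data.mem_of_comm (h : Data ρ m s σ Q Z) {x : Γ} (hx : x ∈ Q)
    (h1 : ∀ y ∈ RR Q Z (σ ^ 2 ^ m), x * y = y * x)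
    (h2 : ∀ t ∈ Q, t * σ ^ 2 ^ m = σ ^ 2 ^ m * t → x * t = t * x) : x ∈ Z := by
  apply h.mem x hx
  intro y hy
  obtain ⟨y', hy', t, ht, htφ, rfl⟩ := h.decomp hy
  rw [← mul_assoc, h1 y' (Subgroup.mem_sup_left hy'), mul_assoc, h2 t ht htφ, mul_assoc]

theorem Data.mem_Z (h : Data ρ m s σ Q Z) {x : Γ} (hx : x ∈ RR Q Z (σ ^ 2 ^ m))
    (hxφ : x * σ ^ 2 ^ m = σ ^ 2 ^ m * x) : x ∈ Z := by
  apply h.mem_of_comm (h.le_Q hx)
  · intro y hy
    exact (h.comm_R hy (h.le_Q hx) hxφ).symm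
  · intro t ht htφ
    exact h.comm_R hx ht htφ

omit [Finite Γ] in
/-- the elements commuting with `x` modulo `Z` -/
theorem mem_of_zpowers {Z : Subgroup Γ} [hZ : Z.Normal] {x a : Γ} (ha : a * x * a⁻¹ * x⁻¹ ∈ Z) :
    ∀ b ∈ Subgroup.zpowers a, x⁻¹ * (b * x * b⁻¹) ∈ Z ∧ b * x * b⁻¹ * x⁻¹ ∈ Z := by
  let K : Subgroup Γ := (Subgroup.centralizer ({QuotientGroup.mk' Z x} : Set (Γ ⧸ Z))).comap
    (QuotientGroup.mk' Z)
  have hK : ∀ b, b ∈ K ↔ QuotientGroup.mk' Z x * QuotientGroup.mk' Z b =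
      QuotientGroup.mk' Z b * QuotientGroup.mk' Z x := by
    intro b
    rw [Subgroup.mem_comap, Subgroup.mem_centralizer_iff]
    constructor
    · intro h; exact h _ rfl
    · intro h y hy
      rw [Set.mem_singleton_iff.1 hy, h]
  have h1 : a ∈ K := by
    rw [hK]
    have h2 : QuotientGroup.mk' Z (a * x * a⁻¹ * x⁻¹) = 1 := (QuotientGroup.eq_one_iff _).2 ha
    rw [map_mul, map_mul, map_mul, map_inv, map_inv] at h2
    exact (mul_inv_eq_iff_eq_mul.1 (mul_inv_eq_one.1 h2)).symm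
  have h2 : Subgroup.zpowers a ≤ K := by rwa [Subgroup.zpowers_le]
  intro b hb
  have h3 := (hK b).1 (h2 hb)
  constructor
  · refine (QuotientGroup.eq_one_iff _).1 ?_
    show QuotientGroup.mk' Z _ = 1
    rw [map_mul, map_mul, map_mul, map_inv, map_inv, ← h3]
    group
  · refine (QuotientGroup.eq_one_iff _).1 ?_
    show QuotientGroup.mk' Z _ = 1
    rw [map_mul, map_mul, map_mul, map_inv, map_inv, ← h3]
    group

theorem Data.exists_fixed (h : Data ρ m s σ Q Z) {x : Γ} (hx : x ∈ Q)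
    (hxφ : σ ^ 2 ^ m * x * (σ ^ 2 ^ m)⁻¹ * x⁻¹ ∈ Z) :
    ∃ t ∈ Q, t * σ ^ 2 ^ m = σ ^ 2 ^ m * t ∧ x⁻¹ * t ∈ Z := by
  have : Fact (Nat.Prime 2) := ⟨Nat.prime_two⟩
  have hZn := h.Zc
  obtain ⟨t, ht, hxt⟩ := exists_fixed_in_coset 2 (Subgroup.zpowers (σ ^ 2 ^ m)) Z h.isp2
    (by rw [Subgroup.normalizer_eq_top_iff.2 hZn]; exact le_top) (h.two_not_dvd h.le) x
    (fun a ha => (mem_of_zpowers hxφ a ha).1)
  refine ⟨t, ?_, ((Subgroup.mem_centralizer_iff.1 ht) _ (Subgroup.mem_zpowers _)).symm, hxt⟩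
  have h1 : t = x * (x⁻¹ * t) := by group
  rw [h1]
  exact Q.mul_mem hx (h.le hxt)

theorem Data.free0 (h : Data ρ m s σ Q Z) {x : Γ} (hx : x ∈ RR Q Z (σ ^ 2 ^ m))
    (hxφ : σ ^ 2 ^ m * x * (σ ^ 2 ^ m)⁻¹ * x⁻¹ ∈ Z) : x ∈ Z := by
  obtain ⟨t, ht, htφ, hxt⟩ := h.exists_fixed (h.le_Q hx) hxφ
  have h1 : t = x * (x⁻¹ * t) := by group
  have h2 : t ∈ RR Q Z (σ ^ 2 ^ m) := by
    rw [h1]
    exact Subgroup.mul_mem _ hx (Subgroup.mem_sup_right hxt)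
  have h3 := h.mem_Z h2 htφ
  have h4 : x = t * (x⁻¹ * t)⁻¹ := by group
  rw [h4]
  exact Z.mul_mem h3 (Z.inv_mem hxt)

theorem Data.normR (h : Data ρ m s σ Q Z) :
    Subgroup.zpowers σ ≤ Subgroup.normalizer (RR Q Z (σ ^ 2 ^ m) : Set Γ) := by
  have hZn := h.Zc
  exact le_normalizer_sup (le_normalizer_commutator h.normQ (T2.zpowers_le_normalizer_pow σ (2 ^ m)))
    (by rw [Subgroup.normalizer_eq_top_iff.2 hZn]; exact le_top)

omit [Finite Γ] in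
theorem Data.ne_one (h : Data ρ m s σ Q Z) : σ ^ 2 ^ m ≠ 1 := by
  intro h1
  apply h.ne
  rw [h1, Subgroup.zpowers_one_eq_bot, Subgroup.commutator_bot_right]

theorem Data.commutator_idem (h : Data ρ m s σ Q Z) :
    ⁅⁅Q, Subgroup.zpowers (σ ^ 2 ^ m)⁆, Subgroup.zpowers (σ ^ 2 ^ m)⁆ =
      ⁅Q, Subgroup.zpowers (σ ^ 2 ^ m)⁆ := by
  have : Fact (Nat.Prime 2) := ⟨Nat.prime_two⟩
  apply commutator_commutator_eq _ _ h.φQ
  obtain ⟨j, hj⟩ := IsPGroup.iff_card.1 h.isp2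
  rw [hj]
  exact Nat.Coprime.pow_left j ((Nat.Prime.coprime_iff_not_dvd Nat.prime_two).2 (h.two_not_dvd le_rfl))

theorem Data.not_le (h : Data ρ m s σ Q Z) : ¬ RR Q Z (σ ^ 2 ^ m) ≤ Z := by
  intro h1
  apply h.ne
  rw [← h.commutator_idem, MinAct.commutator_eq_bot_iff]
  intro x hx a _
  exact h.central x (h1 (Subgroup.mem_sup_left hx)) a

/-- `σ` acting on `R` -/
noncomputable def Data.theta (h : Data ρ m s σ Q Z) : MulAut (RR Q Z (σ ^ 2 ^ m)) :=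
  Subgroup.normalizerMonoidHom _ ⟨σ, h.normR (Subgroup.mem_zpowers σ)⟩

theorem Data.theta_pow (h : Data ρ m s σ Q Z) (i : ℕ) (x : RR Q Z (σ ^ 2 ^ m)) :
    (((h.theta ^ i) x : RR Q Z (σ ^ 2 ^ m)) : Γ) = σ ^ i * x * (σ ^ i)⁻¹ := by
  unfold Data.theta
  rw [← map_pow]
  rfl

theorem Data.hyp (h : Data ρ m s σ Q Z) :
    Shult.Hyp (ρ.comp (RR Q Z (σ ^ 2 ^ m)).subtype) (ρ σ) h.theta (2 ^ (m + 1))
      (Z.subgroupOf (RR Q Z (σ ^ 2 ^ m))) where
  tN := by rw [← map_pow, h.pow, map_one]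
  NF := by
    rw [Nat.cast_pow]
    exact pow_ne_zero _ h.twoF
  XF := by
    have : Fact s.Prime := ⟨h.s_prime⟩
    exact T2.cast_card_ne_zero h.sF (h.isp.to_le h.le_Q)
  inter := by
    intro x
    have h1 := h.theta_pow 1 x
    rw [pow_one, pow_one] at h1
    show ρ σ * ρ x = ρ ((h.theta x : RR Q Z (σ ^ 2 ^ m)) : Γ) * ρ σ
    rw [h1, ← map_mul, ← map_mul, inv_mul_cancel_right]
  fix := h.fixV
  scal := by
    intro x
    rw [Subgroup.mem_subgroupOf]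
    constructor
    · intro hx
      exact h.scalar x hx
    · rintro ⟨c, hc⟩
      apply h.mem x (h.le_Q x.2)
      intro y _
      have h1 : ρ ((x : Γ) * y * ((x : Γ)⁻¹) * y⁻¹) = 1 := by
        have hc' : ρ (x : Γ) = c • 1 := hc
        have h2 : ρ ((x : Γ) * y) = ρ (y * x) := by
          rw [map_mul, map_mul, hc', smul_mul_assoc, one_mul, mul_smul_comm, mul_one]
        have h3 : (x : Γ) * y * (x : Γ)⁻¹ * y⁻¹ = (x * y) * (y * x)⁻¹ := by group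
        rw [h3, map_mul, h2, ← map_mul, mul_inv_cancel, map_one]
      have h2 := h.faithful _ h1
      have h3 : (x : Γ) * y = ((x : Γ) * y * (x : Γ)⁻¹ * y⁻¹) * (y * x) := by group
      rw [h3, h2, one_mul]
  comm := by
    intro x y
    rw [Subgroup.mem_subgroupOf]
    apply h.comm
    have := Subgroup.commutator_mem_commutator (h.le_Q x.2) (h.le_Q y.2)
    rwa [commutatorElement_def] at this
  free := by
    intro i hi hiN x hx
    rw [Subgroup.mem_subgroupOf] at hx ⊢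
    rw [Subgroup.coe_mul, Subgroup.coe_inv, h.theta_pow] at hx
    apply h.free0 x.2
    have hZn := h.Zc
    apply (mem_of_zpowers hx (σ ^ 2 ^ m) _).2
    apply Orbit.mem_of_ne_bot Nat.prime_two h.pow (T2.pow_mem_zpowers σ i)
    intro h1
    rw [Subgroup.zpowers_eq_bot] at h1
    have hord : orderOf σ = 2 ^ (m + 1) := by
      have : Fact (Nat.Prime 2) := ⟨Nat.prime_two⟩
      exact orderOf_eq_prime_pow h.ne_one h.pow
    have h3 := orderOf_dvd_of_pow_eq_one h1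
    rw [hord] at h3
    exact absurd (Nat.le_of_dvd hi h3) (by omega)
  max := by
    intro x hx
    rw [Subgroup.mem_subgroupOf]
    apply h.mem_of_comm (h.le_Q x.2)
    · intro y hy
      have h1 : ρ ((x : Γ) * y) = ρ (y * x) := hx ⟨y, hy⟩
      have h2 : ρ ((x : Γ) * y * (y * x)⁻¹) = 1 := by
        rw [map_mul, h1, ← map_mul, mul_inv_cancel, map_one]
      exact mul_inv_eq_one.1 (h.faithful _ h2)
    · intro t ht htφ
      exact h.comm_R x.2 ht htφ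

theorem Data.ne_top (h : Data ρ m s σ Q Z) : Z.subgroupOf (RR Q Z (σ ^ 2 ^ m)) ≠ ⊤ := by
  intro h1
  exact h.not_le (Subgroup.subgroupOf_eq_top.1 h1)

end dat

section dat2

variable {F : Type*} [Field F] [IsAlgClosed F] {Γ : Type*} [Group Γ] [Finite Γ] {V : Type*}
  [AddCommGroup V] [Module F V] [FiniteDimensional F V] [Nontrivial V]
  {ρ : Representation F Γ V} {m s : ℕ} {σ : Γ} {Q Z : Subgroup Γ}

theorem Data.index (h : Data ρ m s σ Q Z) :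
    (Z.subgroupOf (RR Q Z (σ ^ 2 ^ m))).index = (2 ^ (m + 1) - 1) ^ 2 :=
  h.hyp.index_eq h.ne_top

theorem Data.one_le (h : Data ρ m s σ Q Z) : 1 ≤ m := by
  by_contra hcon
  have h1 : m = 0 := by omega
  subst h1
  have h2 := h.index
  apply h.ne_top
  rw [← Subgroup.index_eq_one, h2]
  norm_num

theorem Data.card (h : Data ρ m s σ Q Z) :
    Nat.card (RR Q Z (σ ^ 2 ^ m)) = s ^ 2 * Nat.card Z := by
  have : Fact s.Prime := ⟨h.s_prime⟩
  have hZR : Z ≤ RR Q Z (σ ^ 2 ^ m) := le_sup_right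
  have h1 := (Z.subgroupOf (RR Q Z (σ ^ 2 ^ m))).index_mul_card
  rw [Nat.card_congr (Subgroup.subgroupOfEquivOfLe hZR).toEquiv] at h1
  obtain ⟨a, ha⟩ := IsPGroup.iff_card.1 (h.isp.to_le h.le_Q)
  have h2 : (Z.subgroupOf (RR Q Z (σ ^ 2 ^ m))).index ∣ s ^ a := by
    rw [← ha]
    exact Subgroup.index_dvd_card _
  obtain ⟨b, -, hb⟩ := (Nat.dvd_prime_pow h.s_prime).1 h2
  have h3 := PowTwo.index_sq h.s_prime h.one_le (by rw [← h.index, hb])
  rw [← h1, hb, h3]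

theorem Data.comm_σ (h : Data ρ m s σ Q Z) {t : Γ} (ht : t ∈ Q)
    (htφ : t * σ ^ 2 ^ m = σ ^ 2 ^ m * t) : t * σ = σ * t := by
  have h1 := h.hyp.comm_t h.ne_top (g := ρ t) (by
    intro x
    show ρ t * ρ x = ρ x * ρ t
    rw [← map_mul, ← map_mul, h.comm_R x.2 ht htφ])
  have h2 : ρ (t * σ * (σ * t)⁻¹) = 1 := by
    rw [map_mul, map_mul, h1, ← map_mul, ← map_mul, mul_inv_cancel, map_one]
  exact mul_inv_eq_one.1 (h.faithful _ h2)

end dat2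

end Cfsg.Agent.H452.Dat
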