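import Mathlib

/-!
# The final lemma for the 2-group case

`π` a representation of `G` over a field `k`, `φ = ψ ^ 2` an involution inverting `x`, `y = ψ x ψ⁻¹`,
`c = [x, y]` commuting with `x`, `y`, `φ`, all vectors fixed by `φ` fixed by `ψ`, the `-1`-eigenspace of `φ` of
dimension at most two, and `c` cannot act on it as a scalar different from `1`. Then `x` acts trivially.
-/

set_option autoImplicit false

namespace Cfsg.Agent.H452.LemS

open Module

variable {k : Type*} [Field k] {G : Type*} [Group G] {E : Type*} [AddCommGroup E] [Module k E]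

theorem eq_of_sq {π : Representation k G E} {x : G} {r : ℕ} (hr : Odd r) (hx : x ^ r = 1) {v : E}
    (h : π x (π x v) = v) : π x v = v := by
  obtain ⟨j, hj⟩ := hr
  have h1 : ∀ n : ℕ, π (x ^ (2 * n)) v = v := by
    intro n
    induction n with
    | zero => rw [mul_zero, pow_zero, map_one, End.one_apply]
    | succ n ih =>
      have h2 : x ^ (2 * (n + 1)) = x ^ (2 * n) * (x * x) := by
        rw [mul_add, mul_one, pow_add, pow_two]
      rw [h2, map_mul, End.mul_apply, map_mul, End.mul_apply, h, ih]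
  have h2 : x ^ (2 * j + 1) = x * x ^ (2 * j) := by rw [pow_succ']
  rw [hj, h2] at hx
  have h3 : π (x * x ^ (2 * j)) v = v := by rw [hx, map_one, End.one_apply]
  rw [map_mul, End.mul_apply, h1] at h3
  exact h3

/-- the sum over the powers of `x` -/
def N (π : Representation k G E) (x : G) (r : ℕ) (v : E) : E := ∑ i ∈ Finset.range r, π (x ^ i) v

theorem N_fixed (π : Representation k G E) {x : G} {r : ℕ} (hx : x ^ r = 1) (v : E) :
    π x (N π x r v) = N π x r v := by
  unfold N
  rw [map_sum]
  have h1 : ∀ n : ℕ, π x (π (x ^ n) v) = π (x ^ (n + 1)) v := by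
    intro n; rw [pow_succ', map_mul, End.mul_apply]
  simp only [h1]
  have h2 := Finset.sum_range_succ' (fun n => π (x ^ n) v) r
  have h3 := Finset.sum_range_succ (fun n => π (x ^ n) v) r
  rw [h3] at h2
  simp only [pow_zero, hx] at h2
  exact (add_right_cancel h2).symm

theorem pow_fixed {π : Representation k G E} {x : G} {v : E} (h : π x v = v) (n : ℕ) :
    π (x ^ n) v = v := by
  induction n with
  | zero => rw [pow_zero, map_one, End.one_apply]
  | succ n ih => rw [pow_succ, map_mul, End.mul_apply, h, ih]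

theorem N_of_fixed {π : Representation k G E} {x : G} {r : ℕ} {v : E} (h : π x v = v) :
    N π x r v = (r : k) • v := by
  unfold N
  rw [Finset.sum_congr rfl (fun i _ => pow_fixed h i), Finset.sum_const, Finset.card_range,
    Nat.cast_smul_eq_nsmul]

theorem N_comm {π : Representation k G E} {x : G} {r : ℕ} {T : End k E}
    (h : ∀ v, π x (T v) = T (π x v)) (v : E) : N π x r (T v) = T (N π x r v) := by
  have h1 : ∀ i : ℕ, π (x ^ i) (T v) = T (π (x ^ i) v) := by
    intro i
    induction i with
    | zero => rw [pow_zero, map_one, End.one_apply, End.one_apply]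
    | succ i ih => rw [pow_succ', map_mul, End.mul_apply, ih, h, End.mul_apply]
  unfold N
  rw [map_sum]
  exact Finset.sum_congr rfl (fun i _ => h1 i)

theorem cancel (π : Representation k G E) (x : G) (v : E) : π x (π x⁻¹ v) = v := by
  rw [← End.mul_apply, ← map_mul, mul_inv_cancel, map_one, End.one_apply]

theorem cancel' (π : Representation k G E) (x : G) (v : E) : π x⁻¹ (π x v) = v := by
  rw [← End.mul_apply, ← map_mul, inv_mul_cancel, map_one, End.one_apply]

theorem comm_case (π : Representation k G E) {x y φ ψ : G} {r : ℕ} (hr : Odd r) (hrk : (r : k) ≠ 0)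
    (hφ : φ = ψ * ψ) (hφ2 : φ * φ = 1) (hx : φ * x * φ⁻¹ = x⁻¹) (hy : y = ψ * x * ψ⁻¹)
    (hxr : x ^ r = 1) (hcomm : ∀ v, π x (π y v) = π y (π x v))
    (hfix : ∀ e, π φ e = e → π ψ e = e) : ∀ e, π x e = e := by
  have hyr : y ^ r = 1 := by rw [hy, conj_pow, hxr, mul_one, mul_inv_cancel]
  have hφψ : φ * ψ = ψ * φ := by rw [hφ]; group
  have hyφ : φ * y * φ⁻¹ = y⁻¹ := by
    have h1 : φ * y * φ⁻¹ = ψ * (φ * x * φ⁻¹) * ψ⁻¹ := by
      rw [hy]
      calc φ * (ψ * x * ψ⁻¹) * φ⁻¹ = (φ * ψ) * x * (φ * ψ)⁻¹ := by group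
        _ = ψ * (φ * x * φ⁻¹) * ψ⁻¹ := by rw [hφψ]; group
    rw [h1, hx, hy]; group
  have hψy : ψ * y * ψ⁻¹ = x⁻¹ := by
    rw [← hx, hy, hφ]; group
  -- translation to operators
  have fx : ∀ v, π φ (π x v) = π x⁻¹ (π φ v) := by
    intro v
    rw [← End.mul_apply, ← End.mul_apply, ← map_mul, ← map_mul, ← hx, inv_mul_cancel_right]
  have fx' : ∀ v, π φ (π x⁻¹ v) = π x (π φ v) := by
    intro v
    have h1 : φ * x⁻¹ = x * φ := by
      have h2 : (φ * x * φ⁻¹)⁻¹ = x := by rw [hx, inv_inv]
      conv_rhs => rw [← h2]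
      group
    rw [← End.mul_apply, ← End.mul_apply, ← map_mul, ← map_mul, h1]
  have fy : ∀ v, π φ (π y v) = π y⁻¹ (π φ v) := by
    intro v
    rw [← End.mul_apply, ← End.mul_apply, ← map_mul, ← map_mul, ← hyφ, inv_mul_cancel_right]
  have fy' : ∀ v, π φ (π y⁻¹ v) = π y (π φ v) := by
    intro v
    have h1 : φ * y⁻¹ = y * φ := by
      have h2 : (φ * y * φ⁻¹)⁻¹ = y := by rw [hyφ, inv_inv]
      conv_rhs => rw [← h2]
      group
    rw [← End.mul_apply, ← End.mul_apply, ← map_mul, ← map_mul, h1]
  have fφ : ∀ v, π φ (π φ v) = v := by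
    intro v
    rw [← End.mul_apply, ← map_mul, hφ2, map_one, End.one_apply]
  have gx : ∀ v, π y (π ψ v) = π ψ (π x v) := by
    intro v
    rw [← End.mul_apply, ← End.mul_apply, ← map_mul, ← map_mul, hy, inv_mul_cancel_right]
  have gx' : ∀ v, π y⁻¹ (π ψ v) = π ψ (π x⁻¹ v) := by
    intro v
    rw [← End.mul_apply, ← End.mul_apply, ← map_mul, ← map_mul, hy]
    congr 2
    group
  have gy : ∀ v, π x⁻¹ (π ψ v) = π ψ (π y v) := by
    intro v
    rw [← End.mul_apply, ← End.mul_apply, ← map_mul, ← map_mul, ← hψy, inv_mul_cancel_right]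
  -- inverses commute
  have cxy : ∀ v, π x (π y⁻¹ v) = π y⁻¹ (π x v) := by
    intro v
    have h1 := hcomm (π y⁻¹ v)
    rw [cancel] at h1
    rw [h1, cancel']
  have cxy' : ∀ v, π x⁻¹ (π y v) = π y (π x⁻¹ v) := by
    intro v
    have h1 := hcomm (π x⁻¹ v)
    rw [cancel] at h1
    rw [← h1, cancel']
  have cxy'' : ∀ v, π x⁻¹ (π y⁻¹ v) = π y⁻¹ (π x⁻¹ v) := by
    intro v
    have h1 := cxy (π x⁻¹ v)
    rw [cancel] at h1
    rw [← h1, cancel']
  have cxx : ∀ v, π x (π x⁻¹ v) = π x⁻¹ (π x v) := fun v => by rw [cancel, cancel']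
  have cyy : ∀ v, π y (π y⁻¹ v) = π y⁻¹ (π y v) := fun v => by rw [cancel, cancel']
  -- the operator `D`
  let D : End k E := π x + π x⁻¹ - π y - π y⁻¹
  have hD : ∀ v, D v = π x v + π x⁻¹ v - π y v - π y⁻¹ v := fun v => rfl
  have d1 : ∀ v, π φ v = v → D v = 0 := by
    intro v hv
    have h1 := hfix v hv
    have h2 : π φ (π x v + π x⁻¹ v) = π x v + π x⁻¹ v := by
      rw [map_add, fx, fx', hv, add_comm]
    have h3 := hfix _ h2
    have h4 : π y v = π ψ (π x v) := by rw [← gx, h1]
    have h5 : π y⁻¹ v = π ψ (π x⁻¹ v) := by rw [← gx', h1]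
    rw [hD, h4, h5, sub_sub, ← map_add, h3, sub_self]
  have d2 : ∀ v, π φ (D v) = D (π φ v) := by
    intro v
    rw [hD, hD, map_sub, map_sub, map_add, fx, fx', fy, fy']
    abel
  have d3 : ∀ v, π φ (D v) = - D v := by
    intro v
    have h1 : D (v + π φ v) = 0 := by
      apply d1
      rw [map_add, fφ, add_comm]
    rw [map_add] at h1
    rw [d2]
    exact (neg_eq_of_add_eq_zero_right h1).symm
  have d4 : ∀ v, π x (D v) = D (π x v) := by
    intro v
    rw [hD, hD, map_sub, map_sub, map_add, cxx, hcomm, cxy]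
  have d4' : ∀ v, π y (D v) = D (π y v) := by
    intro v
    rw [hD, hD, map_sub, map_sub, map_add, ← hcomm, ← cxy', cyy]
  have d5 : ∀ v, π x (D v) = D v := by
    intro v
    apply eq_of_sq hr hxr
    have h1 : π φ (π x (D v)) = - π x (D v) := by rw [d4, d3]
    rw [fx, d3, map_neg, neg_inj] at h1
    conv_lhs => rw [← h1]
    rw [cancel]
  have d6 : ∀ v, π y (D v) = D v := by
    intro v
    apply eq_of_sq hr hyr
    have h1 : π φ (π y (D v)) = - π y (D v) := by rw [d4', d3]
    rw [fy, d3, map_neg, neg_inj] at h1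
    conv_lhs => rw [← h1]
    rw [cancel]
  have d8 : ∀ v, D v = 0 := by
    intro v
    have h1 : N π x r (N π y r (D v)) = (r : k) • (r : k) • D v := by
      rw [N_of_fixed (d6 v)]
      have h2 : π x ((r : k) • D v) = (r : k) • D v := by rw [map_smul, d5]
      rw [N_of_fixed h2]
    have h2 : N π x r (N π y r (D v)) = D (N π x r (N π y r v)) := by
      rw [N_comm (T := D) (fun v => d4' v), N_comm (T := D) (fun v => d4 v)]
    have h3 : π x (N π x r (N π y r v)) = N π x r (N π y r v) := N_fixed π hxr _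
    have h4 : π y (N π x r (N π y r v)) = N π x r (N π y r v) := by
      rw [← N_comm (T := π y) (fun v => hcomm v), N_fixed π hyr]
    have h3' : π x⁻¹ (N π x r (N π y r v)) = N π x r (N π y r v) := by
      conv_lhs => rw [← h3]
      rw [cancel']
    have h4' : π y⁻¹ (N π x r (N π y r v)) = N π x r (N π y r v) := by
      conv_lhs => rw [← h4]
      rw [cancel']
    have h5 : D (N π x r (N π y r v)) = 0 := by
      rw [hD, h3, h3', h4, h4']; abel
    rw [h2, h5] at h1
    rcases smul_eq_zero.1 h1.symm with h6 | h6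
    · exact absurd h6 hrk
    · rcases smul_eq_zero.1 h6 with h7 | h7
      · exact absurd h7 hrk
      · exact h7
  -- `U`
  have hU : ∀ u, π x (π y u) = u → π x u = u := by
    intro u hu
    have key : ∀ u, π x (π y u) = u → π x (u + π φ u) = u + π φ u := by
      intro u hu
      have hyu : π y u = π x⁻¹ u := by
        conv_rhs => rw [← hu]
        rw [cancel']
      have h1 : π x (π y (π φ u)) = π φ u := by
        have h2 : π x⁻¹ (π y⁻¹ u) = u := by
          have h3 : π y⁻¹ (π x⁻¹ u) = u := by rw [← hyu, cancel']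
          rw [cxy'', h3]
        conv_rhs => rw [← h2]
        rw [fx', fy']
      set g := u + π φ u with hg
      have h2 : π x (π y g) = g := by rw [hg, map_add, map_add, hu, h1]
      have h3 : π φ g = g := by rw [hg, map_add, fφ, add_comm]
      have h4 := hfix g h3
      have h5 : π y g = π x⁻¹ g := by
        conv_rhs => rw [← h2]
        rw [cancel']
      have h6 : π y g = π ψ (π x g) := by rw [← gx, h4]
      have h7 : π x⁻¹ g = π ψ (π y g) := by rw [← gy, h4]
      have h8 : π ψ (π x g) = π ψ (π x⁻¹ g) :=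
        calc π ψ (π x g) = π y g := h6.symm
          _ = π x⁻¹ g := h5
          _ = π ψ (π y g) := h7
          _ = π ψ (π x⁻¹ g) := by rw [h5]
      have h9 : π x g = π x⁻¹ g := by
        rw [← cancel' π ψ (π x g), h8, cancel']
      apply eq_of_sq hr hxr
      rw [h9, cancel]
    have h1 := key u hu
    have h2 := key (π x u) (by rw [← hcomm, hu])
    rw [fx, map_add] at h2
    rw [map_add] at h1
    -- `h = X²u - u` is fixed by `X`
    have h3 : π x (π x (π x u) - u) = π x (π x u) - u := by
      have h4 : π x⁻¹ (π φ u) = u + π φ u - π x⁻¹ u := by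
        have h5 := congrArg (π x⁻¹) h1
        rw [map_add, map_add, cancel', cancel'] at h5
        rw [h5]; abel
      rw [cancel, h4] at h2
      have h5 : π x (π x u) - u = π x u - π x⁻¹ u := by
        have h6 : π x (π x u) = π x u + (u + π φ u - π x⁻¹ u) - π φ u := by rw [← h2]; abel
        rw [h6]; abel
      have h6 := congrArg (π x) h5
      rw [map_sub, map_sub, cancel] at h6
      rw [map_sub, h6]
    set h := π x (π x u) - u with hh
    have h4 : π x (π x u) = u + h := by rw [hh]; abel
    have h5 : ∀ n : ℕ, π (x ^ (2 * n)) u = u + (n : k) • h := by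
      intro n
      induction n with
      | zero => rw [mul_zero, pow_zero, map_one, End.one_apply, Nat.cast_zero, zero_smul, add_zero]
      | succ n ih =>
        have h6 : x ^ (2 * (n + 1)) = x * x * x ^ (2 * n) := by
          rw [mul_add, mul_one, pow_add, pow_two, ← pow_two, ← pow_add, ← pow_add, add_comm]
        rw [h6, map_mul, End.mul_apply, ih, map_mul, End.mul_apply, map_add, map_add, h4, map_smul,
          map_smul, h3, h3, Nat.cast_succ, add_smul, one_smul]
        abel
    have h6 := h5 r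
    have h7 : x ^ (2 * r) = 1 := by rw [mul_comm, pow_mul, hxr, one_pow]
    rw [h7, map_one, End.one_apply] at h6
    have h8 : (r : k) • h = 0 := by
      have h9 : u + (r : k) • h = u + 0 := by rw [← h6, add_zero]
      exact add_left_cancel h9
    have h9 : h = 0 := by
      rcases smul_eq_zero.1 h8 with h10 | h10
      · exact absurd h10 hrk
      · exact h10
    apply eq_of_sq hr hxr
    rw [h4, h9, add_zero]
  -- `U'`
  have hU' : ∀ u', π x u' = π y u' → π x u' = u' := by
    intro u' hu'
    set u := π ψ⁻¹ u' with hu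
    have h0 : u' = π ψ u := by rw [hu, cancel]
    have h1 : π x (π y u) = u := by
      -- `X⁻¹ ψ = ψ Y`, so `π x (π y u)`
      have h2 : π ψ (π x (π y u)) = π ψ u := by
        rw [← gx, ← gy, ← h0, ← cxy', ← hu', cancel']
      rw [← cancel' π ψ (π x (π y u)), h2, cancel']
    have h2 := hU u h1
    have h3 : π y u = u := by
      have h4 : π x (π y u) = π x u := by rw [h1, h2]
      rw [← cancel' π x (π y u), h4, cancel']
    have h4 : π x⁻¹ u' = u' := by
      rw [h0, gy, h3]
    conv_lhs => rw [← h4]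
    rw [cancel]
  -- conclusion
  intro v
  have hXY : (x * y) ^ r = 1 ∨ True := Or.inr trivial
  have hstep : ∀ v, π x (v - π (x * y) v) = v - π (x * y) v := by
    intro v
    apply hU'
    rw [map_mul, End.mul_apply]
    have h1 := d8 (π x (π y v))
    rw [hD] at h1
    have h2 : π x⁻¹ (π x (π y v)) = π y v := cancel' _ _ _
    have h3 : π y⁻¹ (π x (π y v)) = π x v := by rw [hcomm, cancel']
    rw [h2, h3] at h1
    rw [map_sub, map_sub]
    have h4 : π x v - π x (π x (π y v)) - (π y v - π y (π x (π y v))) = 0 := by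
      rw [← neg_eq_zero]
      rw [← h1]; abel
    exact sub_eq_zero.1 h4
  have hpow : ∀ n : ℕ, π x (v - π ((x * y) ^ n) v) = v - π ((x * y) ^ n) v := by
    intro n
    induction n with
    | zero => rw [pow_zero, map_one, End.one_apply, sub_self, map_zero]
    | succ n ih =>
      have h1 := hstep (π ((x * y) ^ n) v)
      have h2 : π (x * y) (π ((x * y) ^ n) v) = π ((x * y) ^ (n + 1)) v := by
        rw [pow_succ', map_mul π (x * y), End.mul_apply]
      rw [h2] at h1
      have h3 : v - π ((x * y) ^ (n + 1)) v =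
          (v - π ((x * y) ^ n) v) + (π ((x * y) ^ n) v - π ((x * y) ^ (n + 1)) v) := by abel
      rw [h3, map_add, ih, h1]
  -- powers of `x y`
  have hxyn : ∀ n : ℕ, ∀ v, π ((x * y) ^ n) v = π (x ^ n) (π (y ^ n) v) := by
    have hc : ∀ n : ℕ, ∀ v, π y (π (x ^ n) v) = π (x ^ n) (π y v) := by
      intro n
      induction n with
      | zero => intro v; rw [pow_zero, map_one, End.one_apply, End.one_apply]
      | succ n ih => intro v; rw [pow_succ', map_mul, End.mul_apply, ← hcomm, ih, End.mul_apply]
    intro n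
    induction n with
    | zero => intro v; rw [pow_zero, pow_zero, pow_zero, map_one, End.one_apply, End.one_apply]
    | succ n ih =>
      intro v
      rw [pow_succ', map_mul, End.mul_apply, ih, map_mul, End.mul_apply, hc, pow_succ' x,
        pow_succ' y, map_mul, map_mul, End.mul_apply, End.mul_apply]
  have hNfix : π x (π y (N π (x * y) r v)) = N π (x * y) r v := by
    have h1 : ∀ w, π x (π y w) = π (x * y) w := fun w => by rw [map_mul, End.mul_apply]
    rw [h1]
    unfold N
    rw [map_sum]
    have h2 : ∀ n : ℕ, π (x * y) (π ((x * y) ^ n) v) = π ((x * y) ^ (n + 1)) v := by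
      intro n; rw [pow_succ', map_mul π (x * y), End.mul_apply]
    simp only [h2]
    have h3 := Finset.sum_range_succ' (fun n => π ((x * y) ^ n) v) r
    have h4 := Finset.sum_range_succ (fun n => π ((x * y) ^ n) v) r
    rw [h4] at h3
    have h5 : π ((x * y) ^ r) v = v := by
      rw [hxyn, hxr, hyr, map_one, End.one_apply, End.one_apply]
    simp only [pow_zero, h5, map_one, End.one_apply] at h3
    exact (add_right_cancel h3).symm
  have h1 := hU _ hNfix
  have h2 : π x (∑ i ∈ Finset.range r, (v - π ((x * y) ^ i) v)) =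
      ∑ i ∈ Finset.range r, (v - π ((x * y) ^ i) v) := by
    rw [map_sum]
    exact Finset.sum_congr rfl (fun i _ => hpow i)
  rw [Finset.sum_sub_distrib, Finset.sum_const, Finset.card_range, ← Nat.cast_smul_eq_nsmul k,
    map_sub, map_smul] at h2
  have h3 : (r : k) • π x v = (r : k) • v := by
    have h4 : π x (N π (x * y) r v) = ∑ i ∈ Finset.range r, π ((x * y) ^ i) v := h1
    have h5 : π x (∑ i ∈ Finset.range r, π ((x * y) ^ i) v) =
      ∑ i ∈ Finset.range r, π ((x * y) ^ i) v := h4
    rw [h5] at h2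
    exact sub_left_injective h2
  have h4 : (r : k) • (π x v - v) = 0 := by rw [smul_sub, h3, sub_self]
  rcases smul_eq_zero.1 h4 with h5 | h5
  · exact absurd h5 hrk
  · exact sub_eq_zero.1 h5

theorem fixed_of_coprime {π : Representation k G E} {c : G} {r i : ℕ} (hr1 : 1 < r) (hi : i.Coprime r)
    (hc : c ^ r = 1) {v : E} (h : π (c ^ i) v = v) : π c v = v := by
  obtain ⟨l, -, hl⟩ := Nat.exists_mul_mod_eq_one_of_coprime hi hr1
  have h1 : (c ^ i) ^ l = c := by
    rw [← pow_mul, ← Nat.div_add_mod (i * l) r, hl, pow_add, pow_mul, hc, one_pow, one_mul, pow_one]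
  have h2 := pow_fixed h l
  rw [h1] at h2
  exact h2

theorem lemS (π : Representation k G E) [FiniteDimensional k E] {x y c φ ψ : G} {r : ℕ}
    (hrp : r.Prime) (hr : Odd r) (hrk : (r : k) ≠ 0)
    (hφ : φ = ψ * ψ) (hφ2 : φ * φ = 1) (hx : φ * x * φ⁻¹ = x⁻¹) (hy : y = ψ * x * ψ⁻¹)
    (hxr : x ^ r = 1) (hc : c = x * y * x⁻¹ * y⁻¹) (hcx : c * x = x * c) (hcy : c * y = y * c)
    (hcφ : c * φ = φ * c) (hcr : c ^ r = 1)
    (hfix : ∀ e, π φ e = e → π ψ e = e)
    (hdim : finrank k (LinearMap.ker (π φ + 1)) ≤ 2)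
    (hm : ∀ m : k, (∀ e, π φ e = -e → π c e = m • e) → ∀ e, π φ e = -e → π c e = e) :
    ∀ e, π x e = e := by
  have hxy : x * y = c * (y * x) := by rw [hc]; group
  have hNc : ∀ g, c * g = g * c → ∀ v, N π c r (π g v) = π g (N π c r v) := by
    intro g hg v
    apply N_comm (T := π g)
    intro v
    rw [← End.mul_apply, ← End.mul_apply, ← map_mul, ← map_mul, hg]
  have hzero : ∀ v, N π c r v = 0 → π c v = v → v = 0 := by
    intro v h1 h2
    rw [N_of_fixed h2] at h1
    rcases smul_eq_zero.1 h1 with h3 | h3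
    · exact absurd h3 hrk
    · exact h3
  by_cases hE : ∀ v, N π c r v = 0 → v = 0
  · apply comm_case π hr hrk hφ hφ2 hx hy hxr _ hfix
    intro v
    have h1 : ∀ v, π c v = v := by
      intro v
      have h2 : N π c r (π c v - v) = 0 := by
        unfold N
        simp only [map_sub]
        rw [Finset.sum_sub_distrib]
        have h3 := hNc c rfl v
        rw [N_fixed π hcr] at h3
        unfold N at h3
        rw [h3, sub_self]
      exact sub_eq_zero.1 (hE _ h2)
    rw [← End.mul_apply, ← map_mul, hxy, map_mul, End.mul_apply, h1, map_mul, End.mul_apply]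
  exfalso
  push Not at hE
  obtain ⟨e, he, he0⟩ := hE
  have hv : ∃ v₀, N π c r v₀ = 0 ∧ π x v₀ = v₀ ∧ v₀ ≠ 0 := by
    by_contra hcon
    push Not at hcon
    have hcon' : ∀ v, N π c r v = 0 → π x v = v → v = 0 := hcon
    -- conjugates of `x`
    have hconj : ∀ j : ℕ, x * y ^ j = y ^ j * (c ^ j * x) := by
      intro j
      induction j with
      | zero => rw [pow_zero, pow_zero, mul_one, one_mul, one_mul]
      | succ j ih =>
        have h1 : y * c ^ (j + 1) = c ^ (j + 1) * y := ((show Commute c y from hcy).pow_left _).symm.eq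
        calc x * y ^ (j + 1) = (x * y ^ j) * y := by rw [pow_succ, mul_assoc]
          _ = y ^ j * (c ^ j * (x * y)) := by rw [ih]; group
          _ = y ^ j * (c ^ (j + 1) * y * x) := by rw [hxy, pow_succ]; group
          _ = y ^ (j + 1) * (c ^ (j + 1) * x) := by rw [← h1, pow_succ y]; group
    have hcomm : ∀ j : ℕ, Commute (c ^ j) x := fun j => (show Commute c x from hcx).pow_left j
    have hz : ∀ j : ℕ, (c ^ j * x) ^ r = 1 := by
      intro j
      rw [(hcomm j).mul_pow, hxr, mul_one, ← pow_mul, mul_comm, pow_mul, hcr, one_pow]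
    have hcz : ∀ j : ℕ, c * (c ^ j * x) = (c ^ j * x) * c := by
      intro j
      rw [← mul_assoc, ← pow_succ', pow_succ, mul_assoc, hcx, mul_assoc]
    have h0 : ∀ j : ℕ, N π (c ^ j * x) r e = 0 := by
      intro j
      have h1 := N_fixed π (hz j) e
      set n := N π (c ^ j * x) r e with hn
      have h2 : π x (π (y ^ j) n) = π (y ^ j) n := by
        rw [← End.mul_apply, ← map_mul, hconj, map_mul, End.mul_apply, h1]
      have h3 : N π c r n = 0 := by
        have h4 : N π (c ^ j * x) r (N π c r e) = N π c r n := by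
          rw [hn]
          unfold N
          simp only [map_sum]
          have h6 : ∀ a b : ℕ, π ((c ^ j * x) ^ a) (π (c ^ b) e) = π (c ^ b) (π ((c ^ j * x) ^ a) e) := by
            intro a b
            have h5 : Commute (c ^ b) ((c ^ j * x) ^ a) := (show Commute c (c ^ j * x) from hcz j).pow_pow b a
            rw [← End.mul_apply, ← End.mul_apply, ← map_mul, ← map_mul, h5.eq]
          rw [Finset.sum_comm]
          simp only [h6]
        rw [← h4, he]
        unfold N
        simp
      have h4 : N π c r (π (y ^ j) n) = 0 := by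
        rw [hNc (y ^ j) ((show Commute c y from hcy).pow_right j).eq, h3, map_zero]
      have h5 := hcon' _ h4 h2
      have h6 : π (y ^ j)⁻¹ (π (y ^ j) n) = n := cancel' π (y ^ j) n
      rw [← h6, h5, map_zero]
    have hsum : ∑ i ∈ Finset.range r, N π (c ^ i) r (π (x ^ i) e) = 0 := by
      have h1 : ∑ j ∈ Finset.range r, N π (c ^ j * x) r e = 0 := Finset.sum_eq_zero (fun j _ => h0 j)
      rw [← h1]
      unfold N
      rw [Finset.sum_comm]
      apply Finset.sum_congr rfl
      intro j _
      apply Finset.sum_congr rfl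
      intro i _
      rw [← End.mul_apply, ← map_mul, (hcomm j).mul_pow, ← pow_mul, ← pow_mul, mul_comm i j]
    have hr0 : 0 < r := hrp.pos
    have hsplit := Finset.sum_eq_single_of_mem (s := Finset.range r)
      (f := fun i => N π (c ^ i) r (π (x ^ i) e)) 0 (Finset.mem_range.2 hr0) (by
        intro i hi hi0
        have hcop : i.Coprime r :=
          Nat.Coprime.symm ((Nat.Prime.coprime_iff_not_dvd hrp).2 (fun h =>
            absurd (Nat.le_of_dvd (Nat.pos_of_ne_zero hi0) h) (not_le.2 (Finset.mem_range.1 hi))))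
        have h1 : (c ^ i) ^ r = 1 := by rw [← pow_mul, mul_comm, pow_mul, hcr, one_pow]
        have h2 := N_fixed π h1 (π (x ^ i) e)
        have h3 := fixed_of_coprime hrp.one_lt hcop hcr h2
        apply hzero _ _ h3
        unfold N
        simp only [map_sum]
        rw [Finset.sum_comm]
        apply Finset.sum_eq_zero
        intro a _
        have h5 : ∀ b : ℕ, π (c ^ b) (π ((c ^ i) ^ a) (π (x ^ i) e)) =
            π ((c ^ i) ^ a) (π (x ^ i) (π (c ^ b) e)) := by
          intro b
          have h6 : c ^ b * ((c ^ i) ^ a * x ^ i) = (c ^ i) ^ a * x ^ i * c ^ b := by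
            have h7 : Commute (c ^ b) ((c ^ i) ^ a) := by
              rw [← pow_mul]; exact Commute.pow_pow_self c b (i * a)
            have h8 : Commute (c ^ b) (x ^ i) := (show Commute c x from hcx).pow_pow b i
            exact (h7.mul_right h8).eq
          simp only [← End.mul_apply, ← map_mul]
          rw [h6]
          simp only [mul_assoc]
        simp only [h5]
        rw [← map_sum, ← map_sum]
        have h9 : ∑ b ∈ Finset.range r, π (c ^ b) e = 0 := he
        rw [h9, map_zero, map_zero])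
    rw [hsplit] at hsum
    have h1 : N π (c ^ 0) r (π (x ^ 0) e) = (r : k) • e := by
      rw [pow_zero, pow_zero, map_one, End.one_apply]
      exact N_of_fixed (by rw [map_one, End.one_apply])
    rw [h1] at hsum
    rcases smul_eq_zero.1 hsum with h3 | h3
    · exact hrk h3
    · exact he0 h3
  obtain ⟨v₀, hv1, hv2, hv3⟩ := hv
  -- relations
  have hφψ : φ * ψ = ψ * φ := by rw [hφ]; group
  have hyφ : φ * y * φ⁻¹ = y⁻¹ := by
    have h1 : φ * y * φ⁻¹ = ψ * (φ * x * φ⁻¹) * ψ⁻¹ := by
      rw [hy]
      calc φ * (ψ * x * ψ⁻¹) * φ⁻¹ = (φ * ψ) * x * (φ * ψ)⁻¹ := by group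
        _ = ψ * (φ * x * φ⁻¹) * ψ⁻¹ := by rw [hφψ]; group
    rw [h1, hx, hy]; group
  have fy : ∀ v, π φ (π y v) = π y⁻¹ (π φ v) := by
    intro v
    rw [← End.mul_apply, ← End.mul_apply, ← map_mul, ← map_mul, ← hyφ, inv_mul_cancel_right]
  have fy' : ∀ v, π φ (π y⁻¹ v) = π y (π φ v) := by
    intro v
    have h1 : φ * y⁻¹ = y * φ := by
      have h2 : (φ * y * φ⁻¹)⁻¹ = y := by rw [hyφ, inv_inv]
      conv_rhs => rw [← h2]
      group
    rw [← End.mul_apply, ← End.mul_apply, ← map_mul, ← map_mul, h1]
  have fφ : ∀ v, π φ (π φ v) = v := by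
    intro v
    rw [← End.mul_apply, ← map_mul, hφ2, map_one, End.one_apply]
  -- `φ v₀ = - v₀`
  have hv4 : π φ v₀ = -v₀ := by
    have h1 : π x (π φ v₀) = π φ v₀ := by
      have h2 : x * φ = φ * x⁻¹ := by
        have h3 : (φ * x * φ⁻¹)⁻¹ = x := by rw [hx, inv_inv]
        conv_lhs => rw [← h3]
        group
      have h4 : π x⁻¹ v₀ = v₀ := by
        conv_lhs => rw [← hv2]
        rw [cancel']
      rw [← End.mul_apply, ← map_mul, h2, map_mul, End.mul_apply, h4]
    have h2 : π φ (v₀ + π φ v₀) = v₀ + π φ v₀ := by rw [map_add, fφ, add_comm]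
    have h3 := hfix _ h2
    have h4 : π x (v₀ + π φ v₀) = v₀ + π φ v₀ := by rw [map_add, hv2, h1]
    set g := v₀ + π φ v₀ with hg
    have h5 : π ψ⁻¹ g = g := by
      conv_lhs => rw [← h3]
      rw [cancel']
    have h6 : π y g = g := by
      rw [hy, map_mul, End.mul_apply, h5, map_mul, End.mul_apply, h4, h3]
    have h7 : π x⁻¹ g = g := by
      conv_lhs => rw [← h4]
      rw [cancel']
    have h8 : π y⁻¹ g = g := by
      conv_lhs => rw [← h6]
      rw [cancel']
    have h9 : π c g = g := by
      rw [hc, map_mul, End.mul_apply, h8, map_mul, End.mul_apply, h7, map_mul, End.mul_apply, h6, h4]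
    have h10 : N π c r g = 0 := by
      have h11 : N π c r (π φ v₀) = 0 := by rw [hNc φ hcφ, hv1, map_zero]
      have h12 : N π c r g = N π c r v₀ + N π c r (π φ v₀) := by
        rw [hg]
        unfold N
        simp only [map_add]
        rw [Finset.sum_add_distrib]
      rw [h12, hv1, h11, add_zero]
    have h11 := hzero g h10 h9
    rw [hg] at h11
    exact (neg_eq_of_add_eq_zero_right h11).symm
  -- `w`
  set w := π y⁻¹ v₀ + π y v₀ with hw
  have hφw : π φ w = -w := by
    rw [hw, map_add, fy', fy, hv4, map_neg, map_neg]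
    abel
  have hxyv : π x (π y v₀) = π c (π y v₀) := by
    rw [← End.mul_apply, ← map_mul, hxy, map_mul, End.mul_apply, map_mul, End.mul_apply, hv2]
  have hxyv' : π x (π y⁻¹ v₀) = π c⁻¹ (π y⁻¹ v₀) := by
    have h1 : x * y⁻¹ = c⁻¹ * (y⁻¹ * x) := by
      have h2 : y⁻¹ * c⁻¹ = c⁻¹ * y⁻¹ := by
        rw [← mul_inv_rev, ← mul_inv_rev, hcy]
      have h3 : y * x = c⁻¹ * (x * y) := by rw [hxy]; group
      calc x * y⁻¹ = y⁻¹ * (y * x) * y⁻¹ := by group
        _ = (y⁻¹ * c⁻¹) * x := by rw [h3]; group
        _ = c⁻¹ * (y⁻¹ * x) := by rw [h2]; group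
    rw [← End.mul_apply, ← map_mul, h1, map_mul, End.mul_apply, map_mul, End.mul_apply, hv2]
  have hxw : π x w ≠ w := by
    intro h1
    rw [hw, map_add, hxyv, hxyv'] at h1
    -- `g = c⁻¹ y⁻¹ v₀ - y v₀`
    set g := π c⁻¹ (π y⁻¹ v₀) - π y v₀ with hg
    have h2 : π c g = g := by
      rw [hg, map_sub, cancel]
      have h3 : π c⁻¹ (π y⁻¹ v₀) + π c (π y v₀) - (π y⁻¹ v₀ + π y v₀) = 0 := by
        rw [h1, sub_self]
      have h4 : π y⁻¹ v₀ - π c (π y v₀) - (π c⁻¹ (π y⁻¹ v₀) - π y v₀) = 0 := by
        rw [← neg_eq_zero, ← h3]; abel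
      exact sub_eq_zero.1 h4
    have hciy : c * y⁻¹ = y⁻¹ * c := by
      have h5 : Commute c y := hcy
      exact h5.inv_right.eq
    have h3 : N π c r g = 0 := by
      have h4 : N π c r g = N π c r (π c⁻¹ (π y⁻¹ v₀)) - N π c r (π y v₀) := by
        rw [hg]
        unfold N
        simp only [map_sub]
        rw [Finset.sum_sub_distrib]
      rw [h4, hNc c⁻¹ (by rw [mul_inv_cancel, inv_mul_cancel]), hNc y⁻¹ hciy, hNc y hcy, hv1,
        map_zero, map_zero, map_zero, sub_zero]
    have h4 := hzero g h3 h2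
    have h5 : π c⁻¹ (π y⁻¹ v₀) = π y v₀ := sub_eq_zero.1 h4
    -- `v₀ = c y y v₀`
    have h6 : π c (π y (π y v₀)) = v₀ := by
      have h7 : π (c * y) (π y v₀) = v₀ := by
        rw [← h5, ← End.mul_apply, ← End.mul_apply, ← map_mul, ← map_mul]
        have h8 : c * y * c⁻¹ * y⁻¹ = 1 := by rw [hcy]; group
        rw [h8, map_one, End.one_apply]
      rw [← End.mul_apply, ← map_mul]
      exact h7
    have h7 : π c (π c v₀) = v₀ := by
      have h8 : π x (π c (π y (π y v₀))) = π c (π c (π c (π y (π y v₀)))) := by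
        have h9 : x * (c * (y * y)) = c * (c * (c * (y * (y * x)))) := by
          calc x * (c * (y * y)) = (c * x) * y * y := by rw [hcx]; group
            _ = c * (x * y) * y := by group
            _ = c * (c * (y * x)) * y := by rw [hxy]
            _ = c * c * y * (x * y) := by group
            _ = c * c * y * (c * (y * x)) := by rw [hxy]
            _ = c * c * (y * c) * y * x := by group
            _ = c * (c * (c * (y * (y * x)))) := by rw [← hcy]; group
        have h10 : π x (π c (π y (π y v₀))) = π (x * (c * (y * y))) v₀ := by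
          simp only [map_mul, End.mul_apply]
        rw [h10, h9]
        simp only [map_mul, End.mul_apply, hv2]
      rw [h6, hv2] at h8
      exact h8.symm
    exact hv3 (hzero v₀ hv1 (eq_of_sq hr hcr h7))
  -- independence
  have hli : LinearIndependent k ![v₀, w] := by
    rw [LinearIndependent.pair_iff]
    intro a b hab
    have h1 := congrArg (π x) hab
    rw [map_add, map_smul, map_smul, hv2, map_zero] at h1
    have h2 : b • (π x w - w) = 0 := by
      rw [smul_sub]
      have h3 : a • v₀ + b • π x w - (a • v₀ + b • w) = 0 := by rw [h1, hab, sub_zero]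
      rw [← h3]; abel
    have h3 : b = 0 := by
      rcases smul_eq_zero.1 h2 with h4 | h4
      · exact h4
      · exact absurd (sub_eq_zero.1 h4) hxw
    rw [h3, zero_smul, add_zero] at hab
    rcases smul_eq_zero.1 hab with h4 | h4
    · exact ⟨h4, h3⟩
    · exact absurd h4 hv3
  have hmemK : ∀ e, e ∈ LinearMap.ker (π φ + 1) ↔ π φ e = -e := by
    intro e
    rw [LinearMap.mem_ker, LinearMap.add_apply, End.one_apply]
    constructor
    · intro h; exact eq_neg_of_add_eq_zero_left h
    · intro h; rw [h, neg_add_cancel]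
  have hspan : Submodule.span k (Set.range ![v₀, w]) = LinearMap.ker (π φ + 1) := by
    apply Submodule.eq_of_le_of_finrank_le
    · rw [Submodule.span_le]
      rintro _ ⟨i, rfl⟩
      fin_cases i
      · exact (hmemK _).2 hv4
      · exact (hmemK _).2 hφw
    · rw [finrank_span_eq_card hli]
      exact hdim
  have hmem2 : ∀ e, π φ e = -e → ∃ a b : k, a • v₀ + b • w = e := by
    intro e he
    have h1 := (hmemK e).2 he
    rw [← hspan, Matrix.range_cons, Matrix.range_cons, Matrix.range_empty, Set.union_empty,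
      Set.singleton_union] at h1
    exact Submodule.mem_span_pair.1 h1
  -- `c` is a scalar
  have hcφ' : ∀ e, π φ (π c e) = π c (π φ e) := by
    intro e
    rw [← End.mul_apply, ← End.mul_apply, ← map_mul, ← map_mul, hcφ]
  obtain ⟨a, b, hab⟩ := hmem2 (π c v₀) (by rw [hcφ', hv4, map_neg])
  have hb : b = 0 := by
    have h1 : π x (π c v₀) = π c v₀ := by
      rw [← End.mul_apply, ← map_mul, ← hcx, map_mul, End.mul_apply, hv2]
    rw [← hab, map_add, map_smul, map_smul, hv2] at h1
    have h2 : b • (π x w - w) = 0 := by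
      rw [smul_sub, sub_eq_zero]
      exact add_left_cancel h1
    rcases smul_eq_zero.1 h2 with h4 | h4
    · exact h4
    · exact absurd (sub_eq_zero.1 h4) hxw
  rw [hb, zero_smul, add_zero] at hab
  have hcw : π c w = a • w := by
    have h1 : ∀ v, π c (π y v) = π y (π c v) := by
      intro v
      rw [← End.mul_apply, ← End.mul_apply, ← map_mul, ← map_mul, hcy]
    have h2 : ∀ v, π c (π y⁻¹ v) = π y⁻¹ (π c v) := by
      intro v
      have h5 : c * y⁻¹ = y⁻¹ * c := ((show Commute c y from hcy).inv_right).eq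
      rw [← End.mul_apply, ← End.mul_apply, ← map_mul, ← map_mul, h5]
    rw [hw, map_add, h1, h2, ← hab, map_smul, map_smul, smul_add]
  have hfin := hm a (by
    intro e he
    obtain ⟨a', b', hab'⟩ := hmem2 e he
    rw [← hab', map_add, map_smul, map_smul, hcw, ← hab, smul_comm b' a, smul_comm a' a,
      ← smul_add]) v₀ hv4
  exact hv3 (hzero v₀ hv1 hfin)

end Cfsg.Agent.H452.LemS
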