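import Mathlib
import Cfsg.Agent.H452.LemS
import Cfsg.Agent.H452.MinAct
import Cfsg.Agent.H452.T2

/-!
# The action on the Frattini quotient, 2-group case

`lemF` : `P` an `r`-group, `σ` of order `2 ^ (m + 1)`, `m ≥ 1`, normalising `P` minimally; all vectors fixed by
`φ = σ ^ 2 ^ m` are fixed by `σ`, the `-1`-eigenspace of `φ` has dimension at most 2 and elements of `P` acting on it as
scalars are trivial on it. Then `⁅P, ⟨φ⟩⁆` acts trivially.
-/

set_option autoImplicit false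

namespace Cfsg.Agent.H452.LemF

open Module
open scoped commutatorElement
open Cfsg.Agent.H452.MinAct Cfsg.Agent.H452.LemS

variable {G : Type*} [Group G] [Finite G] {k : Type*} [Field k] {E : Type*} [AddCommGroup E]
  [Module k E] [FiniteDimensional k E]

/-- order `r`-power elements whose square is trivial -/
theorem eq_one_of_two {r : ℕ} (hr : r.Prime) (hr2 : r ≠ 2) {P : Subgroup G}
    (hP : IsPGroup r P) {x : G} (hx : x ∈ P) (h : x * x = 1) : x = 1 := by
  obtain ⟨n, hn⟩ := hP ⟨x, hx⟩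
  have hn' : x ^ r ^ n = 1 := congrArg Subtype.val hn
  have h1 : orderOf x ∣ r ^ n := orderOf_dvd_of_pow_eq_one hn'
  have h2 : orderOf x ∣ 2 := orderOf_dvd_of_pow_eq_one (by rw [pow_two, h])
  have h3 : (r ^ n).Coprime 2 := Nat.Coprime.pow_left n ((Nat.coprime_primes hr Nat.prime_two).2 hr2)
  have h4 : orderOf x ∣ 1 := by
    have := Nat.dvd_gcd h1 h2
    rwa [h3] at this
  exact orderOf_eq_one_iff.1 (Nat.dvd_one.1 h4)

theorem lemF (π : Representation k G E) {σ : G} {m : ℕ} (hm : 1 ≤ m) {P : Subgroup G} {r : ℕ}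
    (hr : r.Prime) (hr2 : r ≠ 2) (hP : IsPGroup r P) (hrk : (r : k) ≠ 0)
    (hσ : σ ^ 2 ^ (m + 1) = 1)
    (hσP : Subgroup.zpowers σ ≤ Subgroup.normalizer (P : Set G))
    (hmin : ∀ H : Subgroup G, H ≤ P → H ≠ P → Subgroup.zpowers σ ≤ Subgroup.normalizer (H : Set G) →
      ⁅H, Subgroup.zpowers (σ ^ 2 ^ m)⁆ = ⊥)
    (hfix : ∀ e, π (σ ^ 2 ^ m) e = e → π σ e = e)
    (hdim : finrank k (LinearMap.ker (π (σ ^ 2 ^ m) + 1)) ≤ 2)
    (hform : ∀ c ∈ P, ∀ μ : k, (∀ e, π (σ ^ 2 ^ m) e = -e → π c e = μ • e) →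
      ∀ e, π (σ ^ 2 ^ m) e = -e → π c e = e) :
    ∀ u ∈ (⁅P, Subgroup.zpowers (σ ^ 2 ^ m)⁆ : Subgroup G), π u = 1 := by
  have hrf : Fact r.Prime := ⟨hr⟩
  have h2f : Fact (Nat.Prime 2) := ⟨Nat.prime_two⟩
  set φ := σ ^ 2 ^ m with hφdef
  by_cases hne : ⁅P, Subgroup.zpowers φ⁆ = ⊥
  · intro u hu
    rw [hne, Subgroup.mem_bot] at hu
    rw [hu, map_one]
  have hφ2 : φ * φ = 1 := by
    rw [hφdef, ← pow_add, ← two_mul, ← pow_succ', hσ]
  have hrY : ¬ r ∣ Nat.card (Subgroup.zpowers φ) := by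
    obtain ⟨j, hj⟩ := IsPGroup.iff_card.1 ((T2.isPGroup_zpowers hσ).to_le (T2.pow_mem_zpowers σ (2 ^ m)))
    rw [hj]
    intro hd
    exact hr2 ((Nat.prime_dvd_prime_iff_eq hr Nat.prime_two).1 (hr.dvd_of_dvd_pow hd))
  obtain ⟨h1, h2, h3, h4, h5⟩ := minAct hP (T2.pow_mem_zpowers σ (2 ^ m))
    (T2.zpowers_le_normalizer_pow σ (2 ^ m)) hσP hrY hmin hne
  -- `⁅P, P⁆` is central and centralised by `φ`
  have hPPφ : ∀ x ∈ (⁅P, P⁆ : Subgroup G), x * φ = φ * x := by
    intro x hx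
    by_cases hab : ⁅P, P⁆ = ⊥
    · rw [hab, Subgroup.mem_bot] at hx
      rw [hx, one_mul, mul_one]
    · exact (mem_inf_centralizer.1 (h5 hab (h2 hx))).2 φ (Subgroup.mem_zpowers φ)
  have hPPP : ∀ x ∈ (⁅P, P⁆ : Subgroup G), ∀ y ∈ P, x * y = y * x :=
    fun x hx => (mem_inf_centralizer.1 (h2 hx)).2
  have hσmem : ∀ g ∈ Subgroup.zpowers σ, ∀ x ∈ P, g * x * g⁻¹ ∈ P :=
    fun g hg x hx => conj_of_le_normalizer hσP hg hx
  have hφmem : φ ∈ Subgroup.zpowers σ := Subgroup.pow_mem _ (Subgroup.mem_zpowers σ) _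
  have hφinv : φ⁻¹ = φ := by rw [inv_eq_iff_mul_eq_one, hφ2]
  have hodd : Odd r := hr.odd_of_ne_two hr2
  -- generators
  have key : ∀ g ∈ P, π (⁅g, φ⁆) = 1 := by
    intro g hg
    set x := ⁅g, φ⁆ with hxdef
    have hxe : x = g * (φ * g⁻¹ * φ⁻¹) := by rw [hxdef, commutatorElement_def]; group
    have hxP : x ∈ P := by
      rw [hxe]
      exact P.mul_mem hg (hσmem φ hφmem _ (P.inv_mem hg))
    have hx : φ * x * φ⁻¹ = x⁻¹ := by
      have h6 : φ * x * φ⁻¹ = φ * g * φ⁻¹ * (φ * φ) * g⁻¹ * (φ⁻¹ * φ⁻¹) := by rw [hxe]; group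
      have h7 : x⁻¹ = φ * g * φ⁻¹ * g⁻¹ := by rw [hxe]; group
      rw [h6, h7, hφ2, ← mul_inv_rev, hφ2, inv_one, mul_one, mul_one]
    have hxr : x ^ r = 1 := by
      have h6 := h4 x hxP
      apply eq_one_of_two hr hr2 hP (P.pow_mem hxP r)
      have h7 := hPPφ _ h6
      have h8 : φ * x ^ r * φ⁻¹ = (x ^ r)⁻¹ := by
        rw [← conj_pow, hx, inv_pow]
      rw [← h7, mul_inv_cancel_right] at h8
      conv_lhs =>
        lhs
        rw [h8]
      exact inv_mul_cancel _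
    set ψ := σ ^ 2 ^ (m - 1) with hψdef
    have hψφ : φ = ψ * ψ := by
      rw [hψdef, hφdef, ← pow_add, ← two_mul, ← pow_succ']
      congr 2
      omega
    have hψmem : ψ ∈ Subgroup.zpowers σ := Subgroup.pow_mem _ (Subgroup.mem_zpowers σ) _
    set y := ψ * x * ψ⁻¹ with hydef
    have hyP : y ∈ P := hσmem ψ hψmem x hxP
    set c := x * y * x⁻¹ * y⁻¹ with hcdef
    have hcPP : c ∈ (⁅P, P⁆ : Subgroup G) := by
      have := Subgroup.commutator_mem_commutator hxP hyP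
      rwa [commutatorElement_def] at this
    have hcP : c ∈ P := by
      rw [hcdef]
      exact P.mul_mem (P.mul_mem (P.mul_mem hxP hyP) (P.inv_mem hxP)) (P.inv_mem hyP)
    have hcx := hPPP c hcPP x hxP
    have hcy := hPPP c hcPP y hyP
    have hcr : c ^ r = 1 := by
      have h6 : y⁻¹ * x * y = c * x := by
        have h7 : x * y = c * (y * x) := by rw [hcdef]; group
        rw [mul_assoc, h7, ← mul_assoc y⁻¹, ← mul_assoc, ← (show Commute c y⁻¹ from
          (show Commute c y from hcy).inv_right).eq]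
        group
      have h8 : (y⁻¹ * x * y) ^ r = 1 := by
        have h9 : (y⁻¹ * x * y⁻¹⁻¹) ^ r = y⁻¹ * x ^ r * y⁻¹⁻¹ := conj_pow
        rw [inv_inv] at h9
        rw [h9, hxr, mul_one, inv_mul_cancel]
      rw [h6, (show Commute c x from hcx).mul_pow, hxr, mul_one] at h8
      exact h8
    have h6 := lemS π hr hodd hrk hψφ hφ2 hx hydef hxr hcdef hcx hcy (hPPφ c hcPP) hcr (by
      intro e he
      have h7 := hfix e he
      rw [hψdef]
      exact pow_fixed h7 _) hdim (hform c hcP)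
    ext e
    rw [End.one_apply]
    exact h6 e
  -- the kernel
  let K : Subgroup G := MonoidHom.ker π
  have hle : ⁅P, Subgroup.zpowers φ⁆ ≤ K := by
    rw [Subgroup.commutator_le]
    intro g hg a ha
    obtain ⟨i, hi⟩ := ha
    have hi' : φ ^ i = a := hi
    rcases Int.even_or_odd i with ⟨j, hj⟩ | ⟨j, hj⟩
    · have h6 : a = 1 := by
        rw [← hi', hj, ← two_mul, zpow_mul]
        have : φ ^ (2 : ℤ) = 1 := by
          have h7 : φ ^ (2 : ℤ) = φ * φ := by rw [zpow_two]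
          rw [h7, hφ2]
        rw [this, one_zpow]
      rw [h6, commutatorElement_one_right]
      exact K.one_mem
    · have h6 : a = φ := by
        rw [← hi', hj, zpow_add, zpow_mul, zpow_one]
        have : φ ^ (2 : ℤ) = 1 := by
          have h7 : φ ^ (2 : ℤ) = φ * φ := by rw [zpow_two]
          rw [h7, hφ2]
        rw [this, one_zpow, one_mul]
      rw [h6]
      exact MonoidHom.mem_ker.2 (key g hg)
  intro u hu
  exact MonoidHom.mem_ker.1 (hle hu)

end Cfsg.Agent.H452.LemF
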