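import Mathlib
import Cfsg.Agent.H452.LemF
import Cfsg.Agent.H452.Dat

/-!
# The action on `Q / Z`, 2-group case
-/

set_option autoImplicit false

namespace Cfsg.Agent.H452.WAct

open Module
open scoped commutatorElement
open Cfsg.Agent.OddOrderLocal.Thm34 (elemRep elemRep_apply)
open Cfsg.Agent.Lib.CoprimeCommutator
open Cfsg.Agent.H452.MinAct Cfsg.Agent.H452.Dat

theorem aux {Γ : Type*} [Group Γ] [Finite Γ] {W : Type*} [CommGroup W] [Finite W] {s : ℕ}
    [hs : Fact s.Prime] [Module (ZMod s) (Additive W)] (κ : Γ →* MulAut W) {σ : Γ} {m : ℕ}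
    (hm : 1 ≤ m) (hσ : σ ^ 2 ^ (m + 1) = 1) {P : Subgroup Γ} {r : ℕ} (hr : r.Prime) (hr2 : r ≠ 2)
    (hrs : r ≠ s) (hP : IsPGroup r P)
    (hσP : Subgroup.zpowers σ ≤ Subgroup.normalizer (P : Set Γ))
    (hmin : ∀ H : Subgroup Γ, H ≤ P → H ≠ P →
      Subgroup.zpowers σ ≤ Subgroup.normalizer (H : Set Γ) →
      ∀ u ∈ (⁅H, Subgroup.zpowers (σ ^ 2 ^ m)⁆ : Subgroup Γ), κ u = 1)
    (hfix : ∀ w, κ (σ ^ 2 ^ m) w = w → κ σ w = w)
    (hcard : Nat.card {w : W // κ (σ ^ 2 ^ m) w = w⁻¹} ≤ s ^ 2)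
    (hform : ∀ c ∈ P, ∀ n : ℕ, (∀ w, κ (σ ^ 2 ^ m) w = w⁻¹ → κ c w = w ^ n) →
      ∀ w, κ (σ ^ 2 ^ m) w = w⁻¹ → κ c w = w) :
    ∀ u ∈ (⁅P, Subgroup.zpowers (σ ^ 2 ^ m)⁆ : Subgroup Γ), κ u = 1 := by
  classical
  have hfinA : Finite (Additive W) := inferInstanceAs (Finite W)
  have hfd : FiniteDimensional (ZMod s) (Additive W) := Module.Finite.of_finite
  let N : Subgroup Γ := MonoidHom.ker κ
  have hN : N ≤ MonoidHom.ker (elemRep s κ : Representation (ZMod s) Γ (Additive W)) := by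
    intro g hg
    have hg' : κ g = 1 := hg
    rw [MonoidHom.mem_ker]
    ext w
    show Additive.ofMul (κ g w.toMul) = w
    rw [hg']
    rfl
  let π : Representation (ZMod s) (Γ ⧸ N) (Additive W) := QuotientGroup.lift N (elemRep s κ) hN
  have hπ : ∀ (g : Γ) (w : W), π (QuotientGroup.mk' N g) (Additive.ofMul w) = Additive.ofMul (κ g w) :=
    fun g w => rfl
  have hφ : QuotientGroup.mk' N σ ^ 2 ^ m = QuotientGroup.mk' N (σ ^ 2 ^ m) := (map_pow _ _ _).symm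
  have hzφ : (Subgroup.zpowers (σ ^ 2 ^ m)).map (QuotientGroup.mk' N) =
      Subgroup.zpowers (QuotientGroup.mk' N σ ^ 2 ^ m) := by
    rw [MonoidHom.map_zpowers, hφ]
  have hσP' : Subgroup.zpowers (QuotientGroup.mk' N σ) ≤
      Subgroup.normalizer (P.map (QuotientGroup.mk' N) : Set (Γ ⧸ N)) := by
    rw [← MonoidHom.map_zpowers]
    apply le_normalizer_of_conj
    rintro _ ⟨a, ha, rfl⟩ _ ⟨x, hx, rfl⟩
    exact ⟨a * x * a⁻¹, conj_of_le_normalizer hσP ha hx, by rw [map_mul, map_mul, map_inv]⟩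
  have hmin' : ∀ H : Subgroup (Γ ⧸ N), H ≤ P.map (QuotientGroup.mk' N) →
      H ≠ P.map (QuotientGroup.mk' N) →
      Subgroup.zpowers (QuotientGroup.mk' N σ) ≤ Subgroup.normalizer (H : Set (Γ ⧸ N)) →
      ⁅H, Subgroup.zpowers (QuotientGroup.mk' N σ ^ 2 ^ m)⁆ = ⊥ := by
    intro H hHP hHne hH
    let H₁ : Subgroup Γ := P ⊓ H.comap (QuotientGroup.mk' N)
    have h1 : H₁ ≠ P := by
      intro h1
      apply hHne
      apply le_antisymm hHP
      rw [Subgroup.map_le_iff_le_comap]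
      rw [← h1]
      exact inf_le_right
    have h2 : Subgroup.zpowers σ ≤ Subgroup.normalizer (H₁ : Set Γ) := by
      apply le_normalizer_inf hσP
      apply le_normalizer_of_conj
      intro a ha x hx
      rw [Subgroup.mem_comap, map_mul, map_mul, map_inv]
      refine conj_of_le_normalizer hH ?_ hx
      rw [← MonoidHom.map_zpowers]
      exact ⟨a, ha, rfl⟩
    have h3 := hmin H₁ inf_le_left h1 h2
    have h4 : H₁.map (QuotientGroup.mk' N) = H := by
      apply le_antisymm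
      · rw [Subgroup.map_le_iff_le_comap]
        exact inf_le_right
      · intro x hx
        obtain ⟨y, hy, rfl⟩ := hHP hx
        exact ⟨y, ⟨hy, hx⟩, rfl⟩
    rw [← h4, ← hzφ, ← Subgroup.map_commutator, eq_bot_iff]
    rintro _ ⟨u, hu, rfl⟩
    rw [Subgroup.mem_bot]
    exact (QuotientGroup.eq_one_iff u).2 (h3 u hu)
  have hdim : finrank (ZMod s) (LinearMap.ker (π (QuotientGroup.mk' N σ ^ 2 ^ m) + 1)) ≤ 2 := by
    have hfk : Finite (LinearMap.ker (π (QuotientGroup.mk' N σ ^ 2 ^ m) + 1)) := inferInstance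
    have := Fintype.ofFinite (LinearMap.ker (π (QuotientGroup.mk' N σ ^ 2 ^ m) + 1))
    have h1 := Module.card_eq_pow_finrank (K := ZMod s)
      (V := LinearMap.ker (π (QuotientGroup.mk' N σ ^ 2 ^ m) + 1))
    rw [ZMod.card, ← Nat.card_eq_fintype_card] at h1
    have hmem : ∀ v ∈ LinearMap.ker (π (QuotientGroup.mk' N σ ^ 2 ^ m) + 1),
        κ (σ ^ 2 ^ m) v.toMul = (v.toMul)⁻¹ := by
      intro v hv
      rw [LinearMap.mem_ker, LinearMap.add_apply, End.one_apply, hφ] at hv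
      exact eq_neg_of_add_eq_zero_left hv
    have h2 : Nat.card (LinearMap.ker (π (QuotientGroup.mk' N σ ^ 2 ^ m) + 1)) ≤
        Nat.card {w : W // κ (σ ^ 2 ^ m) w = w⁻¹} := by
      apply Nat.card_le_card_of_injective (fun e => ⟨e.1.toMul, hmem e.1 e.2⟩)
      intro a b hab
      apply Subtype.ext
      have h3 := congrArg (fun z : {w : W // κ (σ ^ 2 ^ m) w = w⁻¹} => z.1) hab
      exact h3
    rw [h1] at h2
    exact (Nat.pow_le_pow_iff_right hs.out.one_lt).1 (h2.trans hcard)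
  have hrk : (r : ZMod s) ≠ 0 := by
    intro h
    rw [ZMod.natCast_eq_zero_iff] at h
    exact hrs ((Nat.prime_dvd_prime_iff_eq hs.out hr).1 h).symm
  have key := LemF.lemF π (σ := QuotientGroup.mk' N σ) hm (P := P.map (QuotientGroup.mk' N)) hr hr2
    (hP.map _) hrk (by rw [← map_pow, hσ, map_one]) hσP' hmin' (by
      intro e he
      rw [hφ] at he
      have h1 := hfix e.toMul he
      exact h1) hdim (by
      rintro _ ⟨c, hc, rfl⟩ μ hμ e he
      rw [hφ] at he hμ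
      have h1 := hform c hc μ.val (by
        intro w hw
        have h2 := hμ (Additive.ofMul w) hw
        rw [hπ] at h2
        have h3 : μ • Additive.ofMul w = Additive.ofMul (w ^ μ.val) := by
          conv_lhs => rw [← ZMod.natCast_zmod_val μ]
          rw [Nat.cast_smul_eq_nsmul]
          rfl
        rw [h3] at h2
        exact h2) e.toMul he
      exact h1)
  intro u hu
  have h1 := key (QuotientGroup.mk' N u) (by
    rw [← hzφ, ← Subgroup.map_commutator]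
    exact ⟨u, hu, rfl⟩)
  ext w
  have h2 := LinearMap.congr_fun h1 (Additive.ofMul w)
  rw [hπ] at h2
  exact h2

/-- powers in class two -/
theorem comm_pow {Γ : Type*} [Group Γ] {w a b : Γ} (hw : ∀ g, w * g = g * w) (h : a * b = w * (b * a))
    (n k : ℕ) : a ^ n * b ^ k = w ^ (n * k) * (b ^ k * a ^ n) := by
  have hw' : ∀ (n : ℕ) (g : Γ), w ^ n * g = g * w ^ n := fun n g =>
    ((show Commute w g from hw g).pow_left n).eq
  have h1 : ∀ n : ℕ, a ^ n * b = w ^ n * (b * a ^ n) := by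
    intro n
    induction n with
    | zero => simp
    | succ n ih =>
      calc a ^ (n + 1) * b = a * (a ^ n * b) := by rw [pow_succ', mul_assoc]
        _ = a * w ^ n * (b * a ^ n) := by rw [ih, mul_assoc]
        _ = w ^ n * (a * b) * a ^ n := by rw [← hw']; group
        _ = w ^ (n + 1) * (b * a ^ (n + 1)) := by rw [h, pow_succ w, pow_succ' a]; group
  induction k with
  | zero => simp
  | succ k ih =>
    calc a ^ n * b ^ (k + 1) = (a ^ n * b ^ k) * b := by rw [pow_succ, mul_assoc]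
      _ = w ^ (n * k) * (b ^ k * (a ^ n * b)) := by rw [ih]; group
      _ = w ^ (n * k) * (b ^ k * w ^ n) * b * a ^ n := by rw [h1]; group
      _ = w ^ (n * (k + 1)) * (b ^ (k + 1) * a ^ n) := by
        rw [← hw', mul_add, mul_one, pow_add w, pow_succ b]; group

section act

variable {F : Type*} [Field F] {Γ : Type*} [Group Γ] [Finite Γ] {V : Type*}
  [AddCommGroup V] [Module F V]
  {ρ : Representation F Γ V} {m s : ℕ} {σ : Γ} {Q Z : Subgroup Γ}

/-- `φ` inverts `R / Z` -/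
theorem inv_R (h : Data ρ m s σ Q Z) {x : Γ} (hx : x ∈ RR Q Z (σ ^ 2 ^ m)) :
    σ ^ 2 ^ m * x * (σ ^ 2 ^ m)⁻¹ * x ∈ Z := by
  have hZn := h.Zc
  set φ := σ ^ 2 ^ m with hφ
  have hφ2 : φ * φ = 1 := by
    rw [hφ, ← pow_add, ← two_mul, ← pow_succ', h.pow]
  have hφR : φ * x * φ⁻¹ ∈ RR Q Z φ :=
    conj_of_le_normalizer h.normR (Subgroup.pow_mem _ (Subgroup.mem_zpowers σ) _) hx
  have h1 : φ * x * φ⁻¹ * x ∈ RR Q Z φ := Subgroup.mul_mem _ hφR hx
  apply h.free0 h1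
  rw [← hφ]
  have h2 : φ * (φ * x * φ⁻¹ * x) * φ⁻¹ * (φ * x * φ⁻¹ * x)⁻¹ =
      x * (φ * x * φ⁻¹) * x⁻¹ * (φ * x * φ⁻¹)⁻¹ := by
    calc φ * (φ * x * φ⁻¹ * x) * φ⁻¹ * (φ * x * φ⁻¹ * x)⁻¹
        = (φ * φ) * x * (φ * φ)⁻¹ * (φ * x * φ⁻¹) * x⁻¹ * (φ * x * φ⁻¹)⁻¹ := by group
      _ = x * (φ * x * φ⁻¹) * x⁻¹ * (φ * x * φ⁻¹)⁻¹ := by rw [hφ2]; group
  rw [h2]
  apply h.comm
  have := Subgroup.commutator_mem_commutator (h.le_Q hx) (h.le_Q hφR)
  rwa [commutatorElement_def] at this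

/-- `R` is not abelian -/
theorem exists_noncomm (h : Data ρ m s σ Q Z) :
    ∃ a ∈ RR Q Z (σ ^ 2 ^ m), ∃ b ∈ RR Q Z (σ ^ 2 ^ m), a * b ≠ b * a := by
  by_contra hcon
  push Not at hcon
  apply h.not_le
  intro x hx
  apply h.mem_of_comm (h.le_Q hx)
  · intro y hy
    exact hcon x hx y hy
  · intro t ht htφ
    exact h.comm_R hx ht htφ

theorem mem_R_of_inv (h : Data ρ m s σ Q Z) {y : Γ} (hy : y ∈ Q)
    (hφy : σ ^ 2 ^ m * y * (σ ^ 2 ^ m)⁻¹ * y ∈ Z) : y ∈ RR Q Z (σ ^ 2 ^ m) := by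
  set φ := σ ^ 2 ^ m with hφ
  have h1 : y * y ∈ RR Q Z φ := by
    have h2 : y * y = ⁅y, φ⁆ * (φ * y * φ⁻¹ * y) := by
      rw [commutatorElement_def]; group
    rw [h2]
    refine Subgroup.mul_mem _ (Subgroup.mem_sup_left ?_) (Subgroup.mem_sup_right hφy)
    exact Subgroup.commutator_mem_commutator hy (Subgroup.mem_zpowers φ)
  have hodd : Odd (Nat.card Q) := by
    rw [← Nat.not_even_iff_odd, even_iff_two_dvd]
    exact h.two_not_dvd le_rfl
  obtain ⟨t, ht⟩ := hodd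
  have h3 : y ^ (2 * t + 1) = 1 := by
    rw [← ht]
    exact congrArg Subtype.val (pow_card_eq_one' (x := (⟨y, hy⟩ : Q)))
  have h4 : y = ((y * y) ^ t)⁻¹ := by
    rw [eq_inv_iff_mul_eq_one, ← pow_two, ← pow_mul, ← pow_succ', h3]
  rw [h4]
  exact Subgroup.inv_mem _ (Subgroup.pow_mem _ h1 t)

/-- scalars on `R / Z` -/
theorem scalar_one (h : Data ρ m s σ Q Z) (hexp : ∀ x ∈ Q, x ^ s ∈ Z) {c : Γ} {e : ℕ} (he : Odd e)
    (hce : c ^ e = 1) {n : ℕ}
    (hc : ∀ x ∈ RR Q Z (σ ^ 2 ^ m), (x ^ n)⁻¹ * (c * x * c⁻¹) ∈ Z) :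
    ∀ x ∈ RR Q Z (σ ^ 2 ^ m), x⁻¹ * (c * x * c⁻¹) ∈ Z := by
  have hsf : Fact s.Prime := ⟨h.s_prime⟩
  have hZn := h.Zc
  obtain ⟨a, ha, b, hb, hab⟩ := exists_noncomm h
  set w := a * b * a⁻¹ * b⁻¹ with hw
  have hwZ : w ∈ Z := by
    apply h.comm
    have := Subgroup.commutator_mem_commutator (h.le_Q ha) (h.le_Q hb)
    rwa [commutatorElement_def] at this
  have hwc := h.central w hwZ
  have hwab : a * b = w * (b * a) := by rw [hw]; group
  have hw1 : w ≠ 1 := by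
    intro h1
    apply hab
    rw [hwab, h1, one_mul]
  -- `w ^ (n * n) = w`
  have hwn : w ^ (n * n) = w := by
    set z₁ := (a ^ n)⁻¹ * (c * a * c⁻¹) with hz₁
    set z₂ := (b ^ n)⁻¹ * (c * b * c⁻¹) with hz₂
    have hz₁Z : z₁ ∈ Z := hc a ha
    have hz₂Z : z₂ ∈ Z := hc b hb
    have hca : c * a * c⁻¹ = a ^ n * z₁ := by rw [hz₁]; group
    have hcb : c * b * c⁻¹ = b ^ n * z₂ := by rw [hz₂]; group
    have h1 : c * (a * b) * c⁻¹ = w ^ (n * n) * (b ^ n * a ^ n) * (z₁ * z₂) := by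
      calc c * (a * b) * c⁻¹ = (c * a * c⁻¹) * (c * b * c⁻¹) := by group
        _ = a ^ n * (z₁ * b ^ n) * z₂ := by rw [hca, hcb]; group
        _ = (a ^ n * b ^ n) * (z₁ * z₂) := by rw [h.central z₁ hz₁Z]; group
        _ = w ^ (n * n) * (b ^ n * a ^ n) * (z₁ * z₂) := by rw [comm_pow hwc hwab]
    have h2 : c * (w * (b * a)) * c⁻¹ = w * (b ^ n * a ^ n) * (z₁ * z₂) := by
      calc c * (w * (b * a)) * c⁻¹ = (c * w) * b * a * c⁻¹ := by group
        _ = w * ((c * b * c⁻¹) * (c * a * c⁻¹)) := by rw [← hwc]; group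
        _ = w * (b ^ n * (z₂ * a ^ n) * z₁) := by rw [hca, hcb]; group
        _ = w * (b ^ n * a ^ n) * (z₂ * z₁) := by rw [h.central z₂ hz₂Z]; group
        _ = w * (b ^ n * a ^ n) * (z₁ * z₂) := by rw [h.central z₂ hz₂Z]
    rw [← hwab, h1] at h2
    exact mul_right_cancel (mul_right_cancel h2)
  have hmod : n * n ≡ 1 [MOD s] := by
    have h1 : w ^ (n * n) = w ^ 1 := by rw [hwn, pow_one]
    rw [pow_eq_pow_iff_modEq] at h1
    apply h1.of_dvd
    have h2 : orderOf w ∣ Nat.card Q := by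
      have := orderOf_dvd_natCard (⟨w, h.le hwZ⟩ : Q)
      rwa [Subgroup.orderOf_mk] at this
    obtain ⟨j, hj⟩ := IsPGroup.iff_card.1 h.isp
    rw [hj] at h2
    obtain ⟨i, -, hi⟩ := (Nat.dvd_prime_pow h.s_prime).1 h2
    rw [hi]
    apply dvd_pow_self
    rintro rfl
    rw [pow_zero] at hi
    exact hw1 (orderOf_eq_one_iff.1 hi)
  -- the action on the quotient
  let f : Γ →* Γ ⧸ Z := QuotientGroup.mk' Z
  have hf : ∀ a b : Γ, a⁻¹ * b ∈ Z ↔ f a = f b := fun a b => QuotientGroup.eq.symm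
  have hc' : ∀ x ∈ RR Q Z (σ ^ 2 ^ m), f c * f x * (f c)⁻¹ = f x ^ n := by
    intro x hx
    have h1 := (hf _ _).1 (hc x hx)
    rw [map_pow, map_mul, map_mul, map_inv] at h1
    exact h1.symm
  intro x hx
  rw [hf, map_mul, map_mul, map_inv]
  have hk : ∀ k : ℕ, f c ^ k * f x * (f c ^ k)⁻¹ = f x ^ n ^ k := by
    intro k
    induction k with
    | zero => simp
    | succ k ih =>
      have h1 : f c ^ (k + 1) * f x * (f c ^ (k + 1))⁻¹ = f c * (f c ^ k * f x * (f c ^ k)⁻¹) * (f c)⁻¹ := by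
        rw [pow_succ']; group
      rw [h1, ih, ← conj_pow, hc' x hx, ← pow_mul, ← pow_succ']
  have hxs : f x ^ s = 1 := by
    rw [← map_pow]
    exact (QuotientGroup.eq_one_iff _).2 (hexp x (h.le_Q hx))
  have h1 := hk e
  have h2 : f c ^ e = 1 := by rw [← map_pow, hce, map_one]
  rw [h2, one_mul, inv_one, mul_one] at h1
  have h3 : n ^ e ≡ n [MOD s] := by
    obtain ⟨t, rfl⟩ := he
    have h4 : n ^ (2 * t + 1) = (n * n) ^ t * n := by
      rw [pow_succ, pow_mul, pow_two]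
    rw [h4]
    have h5 := (hmod.pow t).mul_right n
    rwa [one_pow, one_mul] at h5
  have h4 : f x ^ n ^ e = f x ^ n := by
    rw [pow_eq_pow_iff_modEq]
    exact h3.of_dvd (orderOf_dvd_of_pow_eq_one hxs)
  rw [hc' x hx, ← h4, ← h1]

end act

section act2

variable {F : Type*} [Field F] [IsAlgClosed F] {Γ : Type*} [Group Γ] [Finite Γ] {V : Type*}
  [AddCommGroup V] [Module F V] [FiniteDimensional F V] [Nontrivial V]
  {ρ : Representation F Γ V} {m s : ℕ} {σ : Γ} {Q Z : Subgroup Γ}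

theorem trivial_action (h : Data ρ m s σ Q Z) (hQn : Q.Normal) (hexp : ∀ x ∈ Q, x ^ s ∈ Z)
    {P : Subgroup Γ} {r : ℕ} (hr : r.Prime) (hr2 : r ≠ 2) (hrs : r ≠ s) (hP : IsPGroup r P)
    (hσP : Subgroup.zpowers σ ≤ Subgroup.normalizer (P : Set Γ))
    (hmin : ∀ H : Subgroup Γ, H ≤ P → H ≠ P →
      Subgroup.zpowers σ ≤ Subgroup.normalizer (H : Set Γ) →
      ∀ u ∈ (⁅H, Subgroup.zpowers (σ ^ 2 ^ m)⁆ : Subgroup Γ), ∀ y ∈ Q, u * y = y * u) :
    ∀ u ∈ (⁅P, Subgroup.zpowers (σ ^ 2 ^ m)⁆ : Subgroup Γ), ∀ y ∈ Q, y⁻¹ * (u * y * u⁻¹) ∈ Z := by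
  classical
  have hsf : Fact s.Prime := ⟨h.s_prime⟩
  have hZn := h.Zc
  let f : Γ →* Γ ⧸ Z := QuotientGroup.mk' Z
  have hf1 : ∀ g, f g = 1 ↔ g ∈ Z := fun g => QuotientGroup.eq_one_iff g
  have hf : ∀ a b : Γ, a⁻¹ * b ∈ Z ↔ f a = f b := fun a b => QuotientGroup.eq.symm
  let W : Subgroup (Γ ⧸ Z) := Q.map f
  have hWn : W.Normal := hQn.map f (QuotientGroup.mk'_surjective Z)
  have hWcomm : ∀ a b : W, a * b = b * a := by
    rintro ⟨_, a, ha, rfl⟩ ⟨_, b, hb, rfl⟩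
    apply Subtype.ext
    show f a * f b = f b * f a
    have h1 : f ⁅a, b⁆ = 1 := (hf1 _).2 (h.comm (Subgroup.commutator_mem_commutator ha hb))
    rw [map_commutatorElement] at h1
    exact commutatorElement_eq_one_iff_mul_comm.1 h1
  let instW : CommGroup W := { (inferInstance : Group W) with mul_comm := hWcomm }
  have hWs : ∀ a : W, a ^ s = 1 := by
    rintro ⟨_, a, ha, rfl⟩
    apply Subtype.ext
    show (f a) ^ s = 1
    rw [← map_pow]
    exact (hf1 _).2 (hexp a ha)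
  let κ : Γ →* MulAut W := (MulAut.conjNormal (H := W)).comp f
  have hκ : ∀ (g y : Γ) (hy : y ∈ Q), ((κ g ⟨f y, y, hy, rfl⟩ : W) : Γ ⧸ Z) = f (g * y * g⁻¹) := by
    intro g y hy
    show ((MulAut.conjNormal (f g) (⟨f y, y, hy, rfl⟩ : W) : W) : Γ ⧸ Z) = _
    rw [MulAut.conjNormal_apply, map_mul, map_mul, map_inv]
  have hκ1 : ∀ (g : Γ), κ g = 1 ↔ ∀ y ∈ Q, y⁻¹ * (g * y * g⁻¹) ∈ Z := by
    intro g
    constructor
    · intro hg y hy
      rw [hf, ← hκ g y hy, hg]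
      rfl
    · intro hg
      ext ⟨_, y, hy, rfl⟩
      rw [hκ g y hy, ← (hf _ _).1 (hg y hy)]
      rfl
  set φ := σ ^ 2 ^ m with hφ
  have hinv : ∀ (y : Γ) (hy : y ∈ Q), κ φ ⟨f y, y, hy, rfl⟩ = (⟨f y, y, hy, rfl⟩ : W)⁻¹ ↔
      φ * y * φ⁻¹ * y ∈ Z := by
    intro y hy
    rw [Subtype.ext_iff, hκ φ y hy]
    show f (φ * y * φ⁻¹) = (f y)⁻¹ ↔ _
    rw [← hf1, map_mul f (φ * y * φ⁻¹) y, eq_inv_iff_mul_eq_one]
  have key := @aux Γ _ _ W instW _ s _ (AddCommGroup.zmodModule (by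
    intro a
    exact hWs a.toMul)) κ σ m h.one_le h.pow P r hr hr2 hrs hP hσP (by
      intro H hHP hHne hH u hu
      rw [hκ1]
      intro y hy
      rw [hmin H hHP hHne hH u hu y hy]
      have h1 : y⁻¹ * (y * u * u⁻¹) = 1 := by group
      rw [h1]
      exact Z.one_mem) (by
      rintro ⟨_, y, hy, rfl⟩ hw
      have h1 : φ * y * φ⁻¹ * y⁻¹ ∈ Z := by
        rw [← hf1, map_mul, map_inv, mul_inv_eq_one]
        have h2 := congrArg Subtype.val hw
        rw [hκ φ y hy] at h2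
        exact h2
      obtain ⟨t, ht, htφ, hyt⟩ := h.exists_fixed hy h1
      have h2 := h.comm_σ ht htφ
      have h3 := (hf _ _).1 hyt
      apply Subtype.ext
      rw [hκ σ y hy]
      show f (σ * y * σ⁻¹) = f y
      rw [map_mul, map_mul, h3, ← map_mul, ← map_mul, ← h2, mul_inv_cancel_right]) (by
      have h1 : Nat.card ((RR Q Z φ).map f) = s ^ 2 := by
        have h2 := Subgroup.index_ker (f.comp (RR Q Z φ).subtype)
        have h3 : (f.comp (RR Q Z φ).subtype).ker = Z.subgroupOf (RR Q Z φ) := by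
          ext x
          rw [MonoidHom.mem_ker, Subgroup.mem_subgroupOf]
          exact hf1 _
        have h4 : (f.comp (RR Q Z φ).subtype).range = (RR Q Z φ).map f := by
          rw [MonoidHom.range_comp, Subgroup.range_subtype]
        rw [h3, h4] at h2
        rw [← h2]
        have h5 : Nat.card Z ≠ 0 := Nat.card_pos.ne'
        have h6 := (Z.subgroupOf (RR Q Z φ)).index_mul_card
        have hZR : Z ≤ RR Q Z φ := le_sup_right
        rw [Nat.card_congr (Subgroup.subgroupOfEquivOfLe hZR).toEquiv, h.card] at h6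
        exact Nat.eq_of_mul_eq_mul_right (Nat.pos_of_ne_zero h5) h6
      rw [← h1]
      have hmem : ∀ w : W, κ φ w = w⁻¹ → (w : Γ ⧸ Z) ∈ (RR Q Z φ).map f := by
        rintro ⟨_, y, hy, rfl⟩ hw
        exact ⟨y, mem_R_of_inv h hy ((hinv y hy).1 hw), rfl⟩
      apply Nat.card_le_card_of_injective
        (fun w : {w : W // κ φ w = w⁻¹} => (⟨(w.1 : Γ ⧸ Z), hmem w.1 w.2⟩ : (RR Q Z φ).map f))
      intro a b hab
      apply Subtype.ext
      apply Subtype.ext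
      exact congrArg (fun z : (RR Q Z φ).map f => (z : Γ ⧸ Z)) hab) (by
      intro c hc n hn
      obtain ⟨e, he⟩ := hP ⟨c, hc⟩
      have hce : c ^ r ^ e = 1 := congrArg Subtype.val he
      have hodd : Odd (r ^ e) := (hr.odd_of_ne_two hr2).pow
      have h1 := scalar_one h hexp hodd hce (n := n) (by
        intro x hx
        have hxQ := h.le_Q hx
        have h2 := hn ⟨f x, x, hxQ, rfl⟩ ((hinv x hxQ).2 (inv_R h hx))
        have h3 := congrArg Subtype.val h2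
        rw [hκ c x hxQ] at h3
        have h4 : f (c * x * c⁻¹) = f (x ^ n) := by
          rw [h3, map_pow]
          rfl
        exact (hf _ _).2 h4.symm)
      rintro ⟨_, y, hy, rfl⟩ hw
      have hyR := mem_R_of_inv h hy ((hinv y hy).1 hw)
      apply Subtype.ext
      rw [hκ c y hy, ← (hf _ _).1 (h1 y hyR)])
  intro u hu y hy
  exact (hκ1 u).1 (key u hu) y hy

end act2

end Cfsg.Agent.H452.WAct
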