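import Mathlib
import Cfsg.Agent.H452.WAct
import Cfsg.Agent.H452.Ward

/-!
# The three-step property for cyclic 2-groups
-/

set_option autoImplicit false

namespace Cfsg.Agent.H452.Gross

open Module
open scoped commutatorElement
open Cfsg.Agent.OddOrderLocal.Thm34Weights
open Cfsg.Agent.Lib.CoprimeCommutator
open Cfsg.Agent.H452.Base Cfsg.Agent.H452.TopN Cfsg.Agent.H452.MinAct Cfsg.Agent.H452.Orbit
open Cfsg.Agent.H452.TopH2 Cfsg.Agent.H452.Red Cfsg.Agent.H452.Dat Cfsg.Agent.H452.PowTwo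
open Cfsg.Agent.H452.T2

attribute [local instance] wtAction

universe u

/-- The statement proved by induction. -/
def Goal (F : Type) [Field F] (r s k : ℕ) : Prop :=
  ∀ (Γ : Type u) [Group Γ] [Finite Γ] (V : Type u) [AddCommGroup V] [Module F V]
    [FiniteDimensional F V] (ρ : Representation F Γ V) (m : ℕ) (σ : Γ) (P Q : Subgroup Γ),
    Nat.card P + Nat.card Q + finrank F V < k → IsPGroup r P → IsPGroup s Q →
    σ ^ 2 ^ (m + 1) = 1 → Subgroup.zpowers σ ≤ Subgroup.normalizer (P : Set Γ) →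
    Subgroup.zpowers σ ≤ Subgroup.normalizer (Q : Set Γ) → P ≤ Subgroup.normalizer (Q : Set Γ) →
    (∀ v, ρ σ v = v → v = 0) →
    ∀ u ∈ (⁅P, Subgroup.zpowers (σ ^ 2 ^ m)⁆ : Subgroup Γ), ∀ y ∈ Q, ρ (u * y) = ρ (y * u)

theorem card_lt {Γ : Type*} [Group Γ] [Finite Γ] {H K : Subgroup Γ} (h : H ≤ K) (hne : H ≠ K) :
    Nat.card H < Nat.card K := by
  have hlt : H < K := lt_of_le_of_ne h hne
  exact Set.Finite.card_lt_card (Set.toFinite _) hlt

theorem prime_not_dvd {Γ : Type*} [Group Γ] [Finite Γ] {t p : ℕ} (ht : t.Prime) (hp : p.Prime)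
    (htp : t ≠ p) {H : Subgroup Γ} (hH : IsPGroup t H) : ¬ p ∣ Nat.card H := by
  have : Fact t.Prime := ⟨ht⟩
  obtain ⟨j, hj⟩ := IsPGroup.iff_card.1 hH
  rw [hj]
  intro hd
  exact htp ((Nat.prime_dvd_prime_iff_eq hp ht).1 (hp.dvd_of_dvd_pow hd)).symm

theorem core {F : Type} [Field F] [IsAlgClosed F] {r s : ℕ} (hr : r.Prime) (hs : s.Prime)
    (hr2 : r ≠ 2) (hs2 : s ≠ 2) (hrs : r ≠ s) (h2F : (2 : F) ≠ 0) (hsF : (s : F) ≠ 0) {k : ℕ}
    (IH : Goal.{u} F r s k) {Γ : Type u} [Group Γ] [Finite Γ] {V : Type u} [AddCommGroup V]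
    [Module F V] [FiniteDimensional F V] (ρ : Representation F Γ V) {m : ℕ} {σ : Γ}
    {P Q : Subgroup Γ} (hk : Nat.card P + Nat.card Q + finrank F V < k + 1) (hP : IsPGroup r P)
    (hQ : IsPGroup s Q) (hσ : σ ^ 2 ^ (m + 1) = 1)
    (hσP : Subgroup.zpowers σ ≤ Subgroup.normalizer (P : Set Γ))
    (hσQ : Subgroup.zpowers σ ≤ Subgroup.normalizer (Q : Set Γ))
    (hPQ : P ≤ Subgroup.normalizer (Q : Set Γ)) (hV : ∀ v, ρ σ v = v → v = 0)
    (hgen : P ⊔ Q ⊔ Subgroup.zpowers σ = ⊤) (hnt : Nontrivial V) (hirr : Irr ρ)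
    (hfaith : ∀ g, ρ g = 1 → g = 1) :
    ∀ u ∈ (⁅P, Subgroup.zpowers (σ ^ 2 ^ m)⁆ : Subgroup Γ), ∀ y ∈ Q, u * y = y * u := by
  classical
  have h2p : Nat.Prime 2 := Nat.prime_two
  have h2f : Fact (Nat.Prime 2) := ⟨h2p⟩
  have hrf : Fact r.Prime := ⟨hr⟩
  have hsf : Fact s.Prime := ⟨hs⟩
  by_contra hcon
  set φ := σ ^ 2 ^ m with hφdef
  have hφC : Subgroup.zpowers φ ≤ Subgroup.zpowers σ := pow_mem_zpowers σ (2 ^ m)
  have hC2 : IsPGroup 2 (Subgroup.zpowers σ) := isPGroup_zpowers hσ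
  have hφ2 : IsPGroup 2 (Subgroup.zpowers φ) := hC2.to_le hφC
  have hρcomm : ∀ a b : Γ, ρ (a * b) = ρ (b * a) → a * b = b * a := by
    intro a b hab
    have h1 : ρ (a * b * (b * a)⁻¹) = 1 := by
      rw [map_mul, hab, ← map_mul, mul_inv_cancel, map_one]
    exact mul_inv_eq_one.1 (hfaith _ h1)
  -- induction on `P`
  have hIH : ∀ H : Subgroup Γ, H ≤ P → H ≠ P →
      Subgroup.zpowers σ ≤ Subgroup.normalizer (H : Set Γ) →
      ∀ u ∈ (⁅H, Subgroup.zpowers φ⁆ : Subgroup Γ), ∀ y ∈ Q, u * y = y * u := by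
    intro H hH hne hσH u hu y hy
    apply hρcomm
    have h1 := card_lt hH hne
    exact IH Γ V ρ m σ H Q (by omega) (hP.to_le hH) hQ hσ hσH hσQ (hH.trans hPQ) hV u hu y hy
  have hPe : ⁅P, Subgroup.zpowers φ⁆ = P := by
    by_contra hne
    apply hcon
    have h1 := hIH ⁅P, Subgroup.zpowers φ⁆ (commutator_le_left (hφC.trans hσP)) hne
      (le_normalizer_commutator hσP (zpowers_le_normalizer_pow σ (2 ^ m)))
    rw [commutator_commutator_eq _ _ (hφC.trans hσP) (Ward.coprime_card h2p hr hr2.symm hφ2 hP)] at h1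
    exact h1
  rw [hPe] at hcon
  -- minimal action of `P` on `Q`
  have hX1 : P ⊔ Subgroup.zpowers σ ≤ Subgroup.normalizer (P : Set Γ) :=
    sup_le Subgroup.le_normalizer hσP
  have hX2 : P ⊔ Subgroup.zpowers σ ≤ Subgroup.normalizer (Q : Set Γ) := sup_le hPQ hσQ
  obtain ⟨h1, h2, h3, h4, h5⟩ := minAct (Q := Q) (X := P ⊔ Subgroup.zpowers σ) (Y := P) hQ le_sup_left
    hX1 hX2 (prime_not_dvd hr hs hrs hP) (by
      intro H hH hne hXH
      rw [MinAct.commutator_eq_bot_iff]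
      intro y hy u hu
      have h1 := card_lt hH hne
      have h2 := hρcomm u y (IH Γ V ρ m σ P H (by omega) hP (hQ.to_le hH) hσ hσP
        (le_sup_right.trans hXH) (le_sup_left.trans hXH) hV u (by rw [← hφdef, hPe]; exact hu) y hy)
      exact h2.symm) (by
      intro h
      apply hcon
      intro u hu y hy
      exact (MinAct.commutator_eq_bot_iff.1 h y hy u hu).symm)
  -- `φ` does not centralise `Q`
  have hφQ : ⁅Q, Subgroup.zpowers φ⁆ ≠ ⊥ := by
    intro h
    apply hcon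
    have h6 : ⁅⁅P, Subgroup.zpowers φ⁆, Q⁆ = ⊥ := by
      apply Subgroup.commutator_commutator_eq_bot_of_rotate
      · rw [Subgroup.commutator_comm (Subgroup.zpowers φ) Q, h, Subgroup.commutator_bot_left]
      · rw [h1, h]
    rw [hPe, MinAct.commutator_eq_bot_iff] at h6
    exact h6
  -- `Q` is not abelian
  have hab : ⁅Q, Q⁆ ≠ ⊥ := by
    intro hab
    apply hφQ
    rw [MinAct.commutator_eq_bot_iff] at hab ⊢
    have h6 := comm_of_min ρ Q (cast_card_ne_zero hsF hQ) hab (Subgroup.zpowers σ)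
      (cast_card_ne_zero h2F hC2) hσQ (fun v hv => hV v (hv σ (Subgroup.mem_zpowers σ)))
      (φ := φ) (hφC (Subgroup.mem_zpowers φ)) (fun H hH hH1 => mem_of_ne_bot h2p hσ hH hH1)
    intro x hx y hy
    exact (commute_zpowers (hρcomm _ _ (h6 x hx)) y hy).symm
  have h6 := h5 hab
  set Z : Subgroup Γ := Q ⊓ Subgroup.centralizer (Q : Set Γ) with hZdef
  have hQn : Q.Normal := by
    rw [← Subgroup.normalizer_eq_top_iff, eq_top_iff, ← hgen]
    exact sup_le (sup_le hPQ Subgroup.le_normalizer) hσQ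
  have hZn : Z.Normal := inferInstance
  have hZQ : Z ≤ Q := inf_le_left
  have hZc : ∀ z ∈ Z, ∀ x ∈ Q, z * x = x * z := fun z hz => (mem_inf_centralizer.1 hz).2
  have hZP : ∀ z ∈ Z, ∀ x ∈ P, z * x = x * z := fun z hz => (mem_inf_centralizer.1 (h6 hz)).2
  have hZab : ∀ a ∈ Z, ∀ b ∈ Z, a * b = b * a := fun a ha b hb => hZc a ha b (hZQ hb)
  have hZF : (Nat.card Z : F) ≠ 0 := cast_card_ne_zero hsF (hQ.to_le hZQ)
  have hCF : (Nat.card (Subgroup.zpowers σ) : F) ≠ 0 := cast_card_ne_zero h2F hC2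
  have hfixC : ∀ v, (∀ a ∈ Subgroup.zpowers σ, ρ a v = v) → v = 0 :=
    fun v hv => hV v (hv σ (Subgroup.mem_zpowers σ))
  obtain ⟨χ, hχ⟩ : ∃ χ : Z → F, wt ρ Z χ ≠ ⊥ := by
    by_contra hcon
    push Not at hcon
    have h1 := iSup_wt ρ Z hZF hZab
    have h2 : ⨆ χ : Z → F, wt ρ Z χ = ⊥ := by
      rw [iSup_eq_bot]; exact hcon
    rw [h2] at h1
    exact bot_ne_top h1
  have hsmul : ∀ x : Γ, (∀ z ∈ Z, z * x = x * z) → x • χ = χ := by
    intro x hx
    funext z
    rw [wt_smul_def]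
    congr 1
    apply Subtype.ext
    rw [MulAut.conjNormal_apply]
    have h7 : Commute (z : Γ) x := hx z z.2
    rw [← h7.inv_right.eq, mul_inv_cancel_right]
  have hPM : P ≤ MulAction.stabilizer Γ χ := fun x hx => hsmul x (fun z hz => hZP z hz x hx)
  have hQM : Q ≤ MulAction.stabilizer Γ χ := fun x hx => hsmul x (fun z hz => hZc z hz x hx)
  -- `σ` stabilises `χ`
  have hσχ : σ • χ = χ := by
    by_contra hne
    obtain ⟨j, hj1, hst⟩ := T2Odd.exists_zpowers h2p hσ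
      (stab_le (N := Z) (A := Subgroup.zpowers σ) (χ := χ))
    have hj0 : j ≠ 0 := by
      rintro rfl
      rw [pow_zero, pow_one] at hst
      have : σ ∈ stab Z (Subgroup.zpowers σ) χ := by rw [hst]; exact Subgroup.mem_zpowers σ
      exact hne this.2
    have hjm : j ≤ m := by
      by_contra hcon
      have h7 : j = m + 1 := by omega
      rw [h7, hσ, Subgroup.zpowers_one_eq_bot] at hst
      exact stab_ne_bot ρ Z hZF hZab (Subgroup.zpowers σ) hCF hfixC hχ hst
    set τ := σ ^ 2 ^ j with hτ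
    have hτS : τ ∈ stab Z (Subgroup.zpowers σ) χ := by rw [hst]; exact Subgroup.mem_zpowers τ
    have hτM : τ ∈ MulAction.stabilizer Γ χ := hτS.2
    have hτφ : τ ^ 2 ^ (m - j) = φ := by
      rw [hτ, hφdef, ← pow_mul, ← pow_add]
      congr 2
      omega
    have hτ1 : τ ^ 2 ^ (m - j + 1) = 1 := by
      rw [hτ, ← pow_mul, ← pow_add]
      have : j + (m - j + 1) = m + 1 := by omega
      rw [this, hσ]
    -- the weight space is proper
    have hwne : wt ρ Z χ ≠ ⊤ := by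
      intro htop
      apply hne
      obtain ⟨v, hv⟩ := exists_ne (0 : V)
      have hv1 : v ∈ wt ρ Z χ := by rw [htop]; trivial
      have hv2 : v ∈ wt ρ Z (σ • χ) := by
        have h7 : ρ σ⁻¹ v ∈ wt ρ Z χ := by rw [htop]; trivial
        have h8 := smul_mem_wt h7 σ
        rwa [← End.mul_apply, ← map_mul, mul_inv_cancel, map_one, End.one_apply] at h8
      funext z
      have h7 := (mem_wt.1 hv1) z
      have h8 := (mem_wt.1 hv2) z
      rw [h7] at h8
      exact (smul_left_injective F hv h8).symm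
    have hfr : finrank F (wt ρ Z χ) < finrank F V := Submodule.finrank_lt hwne
    let M : Subgroup Γ := MulAction.stabilizer Γ χ
    have hPe' : (P.subgroupOf M).map M.subtype = P := by
      rw [Subgroup.subgroupOf_map_subtype, inf_eq_left.2 hPM]
    have hcP : Nat.card (P.subgroupOf M) = Nat.card P :=
      Nat.card_congr (Subgroup.subgroupOfEquivOfLe hPM).toEquiv
    have hcQ : Nat.card (Q.subgroupOf M) = Nat.card Q :=
      Nat.card_congr (Subgroup.subgroupOfEquivOfLe hQM).toEquiv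
    have hτσ : Subgroup.zpowers τ ≤ Subgroup.zpowers σ := pow_mem_zpowers σ (2 ^ j)
    have hzτ : ∀ a ∈ Subgroup.zpowers (⟨τ, hτM⟩ : M), (a : Γ) ∈ Subgroup.zpowers σ := by
      rintro _ ⟨i, rfl⟩
      exact hτσ ⟨i, rfl⟩
    have key := IH M (wt ρ Z χ) (T2Odd.wrep ρ Z χ) (m - j) ⟨τ, hτM⟩ (P.subgroupOf M) (Q.subgroupOf M)
      (by rw [hcP, hcQ]; omega) (hP.of_equiv (Subgroup.subgroupOfEquivOfLe hPM).symm)
      (hQ.of_equiv (Subgroup.subgroupOfEquivOfLe hQM).symm) (Subtype.ext hτ1) (by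
        apply le_normalizer_of_conj
        intro a ha x hx
        exact conj_of_le_normalizer (a := (a : Γ)) (x := (x : Γ)) hσP (hzτ a ha) hx) (by
        apply le_normalizer_of_conj
        intro a ha x hx
        exact conj_of_le_normalizer (a := (a : Γ)) (x := (x : Γ)) hσQ (hzτ a ha) hx) (by
        apply le_normalizer_of_conj
        intro a ha x hx
        exact conj_of_le_normalizer (a := (a : Γ)) (x := (x : Γ)) hPQ ha hx) (by
        intro v hv
        apply Subtype.ext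
        have hv' : ρ τ v = v := congrArg Subtype.val hv
        apply eq_zero_of_stab_fixed ρ Z hZF hZab (Subgroup.zpowers σ) hCF hfixC v.2
        intro a ha ha'
        have h1 : a ∈ stab Z (Subgroup.zpowers σ) χ := ⟨ha, ha'⟩
        rw [hst] at h1
        exact T2.pow_fixed ρ hv' a h1)
    have hPall : ∀ x (hx : x ∈ P), (⟨x, hPM hx⟩ : M) ∈
        (⁅P.subgroupOf M, Subgroup.zpowers ((⟨τ, hτM⟩ : M) ^ 2 ^ (m - j))⁆ : Subgroup M) := by
      intro x hx
      have h7 : x ∈ (⁅P.subgroupOf M, Subgroup.zpowers ((⟨τ, hτM⟩ : M) ^ 2 ^ (m - j))⁆ :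
          Subgroup M).map M.subtype := by
        rw [Subgroup.map_commutator, hPe', MonoidHom.map_zpowers, map_pow]
        show x ∈ (⁅P, Subgroup.zpowers (τ ^ 2 ^ (m - j))⁆ : Subgroup Γ)
        rw [hτφ, hPe]
        exact hx
      obtain ⟨y, hy, hxy⟩ := h7
      have h8 : (⟨x, hPM hx⟩ : M) = y := Subtype.ext hxy.symm
      rw [h8]
      exact hy
    -- `Q` acts trivially on the weight space
    let K : Subgroup Γ := (MonoidHom.ker (T2Odd.wrep ρ Z χ)).map M.subtype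
    have hQK : Q ≤ K := by
      rw [← h1, Subgroup.commutator_le]
      intro y hy u hu
      have h7 := key ⟨u, hPM hu⟩ (hPall u hu) ⟨y, hQM hy⟩ hy
      refine ⟨(⟨y, hQM hy⟩ : M) * ⟨u, hPM hu⟩ * (⟨y, hQM hy⟩ : M)⁻¹ * (⟨u, hPM hu⟩ : M)⁻¹, ?_, ?_⟩
      · rw [SetLike.mem_coe, MonoidHom.mem_ker]
        have h8 : (⟨y, hQM hy⟩ : M) * ⟨u, hPM hu⟩ * (⟨y, hQM hy⟩ : M)⁻¹ * (⟨u, hPM hu⟩ : M)⁻¹ =
            ((⟨y, hQM hy⟩ : M) * ⟨u, hPM hu⟩) * ((⟨u, hPM hu⟩ : M) * ⟨y, hQM hy⟩)⁻¹ := by group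
        rw [h8, map_mul, ← h7, ← map_mul, mul_inv_cancel, map_one]
      · rw [commutatorElement_def]
        rfl
    let E : Submodule F V :=
      { carrier := {v | ∀ z ∈ Q, ρ z v = v}
        add_mem' := fun {a b} ha hb z hz => by rw [map_add, ha z hz, hb z hz]
        zero_mem' := fun z _ => map_zero _
        smul_mem' := fun c a ha z hz => by rw [map_smul, ha z hz] }
    have hE : ∀ g, ∀ w ∈ E, ρ g w ∈ E := by
      intro g w hw z hz
      have h4 : z * g = g * (g⁻¹ * z * g⁻¹⁻¹) := by group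
      rw [← End.mul_apply, ← map_mul, h4, map_mul, End.mul_apply, hw _ (hQn.conj_mem z hz g⁻¹)]
    rcases hirr E hE with h7 | h7
    · apply hχ
      rw [eq_bot_iff, ← h7]
      intro v hv z hz
      obtain ⟨z', hz', hzz⟩ := hQK hz
      have h8 := LinearMap.congr_fun (MonoidHom.mem_ker.1 hz') ⟨v, hv⟩
      have h9 := congrArg Subtype.val h8
      rw [T2Odd.wrep_apply] at h9
      rw [← hzz]
      exact h9
    · apply hab
      rw [eq_bot_iff]
      refine (Subgroup.commutator_le_self Q).trans ?_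
      intro z hz
      rw [Subgroup.mem_bot]
      apply hfaith z
      ext v
      have h8 : v ∈ E := by rw [h7]; trivial
      exact h8 z hz
  -- `Z` acts by scalars
  have hstab : MulAction.stabilizer Γ χ = ⊤ := by
    rw [eq_top_iff, ← hgen]
    refine sup_le (sup_le hPM hQM) ?_
    rw [Subgroup.zpowers_le]
    exact hσχ
  have hwtop : wt ρ Z χ = ⊤ := by
    have h7 : ∀ g, ∀ w ∈ wt ρ Z χ, ρ g w ∈ wt ρ Z χ := by
      intro g w hw
      have h8 := smul_mem_wt hw g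
      have h9 : g ∈ MulAction.stabilizer Γ χ := by rw [hstab]; trivial
      rwa [MulAction.mem_stabilizer_iff.1 h9] at h8
    rcases hirr _ h7 with h8 | h8
    · exact absurd h8 hχ
    · exact h8
  have hscal : ∀ z ∈ Z, ∃ c : F, ρ z = c • 1 := by
    intro z hz
    refine ⟨χ ⟨z, hz⟩, ?_⟩
    ext v
    have hv : v ∈ wt ρ Z χ := by rw [hwtop]; trivial
    exact (mem_wt.1 hv) ⟨z, hz⟩
  have hcent : ∀ z ∈ Z, ∀ g, z * g = g * z := by
    intro z hz g
    obtain ⟨c, hc⟩ := hscal z hz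
    apply hρcomm
    rw [map_mul, map_mul, hc, smul_mul_assoc, one_mul, mul_smul_comm, mul_one]
  have hdata : Data ρ m s σ Q Z :=
    { s_prime := hs
      s_ne := hs2
      twoF := h2F
      sF := hsF
      faithful := hfaith
      pow := hσ
      fixV := hV
      isp := hQ
      normQ := hσQ
      le := hZQ
      central := hcent
      scalar := hscal
      mem := fun x hx hxy => mem_inf_centralizer.2 ⟨hx, hxy⟩
      comm := h2
      ne := hφQ }
  have h7 := WAct.trivial_action hdata hQn (fun x hx => h2 (h4 x hx)) hr hr2 hrs hP hσP hIH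
  rw [← hφdef, hPe] at h7
  apply hab
  have h8 : Q ≤ Z := by
    conv_lhs => rw [← h1]
    rw [Subgroup.commutator_le]
    intro y hy u hu
    have h9 := h7 u hu y⁻¹ (Q.inv_mem hy)
    have h10 : ⁅y, u⁆ = y⁻¹⁻¹ * (u * y⁻¹ * u⁻¹) := by rw [commutatorElement_def]; group
    rw [h10]
    exact h9
  rw [MinAct.commutator_eq_bot_iff]
  intro x hx y hy
  exact hZc x (h8 hx) y hy

theorem card_map_le {G H : Type*} [Group G] [Group H] [Finite G] (f : G →* H) (K : Subgroup G) :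
    Nat.card (K.map f) ≤ Nat.card K :=
  Nat.card_le_card_of_surjective _ (f.subgroupMap_surjective K)

theorem goal_all {F : Type} [Field F] [IsAlgClosed F] {r s : ℕ} (hr : r.Prime) (hs : s.Prime)
    (hr2 : r ≠ 2) (hs2 : s ≠ 2) (hrs : r ≠ s) (h2F : (2 : F) ≠ 0) (hsF : (s : F) ≠ 0) :
    ∀ k, Goal.{u} F r s k := by
  have h2f : Fact (Nat.Prime 2) := ⟨Nat.prime_two⟩
  have hrf : Fact r.Prime := ⟨hr⟩
  have hsf : Fact s.Prime := ⟨hs⟩
  intro k
  induction k with
  | zero =>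
    intro Γ _ _ V _ _ _ ρ m σ P Q hk
    exact absurd hk (Nat.not_lt_zero _)
  | succ k IH =>
    intro Γ _ _ V _ _ _ ρ m σ P Q hk hP hQ hσ hσP hσQ hPQ hV u hu y hy
    have hφσ : Subgroup.zpowers (σ ^ 2 ^ m) ≤ Subgroup.zpowers σ := pow_mem_zpowers σ (2 ^ m)
    have huP : u ∈ P := commutator_le_left (hφσ.trans hσP) hu
    let M : Subgroup Γ := P ⊔ Q ⊔ Subgroup.zpowers σ
    have hPM : P ≤ M := le_sup_left.trans le_sup_left
    have hQM : Q ≤ M := le_sup_right.trans le_sup_left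
    have hσM : Subgroup.zpowers σ ≤ M := le_sup_right
    have hσM' : σ ∈ M := hσM (Subgroup.mem_zpowers σ)
    have hcA : Nat.card ((Subgroup.zpowers σ).subgroupOf M) = Nat.card (Subgroup.zpowers σ) :=
      Nat.card_congr (Subgroup.subgroupOfEquivOfLe hσM).toEquiv
    have hAF : (Nat.card ((Subgroup.zpowers σ).subgroupOf M) : F) ≠ 0 := by
      rw [hcA]
      exact cast_card_ne_zero h2F (isPGroup_zpowers hσ)
    have hQF : (Nat.card Q : F) ≠ 0 := cast_card_ne_zero hsF hQ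
    have hgQ : u * y * u⁻¹ * y⁻¹ ∈ Q :=
      Q.mul_mem (conj_of_le_normalizer hPQ huP hy) (Q.inv_mem hy)
    have hgM : u * y * u⁻¹ * y⁻¹ ∈ M := hQM hgQ
    have hpow : (⟨u * y * u⁻¹ * y⁻¹, hgM⟩ : M) ^ Nat.card Q = 1 := by
      have h1 := congrArg Subtype.val (pow_card_eq_one' (x := (⟨_, hgQ⟩ : Q)))
      exact Subtype.ext h1
    have hQe : (Q.subgroupOf M).map M.subtype = Q := by
      rw [Subgroup.subgroupOf_map_subtype, inf_eq_left.2 hQM]
    have hPe : (P.subgroupOf M).map M.subtype = P := by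
      rw [Subgroup.subgroupOf_map_subtype, inf_eq_left.2 hPM]
    have hgen : P.subgroupOf M ⊔ Q.subgroupOf M ⊔ Subgroup.zpowers (⟨σ, hσM'⟩ : M) = ⊤ := by
      apply Subgroup.map_injective M.subtype_injective
      rw [Subgroup.map_sup, Subgroup.map_sup, hQe, hPe, MonoidHom.map_zpowers,
        ← MonoidHom.range_eq_map, Subgroup.range_subtype]
      rfl
    have hzM : ∀ a ∈ Subgroup.zpowers (⟨σ, hσM'⟩ : M), (a : Γ) ∈ Subgroup.zpowers σ := by
      rintro _ ⟨i, rfl⟩
      exact ⟨i, rfl⟩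
    have hcP : Nat.card (P.subgroupOf M) = Nat.card P :=
      Nat.card_congr (Subgroup.subgroupOfEquivOfLe hPM).toEquiv
    have hcQ : Nat.card (Q.subgroupOf M) = Nat.card Q :=
      Nat.card_congr (Subgroup.subgroupOfEquivOfLe hQM).toEquiv
    have huM : (⟨u, hPM huP⟩ : M) ∈
        (⁅P.subgroupOf M, Subgroup.zpowers ((⟨σ, hσM'⟩ : M) ^ 2 ^ m)⁆ : Subgroup M) := by
      have h7 : u ∈ (⁅P.subgroupOf M, Subgroup.zpowers ((⟨σ, hσM'⟩ : M) ^ 2 ^ m)⁆ :
          Subgroup M).map M.subtype := by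
        rw [Subgroup.map_commutator, hPe, MonoidHom.map_zpowers, map_pow]
        exact hu
      obtain ⟨x, hx, hxy⟩ := h7
      have h8 : (⟨u, hPM huP⟩ : M) = x := Subtype.ext hxy.symm
      rw [h8]
      exact hx
    have key := of_irr_le ((Subgroup.zpowers σ).subgroupOf M) hAF
      (⟨u * y * u⁻¹ * y⁻¹, hgM⟩ : M) hQF hpow (finrank F V) (by
      intro V' _ _ _ ρ' hfr hnt hirr hV'
      let N : Subgroup M := MonoidHom.ker ρ'
      have hNn : N.Normal := MonoidHom.normal_ker ρ'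
      let ρ'' : Representation F (M ⧸ N) V' := QuotientGroup.lift N ρ' le_rfl
      have hρ'' : ∀ g, ρ'' (QuotientGroup.mk' N g) = ρ' g := fun g => rfl
      let f : M →* M ⧸ N := QuotientGroup.mk' N
      have hf : Function.Surjective f := QuotientGroup.mk'_surjective N
      have h1 := card_map_le f (P.subgroupOf M)
      have h2 := card_map_le f (Q.subgroupOf M)
      have h3 := core hr hs hr2 hs2 hrs h2F hsF IH ρ'' (m := m) (σ := f ⟨σ, hσM'⟩)
        (P := (P.subgroupOf M).map f) (Q := (Q.subgroupOf M).map f) (by omega)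
        ((hP.of_equiv (Subgroup.subgroupOfEquivOfLe hPM).symm).map f)
        ((hQ.of_equiv (Subgroup.subgroupOfEquivOfLe hQM).symm).map f)
        (by rw [← map_pow]; exact (congrArg f (Subtype.ext hσ)).trans (map_one f)) (by
          rw [← MonoidHom.map_zpowers]
          apply le_normalizer_of_conj
          rintro _ ⟨a, ha, rfl⟩ _ ⟨x, hx, rfl⟩
          exact ⟨a * x * a⁻¹, conj_of_le_normalizer (a := (a : Γ)) (x := (x : Γ)) hσP (hzM a ha) hx,
            by rw [map_mul, map_mul, map_inv]⟩) (by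
          rw [← MonoidHom.map_zpowers]
          apply le_normalizer_of_conj
          rintro _ ⟨a, ha, rfl⟩ _ ⟨x, hx, rfl⟩
          exact ⟨a * x * a⁻¹, conj_of_le_normalizer (a := (a : Γ)) (x := (x : Γ)) hσQ (hzM a ha) hx,
            by rw [map_mul, map_mul, map_inv]⟩) (by
          apply le_normalizer_of_conj
          rintro _ ⟨a, ha, rfl⟩ _ ⟨x, hx, rfl⟩
          exact ⟨a * x * a⁻¹, conj_of_le_normalizer (a := (a : Γ)) (x := (x : Γ)) hPQ ha hx,
            by rw [map_mul, map_mul, map_inv]⟩) (by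
          intro v hv
          apply hV'
          rintro ⟨a, ha'⟩ ha
          exact T2.pow_fixed ρ'  (σ := (⟨σ, hσM'⟩ : M)) hv ⟨a, ha'⟩ (by
            obtain ⟨i, hi⟩ := ha
            exact ⟨i, Subtype.ext hi⟩)) (by
          rw [← MonoidHom.map_zpowers, ← Subgroup.map_sup, ← Subgroup.map_sup, hgen,
            Subgroup.map_top_of_surjective _ hf]) hnt (by
          intro W hW
          exact hirr W (fun g w hw => hW (f g) w hw)) (by
          intro g hg
          obtain ⟨g, rfl⟩ := hf g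
          exact (QuotientGroup.eq_one_iff g).2 (MonoidHom.mem_ker.2 hg))
      have h4 := h3 (f ⟨u, hPM huP⟩) (by
        rw [← map_pow, ← MonoidHom.map_zpowers, ← Subgroup.map_commutator]
        exact ⟨_, huM, rfl⟩) (f ⟨y, hQM hy⟩) ⟨_, hy, rfl⟩
      have h5 : ρ' (⟨u, hPM huP⟩ * ⟨y, hQM hy⟩) = ρ' (⟨y, hQM hy⟩ * ⟨u, hPM huP⟩) := by
        have h7 := congrArg ρ'' h4
        rw [← map_mul f, ← map_mul f] at h7
        exact h7
      have h6 : (⟨u * y * u⁻¹ * y⁻¹, hgM⟩ : M) =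
          (⟨u, hPM huP⟩ * ⟨y, hQM hy⟩) * (⟨y, hQM hy⟩ * ⟨u, hPM huP⟩)⁻¹ := by
        apply Subtype.ext
        show u * y * u⁻¹ * y⁻¹ = (u * y) * (y * u)⁻¹
        group
      rw [h6, map_mul, h5, ← map_mul, mul_inv_cancel, map_one]) _ le_rfl V (ρ.comp M.subtype) rfl (by
      intro v hv
      exact hV v (hv ⟨σ, hσM'⟩ (Subgroup.mem_zpowers σ)))
    have h3 : ρ (u * y * u⁻¹ * y⁻¹) = 1 := key
    have h4 : u * y = (u * y * u⁻¹ * y⁻¹) * (y * u) := by group
    rw [h4, map_mul, h3, one_mul]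

theorem t3_two (m : ℕ) : T3 2 (Cyc.{u} 2 m) := by
  rintro Γ _ _ A D P Q r s F _ _ V _ _ _ ρ ⟨σ, rfl, rfl, hσ⟩ _ hr hs hr2 hs2 hrs hP hQ hσP hσQ hPQ
    _ _ h2F hsF hV u hu y hy
  exact goal_all hr hs hr2 hs2 hrs (by exact_mod_cast h2F) hsF _ Γ V ρ m σ P Q (Nat.lt_succ_self _)
    hP hQ hσ hσP hσQ hPQ (fun v hv => hV v (fun a ha => T2.pow_fixed ρ hv a ha)) u hu y hy

end Cfsg.Agent.H452.Gross
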