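import Mathlib
import Cfsg.Agent.H452.TopN
import Cfsg.Agent.H452.MinAct
import Cfsg.Agent.Solvable.FpfPrime

/-!
# From groups of automorphisms to subgroups of the semidirect product, and chains

* `HasChain G n` : `G` has a normal series of length `n` with nilpotent factors.
* `chain_of_surj` : if `f : G → H` is surjective with nilpotent kernel and `HasChain H n`, then
  `HasChain G (n + 1)`.
* `cfg_sd` : the configuration of the semidirect product `G ⋊ A`.
* `nilp_ext` : the external form of `isNilpotent_commutator`.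
* `quotAut`, `fpf_quot` : the induced automorphism of a quotient is fixed point free.
-/

set_option autoImplicit false

namespace Cfsg.Agent.H452.Ext

open Module SemidirectProduct
open scoped commutatorElement
open Cfsg.Agent.Lib.CoprimeCommutator
open Cfsg.Agent.H452.Base Cfsg.Agent.H452.TopN Cfsg.Agent.H452.MinAct

universe u

theorem lcs_mono {G : Type*} [Group G] {H K : Subgroup G} (h : H ≤ K) (k : ℕ) :
    H.lowerCentralSeries k ≤ K.lowerCentralSeries k := by
  induction k with
  | zero => exact h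
  | succ k ih =>
    rw [Subgroup.lowerCentralSeries_succ, Subgroup.lowerCentralSeries_succ]
    exact Subgroup.commutator_mono ih h

section chain

/-- `G` has a normal series of length `n` with nilpotent factors. -/
def HasChain (G : Type*) [Group G] (n : ℕ) : Prop :=
  ∃ F : Fin (n + 1) → Subgroup G, F 0 = ⊥ ∧ F (Fin.last n) = ⊤ ∧ Monotone F ∧
    (∀ i, (F i).Normal) ∧ ∀ i : Fin n, ∃ k : ℕ, (F i.succ).lowerCentralSeries k ≤ F i.castSucc

theorem hasChain_zero {G : Type*} [Group G] (h : ∀ g : G, g = 1) : HasChain G 0 := by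
  refine ⟨fun _ => ⊥, rfl, ?_, fun _ _ _ => le_rfl, fun _ => inferInstance, fun i => i.elim0⟩
  rw [eq_comm, eq_bot_iff]
  intro g _
  rw [h g]; exact Subgroup.one_mem _

theorem chain_of_surj {G H : Type*} [Group G] [Group H] {f : G →* H} (hf : Function.Surjective f)
    (hk : ∃ k, f.ker.lowerCentralSeries k = ⊥) {n : ℕ} (h : HasChain H n) : HasChain G (n + 1) := by
  obtain ⟨F, h0, h1, hm, hn, hs⟩ := h
  let F' : Fin (n + 1 + 1) → Subgroup G := Fin.cons ⊥ (fun i => (F i).comap f)
  have hF0 : F' 0 = ⊥ := rfl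
  have hFs : ∀ i : Fin (n + 1), F' i.succ = (F i).comap f := fun i => rfl
  refine ⟨F', hF0, ?_, ?_, ?_, ?_⟩
  · have : Fin.last (n + 1) = (Fin.last n).succ := rfl
    rw [this, hFs, h1, Subgroup.comap_top]
  · intro i j hij
    induction i using Fin.cases with
    | zero => rw [hF0]; exact bot_le
    | succ i =>
      induction j using Fin.cases with
      | zero =>
        exfalso
        exact absurd hij (not_le.2 (Fin.succ_pos i))
      | succ j =>
        rw [hFs, hFs]
        exact Subgroup.comap_mono (hm (Fin.succ_le_succ_iff.1 hij))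
  · intro i
    induction i using Fin.cases with
    | zero => rw [hF0]; infer_instance
    | succ i =>
      rw [hFs]
      exact (hn i).comap f
  · intro i
    induction i using Fin.cases with
    | zero =>
      obtain ⟨k, hk⟩ := hk
      refine ⟨k, ?_⟩
      have h2 : F' (Fin.succ 0) = f.ker := by
        rw [hFs, h0]; exact MonoidHom.comap_bot f
      rw [h2, hk]; exact bot_le
    | succ i =>
      obtain ⟨k, hk⟩ := hs i
      refine ⟨k, ?_⟩
      have h2 : i.succ.castSucc = i.castSucc.succ := rfl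
      rw [h2, hFs, hFs, ← Subgroup.map_le_iff_le_comap, Subgroup.map_lowerCentralSeries,
        Subgroup.map_comap_eq_self_of_surjective hf]
      exact hk

/-- gluing a nilpotent normal subgroup -/
theorem chain_of_quot {G : Type*} [Group G] (L : Subgroup G) [L.Normal] (hL : Group.IsNilpotent L)
    {n : ℕ} (h : HasChain (G ⧸ L) n) : HasChain G (n + 1) := by
  apply chain_of_surj (QuotientGroup.mk'_surjective L) _ h
  rw [QuotientGroup.ker_mk']
  exact (Subgroup.isNilpotent_iff_lowerCentralSeries L).1 hL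

/-- gluing a normal subgroup of height at most two -/
theorem chain_of_quot_two {G : Type*} [Group G] (N L : Subgroup G) [N.Normal] [L.Normal] (hNL : N ≤ L)
    (hN : Group.IsNilpotent N) (hL : ∃ k, L.lowerCentralSeries k ≤ N)
    {n : ℕ} (h : HasChain (G ⧸ L) n) : HasChain G (n + 2) := by
  apply chain_of_quot N hN
  let f : G ⧸ N →* G ⧸ L := QuotientGroup.map N L (MonoidHom.id G) hNL
  have hf : Function.Surjective f := by
    intro x
    obtain ⟨g, rfl⟩ := QuotientGroup.mk_surjective x
    exact ⟨QuotientGroup.mk g, rfl⟩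
  refine chain_of_surj hf ?_ h
  obtain ⟨k, hk⟩ := hL
  refine ⟨k, ?_⟩
  have h1 : f.ker = L.map (QuotientGroup.mk' N) := by
    ext x
    obtain ⟨g, rfl⟩ := QuotientGroup.mk_surjective x
    rw [MonoidHom.mem_ker]
    constructor
    · intro hx
      exact ⟨g, (QuotientGroup.eq_one_iff g).1 hx, rfl⟩
    · rintro ⟨g', hg', hgg⟩
      rw [← hgg]
      exact (QuotientGroup.eq_one_iff g').2 hg'
  rw [h1, ← Subgroup.map_lowerCentralSeries, Subgroup.map_eq_bot_iff, QuotientGroup.ker_mk']
  exact hk

end chain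

section sd

variable {G : Type u} [Group G] [Finite G]

theorem finite_sd (A : Subgroup (MulAut G)) : Finite (G ⋊[A.subtype] A) :=
  Finite.of_equiv _ (SemidirectProduct.equivProd (φ := A.subtype)).symm

/-- a `p`-group of automorphisms with no common fixed points acts on a `p'`-group. -/
theorem not_dvd_card {p : ℕ} [Fact p.Prime] (A : Subgroup (MulAut G)) (hA : IsPGroup p A)
    (hfpf : ∀ g : G, (∀ a ∈ A, a g = g) → g = 1) : ¬ p ∣ Nat.card G := by
  intro hd
  obtain ⟨g, hg, hg1⟩ := hA.exists_fixed_point_of_prime_dvd_card_of_fixed_point G hd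
    (a := (1 : G)) (by intro x; exact map_one (x : MulAut G))
  exact hg1 (hfpf g (fun a ha => hg ⟨a, ha⟩)).symm

theorem cfg_sd {p : ℕ} [Fact p.Prime] (hG : Group.IsSolvable G) (A : Subgroup (MulAut G))
    (hA : IsPGroup p A) (hfpf : ∀ g : G, (∀ a ∈ A, a g = g) → g = 1) :
    Cfg p (Γ := G ⋊[A.subtype] A) (inl : G →* G ⋊[A.subtype] A).range
      (inr : A →* G ⋊[A.subtype] A).range where
  normal := by
    rw [SemidirectProduct.range_inl_eq_ker_rightHom]
    exact MonoidHom.normal_ker _
  gen := by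
    rw [eq_top_iff]
    intro x _
    rw [← SemidirectProduct.inl_left_mul_inr_right x]
    exact Subgroup.mul_mem_sup ⟨_, rfl⟩ ⟨_, rfl⟩
  isp := hA.of_surjective (inr : A →* G ⋊[A.subtype] A).rangeRestrict
    (MonoidHom.rangeRestrict_surjective _)
  ndvd := by
    have h1 : Nat.card (inl : G →* G ⋊[A.subtype] A).range = Nat.card G :=
      Nat.card_congr (MonoidHom.ofInjective SemidirectProduct.inl_injective).toEquiv.symm
    rw [h1]
    exact not_dvd_card A hA hfpf
  fix := by
    rintro _ ⟨g, rfl⟩ h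
    have h1 : g = 1 := by
      apply hfpf
      intro a ha
      have h2 := h (inr ⟨a, ha⟩) ⟨_, rfl⟩
      apply SemidirectProduct.inl_injective (φ := A.subtype)
      have h3 := SemidirectProduct.inl_aut (φ := A.subtype) ⟨a, ha⟩ g
      rw [map_inv, h2, mul_inv_cancel_right] at h3
      exact h3
    rw [h1, map_one]
  sol := Group.isSolvable_of_surjective (MonoidHom.rangeRestrict_surjective (inl : G →* G ⋊[A.subtype] A))

omit [Finite G] in
/-- pulling back a normal subgroup of the semidirect product -/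
theorem comap_inl_inv {A : Subgroup (MulAut G)} {L : Subgroup (G ⋊[A.subtype] A)} (hL : L.Normal)
    {a : MulAut G} (ha : a ∈ A) {g : G} (hg : g ∈ L.comap inl) : a g ∈ L.comap inl := by
  rw [Subgroup.mem_comap] at hg ⊢
  have h3 := SemidirectProduct.inl_aut (φ := A.subtype) ⟨a, ha⟩ g
  have h4 : (inl (a g) : G ⋊[A.subtype] A) = inr ⟨a, ha⟩ * inl g * (inr ⟨a, ha⟩)⁻¹ := by
    rw [← map_inv]; exact h3
  rw [h4]
  exact hL.conj_mem _ hg _

omit [Finite G] in
theorem comap_inl_comm {A D : Subgroup (MulAut G)} (hDA : D ≤ A) {d : MulAut G} (hd : d ∈ D) (g : G) :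
    d g * g⁻¹ ∈ (⁅(inl : G →* G ⋊[A.subtype] A).range, (D.subgroupOf A).map inr⁆ :
      Subgroup (G ⋊[A.subtype] A)).comap inl := by
  rw [Subgroup.mem_comap]
  have h3 := SemidirectProduct.inl_aut (φ := A.subtype) ⟨d, hDA hd⟩ g
  have h4 : (inl (d g * g⁻¹) : G ⋊[A.subtype] A) =
      ⁅(inr (⟨d, hDA hd⟩ : A) : G ⋊[A.subtype] A), (inl g : G ⋊[A.subtype] A)⁆ := by
    rw [map_inv] at h3
    rw [map_mul, map_inv, commutatorElement_def]
    exact congrArg (· * (inl g)⁻¹) h3
  rw [h4, Subgroup.commutator_comm]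
  exact Subgroup.commutator_mem_commutator ⟨_, hd, rfl⟩ ⟨_, rfl⟩

omit [Finite G] in
theorem comap_lcs {A : Subgroup (MulAut G)} {L N : Subgroup (G ⋊[A.subtype] A)}
    (hL : L ≤ (inl : G →* G ⋊[A.subtype] A).range) {k : ℕ} (h : L.lowerCentralSeries k ≤ N) :
    (L.comap inl).lowerCentralSeries k ≤ N.comap inl := by
  rw [← Subgroup.map_le_iff_le_comap, Subgroup.map_lowerCentralSeries, Subgroup.map_comap_eq,
    inf_eq_right.2 hL]
  exact h

/-- **External form** of the nilpotency theorem. -/
theorem nilp_ext {p : ℕ} [Fact p.Prime] {PP : Pr.{u}} (hc : Closed p PP) (hT : T2 p PP)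
    (hG : Group.IsSolvable G) (A D : Subgroup (MulAut G)) (hDA : D ≤ A) (hA : IsPGroup p A)
    (hfpf : ∀ g : G, (∀ a ∈ A, a g = g) → g = 1)
    (hPP : PP (G ⋊[A.subtype] A) (inr : A →* G ⋊[A.subtype] A).range
      ((D.subgroupOf A).map (inr : A →* G ⋊[A.subtype] A))) :
    ∃ L : Subgroup G, L.Normal ∧ Group.IsNilpotent L ∧ (∀ a ∈ A, ∀ g ∈ L, a g ∈ L) ∧
      ∀ d ∈ D, ∀ g, d g * g⁻¹ ∈ L := by
  have hfin := finite_sd A
  have hcfg := cfg_sd hG A hA hfpf
  have hnil := isNilpotent_commutator hc hT _ _ _ _ _ rfl hcfg hPP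
  have hnorm : (⁅(inl : G →* G ⋊[A.subtype] A).range, (D.subgroupOf A).map inr⁆ :
      Subgroup (G ⋊[A.subtype] A)).Normal := hcfg.commutator_normal (hc.norm _ _ _ hPP)
  refine ⟨(⁅(inl : G →* G ⋊[A.subtype] A).range, (D.subgroupOf A).map inr⁆ :
      Subgroup (G ⋊[A.subtype] A)).comap inl, hnorm.comap _, ?_, ?_, ?_⟩
  · rw [Subgroup.isNilpotent_iff_lowerCentralSeries] at hnil ⊢
    obtain ⟨k, hk⟩ := hnil
    refine ⟨k, ?_⟩
    rw [eq_bot_iff]
    refine (comap_lcs (N := ⊥) (commutator_le_left (hcfg.le_normalizer _)) hk.le).trans ?_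
    intro x hx
    rw [Subgroup.mem_comap, Subgroup.mem_bot] at hx
    rw [Subgroup.mem_bot]
    exact SemidirectProduct.inl_injective (by rw [hx, map_one])
  · intro a ha g hg
    exact comap_inl_inv hnorm ha hg
  · intro d hd g
    exact comap_inl_comm hDA hd g

end sd

section quot

variable {G : Type u} [Group G] [Finite G]

/-- The automorphism induced on a quotient. -/
theorem exists_quotAut (L : Subgroup G) [L.Normal] (σ : MulAut G) (hσ : ∀ g ∈ L, σ g ∈ L)
    (hfpf : ∀ g : G, σ g = g → g = 1) :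
    ∃ τ : MulAut (G ⧸ L), (∀ g : G, τ (QuotientGroup.mk g) = QuotientGroup.mk (σ g)) ∧
      (∀ x, τ x = x → x = 1) := by
  have hmap : L.map (σ : G →* G) = L := by
    have h1 : L.map (σ : G →* G) ≤ L := by
      rintro _ ⟨g, hg, rfl⟩
      exact hσ g hg
    apply Subgroup.eq_of_le_of_card_ge h1
    rw [Subgroup.card_map_of_injective (f := (σ : G →* G)) σ.injective]
  refine ⟨QuotientGroup.congr L L σ hmap, fun g => rfl, ?_⟩
  intro x hx
  obtain ⟨g, rfl⟩ := QuotientGroup.mk_surjective x
  have h1 : (QuotientGroup.mk (σ g) : G ⧸ L) = QuotientGroup.mk g := hx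
  rw [QuotientGroup.eq] at h1
  exact (QuotientGroup.eq_one_iff g).2
    (Solvable.FpfPrime.mk_mem_of_fixed (φ := (σ : G →* G)) hfpf L hσ g h1)

omit [Finite G] in
theorem quotAut_pow {L : Subgroup G} [L.Normal] {σ : MulAut G} {τ : MulAut (G ⧸ L)}
    (h : ∀ g : G, τ (QuotientGroup.mk g) = QuotientGroup.mk (σ g)) (k : ℕ) (g : G) :
    (τ ^ k) (QuotientGroup.mk g) = QuotientGroup.mk ((σ ^ k) g) := by
  induction k with
  | zero => rfl
  | succ k ih => rw [pow_succ', pow_succ', MulAut.mul_apply, MulAut.mul_apply, ih, h]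

end quot

end Cfsg.Agent.H452.Ext
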