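import Mathlib
import Cfsg.Agent.H452.Ext
import Cfsg.Agent.H452.T2

/-!
# Fixed point free automorphisms of order `p ^ (m + 1)` with the two-step property

`nilp_cyc` : if `T2 p (Cyc p m)` holds and `σ ^ p ^ (m + 1) = 1`, `σ` fixed point free on the solvable group `G`,
there is a nilpotent normal `σ`-invariant subgroup `L` modulo which `σ ^ p ^ m` is trivial.
`order_four` : `σ ^ 4 = 1` and `σ` fixed point free imply that `G'` is nilpotent.
-/

set_option autoImplicit false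

namespace Cfsg.Agent.H452.Two

open SemidirectProduct
open Cfsg.Agent.H452.Base Cfsg.Agent.H452.TopN Cfsg.Agent.H452.T2 Cfsg.Agent.H452.Ext

universe u

theorem map_subgroupOf_zpowers {H : Type*} [Group H] (σ : H) (k : ℕ)
    {K : Type*} [Group K] (f : Subgroup.zpowers σ →* K) :
    ((Subgroup.zpowers (σ ^ k)).subgroupOf (Subgroup.zpowers σ)).map f =
      Subgroup.zpowers ((f ⟨σ, Subgroup.mem_zpowers σ⟩) ^ k) := by
  have h1 : (Subgroup.zpowers (σ ^ k)).subgroupOf (Subgroup.zpowers σ) =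
      Subgroup.zpowers ((⟨σ, Subgroup.mem_zpowers σ⟩ : Subgroup.zpowers σ) ^ k) := by
    apply Subgroup.map_injective (Subgroup.zpowers σ).subtype_injective
    rw [Subgroup.subgroupOf_map_subtype, inf_eq_left.2 (pow_mem_zpowers σ k), MonoidHom.map_zpowers]
    rfl
  rw [h1, MonoidHom.map_zpowers, map_pow]

theorem cyc_sd {G : Type u} [Group G] (σ : MulAut G) {p m : ℕ} (hσ : σ ^ p ^ (m + 1) = 1) :
    Cyc.{u} p m (G ⋊[(Subgroup.zpowers σ).subtype] (Subgroup.zpowers σ))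
      (inr : Subgroup.zpowers σ →* G ⋊[(Subgroup.zpowers σ).subtype] (Subgroup.zpowers σ)).range
      (((Subgroup.zpowers (σ ^ p ^ m)).subgroupOf (Subgroup.zpowers σ)).map
        (inr : Subgroup.zpowers σ →* G ⋊[(Subgroup.zpowers σ).subtype] (Subgroup.zpowers σ))) := by
  refine ⟨inr ⟨σ, Subgroup.mem_zpowers σ⟩, ?_, map_subgroupOf_zpowers σ _ _, ?_⟩
  · have h := map_subgroupOf_zpowers σ 1
      (inr : Subgroup.zpowers σ →* G ⋊[(Subgroup.zpowers σ).subtype] (Subgroup.zpowers σ))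
    rw [pow_one, pow_one, Subgroup.subgroupOf_self, ← MonoidHom.range_eq_map] at h
    exact h
  · rw [← map_pow]
    have h1 : (⟨σ, Subgroup.mem_zpowers σ⟩ : Subgroup.zpowers σ) ^ p ^ (m + 1) = 1 := Subtype.ext hσ
    rw [h1, map_one]

theorem fixed_zpowers {G : Type u} [Group G] {σ : MulAut G} (hfpf : ∀ g : G, σ g = g → g = 1) :
    ∀ g : G, (∀ a ∈ Subgroup.zpowers σ, a g = g) → g = 1 :=
  fun g hg => hfpf g (hg σ (Subgroup.mem_zpowers σ))

theorem nilp_cyc {p m : ℕ} [Fact p.Prime] (hT : T2 p (Cyc.{u} p m)) {G : Type u} [Group G] [Finite G]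
    (hG : Group.IsSolvable G) (σ : MulAut G) (hσ : σ ^ p ^ (m + 1) = 1)
    (hfpf : ∀ g : G, σ g = g → g = 1) :
    ∃ L : Subgroup G, L.Normal ∧ Group.IsNilpotent L ∧ (∀ g ∈ L, σ g ∈ L) ∧
      ∀ g, (σ ^ p ^ m) g * g⁻¹ ∈ L := by
  obtain ⟨L, h1, h2, h3, h4⟩ := nilp_ext (closed_cyc p m) hT hG (Subgroup.zpowers σ)
    (Subgroup.zpowers (σ ^ p ^ m)) (pow_mem_zpowers σ _) (isPGroup_zpowers hσ) (fixed_zpowers hfpf)
    (cyc_sd σ hσ)
  exact ⟨L, h1, h2, fun g hg => h3 σ (Subgroup.mem_zpowers σ) g hg,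
    fun g => h4 _ (Subgroup.mem_zpowers _) g⟩

/-- `σ ^ 4 = 1` and `σ` fixed point free imply that `G'` is nilpotent. -/
theorem order_four {G : Type u} [Group G] [Finite G] (hG : Group.IsSolvable G) (σ : MulAut G)
    (hσ : σ ^ 4 = 1) (hfpf : ∀ g : G, σ g = g → g = 1) :
    ∃ L : Subgroup G, L.Normal ∧ Group.IsNilpotent L ∧ commutator G ≤ L := by
  have : Fact (2 : ℕ).Prime := ⟨Nat.prime_two⟩
  obtain ⟨L, h1, h2, h3, h4⟩ := nilp_cyc (m := 1) t2_two hG σ hσ hfpf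
  refine ⟨L, h1, h2, ?_⟩
  obtain ⟨τ, hτ, hτf⟩ := exists_quotAut L σ h3 hfpf
  have hinv : Function.Involutive τ := by
    intro x
    obtain ⟨g, rfl⟩ := QuotientGroup.mk_surjective x
    have h5 := quotAut_pow hτ 2 g
    rw [pow_two, MulAut.mul_apply] at h5
    rw [h5, eq_comm, QuotientGroup.eq]
    have h6 := h1.conj_mem _ (h4 g) g⁻¹
    have h7 : g⁻¹ * ((σ ^ 2 ^ 1) g * g⁻¹) * g⁻¹⁻¹ = g⁻¹ * (σ ^ 2) g := by
      rw [pow_one]; group
    rw [h7] at h6
    exact h6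
  have hfpf' : MonoidHom.FixedPointFree τ := fun x hx => hτf x hx
  have hcomm := MonoidHom.FixedPointFree.commute_all_of_involutive hfpf' hinv
  have : IsMulCommutative (G ⧸ L) := ⟨⟨hcomm⟩⟩
  exact Subgroup.Normal.quotient_commutative_iff_commutator_le.mp this

end Cfsg.Agent.H452.Two
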