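import Mathlib
import Cfsg.Agent.H452.Two
import Cfsg.Agent.H452.T2Odd

/-!
# The Shult–Gross theorem for odd primes
-/

set_option autoImplicit false

namespace Cfsg.Agent.H452.OddExt

open Cfsg.Agent.H452.T2 Cfsg.Agent.H452.Ext Cfsg.Agent.H452.Two Cfsg.Agent.H452.T2Odd

universe u

/-- the automorphism induced on `G / L` has order dividing `k` if `σ ^ k` is trivial modulo `L` -/
theorem quot_pow_eq_one {G : Type u} [Group G] {L : Subgroup G} [hL : L.Normal] {σ : MulAut G}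
    {τ : MulAut (G ⧸ L)} (h : ∀ g : G, τ (QuotientGroup.mk g) = QuotientGroup.mk (σ g)) {k : ℕ}
    (hk : ∀ g, (σ ^ k) g * g⁻¹ ∈ L) : τ ^ k = 1 := by
  ext x
  obtain ⟨g, rfl⟩ := QuotientGroup.mk_surjective x
  rw [quotAut_pow h k g, MulAut.one_apply, eq_comm, QuotientGroup.eq]
  have h6 := hL.conj_mem _ (hk g) g⁻¹
  have h7 : g⁻¹ * ((σ ^ k) g * g⁻¹) * g⁻¹⁻¹ = g⁻¹ * (σ ^ k) g := by group
  rwa [h7] at h6

theorem shult_gross {p : ℕ} [Fact p.Prime] (hp2 : p ≠ 2) : ∀ (n : ℕ) (G : Type u) [Group G]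
    [Finite G], Group.IsSolvable G → ∀ σ : MulAut G, σ ^ p ^ n = 1 → (∀ g : G, σ g = g → g = 1) →
    HasChain G n := by
  intro n
  induction n with
  | zero =>
    intro G _ _ _ σ hσ hfpf
    rw [pow_zero, pow_one] at hσ
    apply hasChain_zero
    intro g
    apply hfpf
    rw [hσ]; rfl
  | succ n ih =>
    intro G _ _ hG σ hσ hfpf
    obtain ⟨L, h1, h2, h3, h4⟩ := nilp_cyc (m := n) (t2_odd hp2 n) hG σ hσ hfpf
    obtain ⟨τ, hτ, hτf⟩ := exists_quotAut L σ h3 hfpf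
    have hs : Group.IsSolvable (G ⧸ L) :=
      Group.isSolvable_of_surjective (QuotientGroup.mk'_surjective L)
    exact chain_of_quot L h2 (ih (G ⧸ L) hs τ (quot_pow_eq_one hτ h4) hτf)

end Cfsg.Agent.H452.OddExt
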