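import Mathlib
import Cfsg.Agent.H452.Gross
import Cfsg.Agent.H452.OddExt
import Cfsg.Agent.H452.ExtTwo

/-!
# Gross's theorem on fixed point free automorphisms of order `2 ^ n`
-/

set_option autoImplicit false

namespace Cfsg.Agent.H452.EvenExt

open Cfsg.Agent.H452.T2 Cfsg.Agent.H452.Ext Cfsg.Agent.H452.Two Cfsg.Agent.H452.T2Odd

universe u

theorem chain_two {G : Type u} [Group G] [Finite G] (hG : Group.IsSolvable G) (σ : MulAut G)
    (hσ : σ ^ 4 = 1) (hfpf : ∀ g : G, σ g = g → g = 1) : HasChain G 2 := by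
  obtain ⟨L, h1, h2, h3⟩ := order_four hG σ hσ hfpf
  have hcomm : IsMulCommutative (G ⧸ L) := Subgroup.Normal.quotient_commutative_iff_commutator_le.mpr h3
  refine chain_of_quot L h2 (chain_of_quot (⊤ : Subgroup (G ⧸ L)) ?_ ?_)
  · rw [Subgroup.isNilpotent_iff_lowerCentralSeries]
    refine ⟨1, ?_⟩
    rw [Subgroup.lowerCentralSeries_succ, MinAct.commutator_eq_bot_iff]
    intro x _ y _
    exact hcomm.1.comm x y
  · apply hasChain_zero
    intro g
    obtain ⟨x, rfl⟩ := QuotientGroup.mk_surjective g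
    exact (QuotientGroup.eq_one_iff x).2 (Subgroup.mem_top x)

theorem gross : ∀ (j : ℕ) (G : Type u) [Group G] [Finite G], Group.IsSolvable G → ∀ σ : MulAut G,
    σ ^ 2 ^ (j + 2) = 1 → (∀ g : G, σ g = g → g = 1) → HasChain G (2 * j + 2) := by
  have : Fact (2 : ℕ).Prime := ⟨Nat.prime_two⟩
  intro j
  induction j with
  | zero =>
    intro G _ _ hG σ hσ hfpf
    exact chain_two hG σ hσ hfpf
  | succ j ih =>
    intro G _ _ hG σ hσ hfpf
    obtain ⟨N, L, hN, hL, hNL, hNn, hk, hA, hD, -⟩ := ExtTwo.h2_ext (closed_cyc 2 (j + 2))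
      (Gross.t3_two (j + 2)) hG (Subgroup.zpowers σ) (Subgroup.zpowers (σ ^ 2 ^ (j + 2)))
      (pow_mem_zpowers σ _) (isPGroup_zpowers hσ) (fixed_zpowers hfpf) (cyc_sd σ hσ)
    obtain ⟨τ, hτ, hτf⟩ := exists_quotAut L σ (fun g hg => hA σ (Subgroup.mem_zpowers σ) g hg) hfpf
    have hs : Group.IsSolvable (G ⧸ L) :=
      Group.isSolvable_of_surjective (QuotientGroup.mk'_surjective L)
    have h1 := ih (G ⧸ L) hs τ
      (OddExt.quot_pow_eq_one hτ (fun g => hD _ (Subgroup.mem_zpowers _) g)) hτf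
    have h2 := chain_of_quot_two N L hNL hNn hk h1
    exact h2

end Cfsg.Agent.H452.EvenExt
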