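import Cfsg.Agent.H452.FprTabF4_3
import Cfsg.Agent.Nodes.KindF

/-!
# Mersenne primes: `F₄(q)`, `q` even
-/

set_option autoImplicit false

namespace Cfsg.Agent.H452.HeisC

open Cfsg.Lie Cfsg.Agent.H409

universe u

/-- an element of order `3` -/
def X3F : Matrix.SpecialLinearGroup (Fin 3) (ZMod 2) := ⟨!![1, 0, 0; 0, 1, 1; 0, 1, 0], by decide⟩

theorem X3F_pow : X3F ^ 3 = 1 := by
  apply Subtype.ext
  change (!![1, 0, 0; 0, 1, 1; 0, 1, 0] : Matrix (Fin 3) (Fin 3) (ZMod 2)) ^ 3 = 1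
  decide +kernel

theorem wpF_eq : tw (ZMod 2) TF4_3.wp = ⟨!![1, 1, 0; 0, 1, 1; 1, 1, 1], by decide⟩ := by
  apply Subtype.ext
  decide +kernel

theorem X3F_conj : X3F * tw (ZMod 2) TF4_3.wp = tw (ZMod 2) TF4_3.wp ^ 2 * X3F := by
  rw [wpF_eq]
  apply Subtype.ext
  change (!![1, 0, 0; 0, 1, 1; 0, 1, 0] : Matrix (Fin 3) (Fin 3) (ZMod 2)) * !![1, 1, 0; 0, 1, 1; 1, 1, 1] =
    !![1, 1, 0; 0, 1, 1; 1, 1, 1] ^ 2 * !![1, 0, 0; 0, 1, 1; 0, 1, 0]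
  decide +kernel

section

variable (K : Type u) [Field K] [Finite K] [CharP K 2]

theorem row_F4_seven : FprRow 8 1 7 ↥(chevF4.group K) :=
  TF4_3.tab.row (K := K) Cfsg.Agent.Nodes.KindF.isType (p := 7) (by norm_num) (by norm_num)

theorem row_F4_three : FprRow 4 1 3 ↥(chevF4.group K) :=
  TF4_3.tab.row_three (K := K) Cfsg.Agent.Nodes.KindF.isType X3F_pow X3F_conj

end

end Cfsg.Agent.H452.HeisC
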