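import Cfsg.Agent.H452.FprHeisV
import Cfsg.Agent.H452.FprHeisD
import Cfsg.Agent.H441.FPR.Even

/-!
# Heisenberg subgroups with large centre of Chevalley groups of characteristic two (table check)
-/

set_option autoImplicit false

namespace Cfsg.Agent.H452.HeisC

open Cfsg.Lie Cfsg.Agent.ChevalleyStructure Cfsg.Agent.ChevalleyStructure.Elts Cfsg.Agent.H79.SimpleGen
open Cfsg.Agent.H398.FPR Cfsg.Agent.H441.FPR Cfsg.Agent.H452.HeisT Cfsg.Agent.H452.FprHeis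
open Subgroup

universe u

/-- the odd terms -/
def oddT (l : List (ℕ × ℤ × ℕ × ℕ)) : List ℕ := (l.filter fun c => c.2.1 % 2 == 1).map Prod.fst

/-- the terms are even or linear in the second variable -/
def linT (l : List (ℕ × ℤ × ℕ × ℕ)) : Bool := l.all fun c => (c.2.1 % 2 == 0) || (c.2.1 % 2 == 1 && c.2.2.2 == 1)

/-- all terms are even -/
def evT (l : List (ℕ × ℤ × ℕ × ℕ)) : Bool := l.all fun c => c.2.1 % 2 == 0

/-- lookup in a table -/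
def lookl (M : List (ℕ × List (ℕ × List ℕ))) (a γ : ℕ) : List ℕ :=
  ((M.lookup a).bind fun L => L.lookup γ).getD []

/-- the table check -/
structure HOW (D : ChevalleyDatum) (z : ℕ) (Γ Γs : List ℕ) (M : List (ℕ × List (ℕ × List ℕ))) (w : List ℕ)
    (V : List (ℕ × List ℕ)) {N : ℕ} (bs cs : Fin N → ℕ) : Prop where
  zlt : z < D.nroots
  gam : ∀ γ ∈ Γ, γ < D.nroots ∧ EvC D z γ
  blk : ∀ e ∈ M, e.1 < D.nroots ∧ EvC D e.1 z
  act : ∀ e ∈ M, ∀ γ ∈ Γ, γ ≠ e.1 ∧ γ ≠ D.neg e.1 ∧ linT (D.commTerms e.1 γ) = true ∧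
    oddT (D.commTerms e.1 γ) = lookl M e.1 γ ∧ ∀ k ∈ lookl M e.1 γ, k ∈ Γ
  actS : ∀ e ∈ M, ∀ γ ∈ Γs, ∀ k ∈ lookl M e.1 γ, k ∈ Γs
  pair : ∀ β ∈ Γ, ∀ γ ∈ Γ, β < γ → γ ≠ D.neg β ∧ (evT (D.commTerms β γ) || isOne D β γ z) = true
  sh : ∀ β ∈ Γs, β ∈ Γ ∧ ∀ γ ∈ Γ, EvC D β γ
  wW : ∀ a ∈ w, a ∈ M.map Prod.fst
  V1 : ∀ e ∈ V, (∀ γ ∈ e.2, γ ∈ Γ) ∧ e.2.foldr toggle (actls (lookl M) w e.2) = [e.1] ∧
    (e.1 ∈ Γs → ∀ γ ∈ e.2, γ ∈ Γs)
  V2 : Γ = V.map Prod.fst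
  bc : ∀ i, bs i ∈ Γ ∧ cs i ∈ Γ ∧ cs i ≠ bs i ∧ cs i ≠ D.neg (bs i) ∧ isOne D (bs i) (cs i) z = true
  bc' : ∀ i j, j ≠ i → EvC D (bs i) (cs j)

section

variable {K : Type u} [Field K] {D : ChevalleyDatum} (hD : InList D)

theorem wd_lin (h2 : (2 : K) = 0) {l : List (ℕ × ℤ × ℕ × ℕ)} (h : linT l = true) (t : K) :
    wd hD l (-1) t = ((oddT l).map fun k => xS hD k t).prod := by
  unfold oddT
  induction l with
  | nil => rfl
  | cons c l ih =>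
    unfold linT at h
    rw [List.all_cons, Bool.and_eq_true] at h
    rw [wd_cons, ih h.2]
    have h3 := h.1
    rw [Bool.or_eq_true, Bool.and_eq_true, beq_iff_eq, beq_iff_eq, beq_iff_eq] at h3
    rcases h3 with h3 | ⟨h3, h4⟩
    · have h5 : ¬ ((c.2.1 % 2 == 1) = true) := by
        rw [beq_iff_eq, h3]; norm_num
      rw [List.filter_cons, if_neg h5, cast_even h2 h3, zero_mul, zero_mul, xS_zero, one_mul]
    · have h5 : (c.2.1 % 2 == 1) = true := by rw [beq_iff_eq, h3]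
      rw [List.filter_cons, if_pos h5, List.map_cons, List.map_cons, List.prod_cons, cast_odd h2 h3, h4, neg_neg,
        one_pow, one_mul, one_mul, pow_one]

theorem evT_comm (h2 : (2 : K) = 0) {r s : ℕ} (hr : r < D.nroots) (hs : s < D.nroots) (hrs : s ≠ r)
    (hn : s ≠ D.neg r) (h : evT (D.commTerms r s) = true) (t u : K) :
    xS hD r t * xS hD s u = xS hD s u * xS hD r t := by
  have h1 : EvC D r s := by
    refine ⟨hr, hs, Or.inr ⟨hrs, hn, ?_⟩⟩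
    intro c hc
    unfold evT at h
    rw [List.all_eq_true] at h
    have := h c hc
    rwa [beq_iff_eq] at this
  exact h1.comm hD h2 t u

variable {z : ℕ} {Γ Γs : List ℕ} {M : List (ℕ × List (ℕ × List ℕ))} {w : List ℕ} {V : List (ℕ × List ℕ)} {N : ℕ}
  {bs cs : Fin N → ℕ}

theorem HOW.cent (h : HOW D z Γ Γs M w V bs cs) (h2 : (2 : K) = 0) :
    ∀ y ∈ XR hD K z, ∀ t ∈ TT hD K Γ, y * t = t * y := by
  rintro y hy _ ⟨γ, hγ, t, rfl⟩
  obtain ⟨s, rfl⟩ := (mem_XR hD).1 hy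
  exact (h.gam γ hγ).2.comm hD h2 s t

theorem HOW.cent' (h : HOW D z Γ Γs M w V bs cs) (h2 : (2 : K) = 0) {γ : ℕ} (hγ : γ ∈ Γ) (s t : K) :
    xS hD z s * xS hD γ t = xS hD γ t * xS hD z s :=
  (h.gam γ hγ).2.comm hD h2 s t

theorem HOW.comm (h : HOW D z Γ Γs M w V bs cs) (h2 : (2 : K) = 0) :
    ∀ s ∈ TT hD K Γ, ∀ t ∈ TT hD K Γ, s * t * s⁻¹ * t⁻¹ ∈ XR hD K z := by
  have key : ∀ β ∈ Γ, ∀ γ ∈ Γ, β < γ → ∀ s t : K,
      xS hD β s * xS hD γ t * (xS hD β s)⁻¹ * (xS hD γ t)⁻¹ ∈ XR hD K z := by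
    intro β hβ γ hγ hlt s t
    obtain ⟨h1, h3⟩ := h.pair β hβ γ hγ hlt
    rw [Bool.or_eq_true] at h3
    rcases h3 with h3 | h3
    · have h4 := evT_comm hD h2 (h.gam β hβ).1 (h.gam γ hγ).1 hlt.ne' h1 h3 s t
      have h5 : xS hD β s * xS hD γ t * (xS hD β s)⁻¹ * (xS hD γ t)⁻¹ = 1 := by
        rw [h4]; group
      rw [h5]
      exact one_mem _
    · obtain ⟨N, -, h3⟩ := isOne_spec h3
      rw [xS_commutator hD (h.gam β hβ).1 (h.gam γ hγ).1 hlt.ne' h1 h3 (fun s t => h.cent' hD h2 hβ s t)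
        (fun s t => h.cent' hD h2 hγ s t)]
      exact (mem_XR hD).2 ⟨_, rfl⟩
  rintro _ ⟨β, hβ, s, rfl⟩ _ ⟨γ, hγ, t, rfl⟩
  rcases lt_trichotomy β γ with hlt | rfl | hlt
  · exact key β hβ γ hγ hlt s t
  · have h5 : xS hD β s * xS hD β t * (xS hD β s)⁻¹ * (xS hD β t)⁻¹ = 1 := by
      rw [xS_mul, add_comm, ← xS_mul]; group
    rw [h5]
    exact one_mem _
  · exact commutator_inv_mem (key γ hγ β hβ hlt t s)

theorem HOW.exists_comm (h : HOW D z Γ Γs M w V bs cs) (h2 : (2 : K) = 0) (i : Fin N) (t : K) :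
    ∃ s : K, xS hD (bs i) s * xS hD (cs i) 1 * (xS hD (bs i) s)⁻¹ * (xS hD (cs i) 1)⁻¹ = xS hD z t := by
  obtain ⟨h1, h12, h3, h4, h5⟩ := h.bc i
  obtain ⟨N, hN, h6⟩ := isOne_spec h5
  refine ⟨(N : K) * t, ?_⟩
  rw [xS_commutator hD (h.gam _ h1).1 (h.gam _ h12).1 h3 h4 h6 (fun s t => h.cent' hD h2 h1 s t)
        (fun s t => h.cent' hD h2 h12 s t)]
  congr 1
  have hNN : (N : K) * (N : K) = 1 := by
    rcases hN with rfl | rfl
    · rw [Int.cast_one, one_mul]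
    · rw [Int.cast_neg, Int.cast_one]; ring
  rw [mul_one, ← mul_assoc, hNN, one_mul]

theorem HOW.le (h : HOW D z Γ Γs M w V bs cs) (h2 : (2 : K) = 0) (i : Fin N) :
    XR hD K z ≤ Subgroup.closure (TT hD K Γ) := by
  intro y hy
  obtain ⟨t, rfl⟩ := (mem_XR hD).1 hy
  obtain ⟨s, hs⟩ := h.exists_comm hD h2 i t
  rw [← hs]
  have h1 := mem_TT hD (h.bc i).1 s
  have h2 := mem_TT hD (h.bc i).2.1 (1 : K)
  exact mul_mem (mul_mem (mul_mem h1 h2) (inv_mem h1)) (inv_mem h2)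

theorem HOW.conj (h : HOW D z Γ Γs M w V bs cs) (h2 : (2 : K) = 0) {a : ℕ} (ha : a ∈ M.map Prod.fst) {γ : ℕ}
    (hγ : γ ∈ Γ) (t : K) : xS hD a 1 * xS hD γ t * (xS hD a 1)⁻¹ =
      xS hD γ t * ((lookl M a γ).map fun k => xS hD k t).prod := by
  obtain ⟨e, he, rfl⟩ := List.mem_map.1 ha
  obtain ⟨h1, h3, h4, h5, h6⟩ := h.act e he γ hγ
  rw [conj_word hD (h.blk e he).1 (h.gam γ hγ).1 h1 h3, wd_lin hD h2 h4, h5]

theorem HOW.look_mem (h : HOW D z Γ Γs M w V bs cs) {a : ℕ} (ha : a ∈ M.map Prod.fst) {γ : ℕ}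
    (hγ : γ ∈ Γ) : ∀ k ∈ lookl M a γ, k ∈ Γ := by
  obtain ⟨e, he, rfl⟩ := List.mem_map.1 ha
  exact (h.act e he γ hγ).2.2.2.2

theorem HOW.look_mem' (h : HOW D z Γ Γs M w V bs cs) {a : ℕ} (ha : a ∈ M.map Prod.fst) {γ : ℕ}
    (hγ : γ ∈ Γs) : ∀ k ∈ lookl M a γ, k ∈ Γs := by
  obtain ⟨e, he, rfl⟩ := List.mem_map.1 ha
  exact h.actS e he γ hγ

theorem HOW.conj_mem (h : HOW D z Γ Γs M w V bs cs) (h2 : (2 : K) = 0) {a : ℕ} (ha : a ∈ M.map Prod.fst) :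
    ∀ r ∈ Subgroup.closure (TT hD K Γ), xS hD a 1 * r * (xS hD a 1)⁻¹ ∈ Subgroup.closure (TT hD K Γ) := by
  have h1 : Subgroup.closure (TT hD K Γ) ≤
      (Subgroup.closure (TT hD K Γ)).comap (MulAut.conj (xS hD a (1 : K))).toMonoidHom := by
    rw [closure_le]
    rintro _ ⟨γ, hγ, t, rfl⟩
    change xS hD a 1 * xS hD γ t * (xS hD a 1)⁻¹ ∈ Subgroup.closure (TT hD K Γ)
    rw [h.conj hD h2 ha hγ]
    refine mul_mem (mem_TT hD hγ t) ?_
    apply Subgroup.list_prod_mem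
    intro y hy
    obtain ⟨k, hk, rfl⟩ := List.mem_map.1 hy
    exact mem_TT hD (h.look_mem ha hγ k hk) t
  exact fun r hr => h1 hr

theorem HOW.yy_conj_mem (h : HOW D z Γ Γs M w V bs cs) (h2 : (2 : K) = 0) :
    ∀ r ∈ Subgroup.closure (TT hD K Γ), yy hD K w * r * (yy hD K w)⁻¹ ∈ Subgroup.closure (TT hD K Γ) := by
  have key : ∀ w' : List ℕ, (∀ a ∈ w', a ∈ M.map Prod.fst) → ∀ r ∈ Subgroup.closure (TT hD K Γ),
      yy hD K w' * r * (yy hD K w')⁻¹ ∈ Subgroup.closure (TT hD K Γ) := by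
    intro w'
    induction w' with
    | nil =>
      intro _ r hr
      have : yy hD K [] * r * (yy hD K [])⁻¹ = r := by simp [yy]
      rwa [this]
    | cons a w' ih =>
      intro hw r hr
      have h3 := h.conj_mem hD h2 (hw a List.mem_cons_self) _ (ih (fun b hb => hw b (List.mem_cons_of_mem _ hb)) r hr)
      have h4 : yy hD K (a :: w') = xS hD a 1 * yy hD K w' := rfl
      rw [h4]
      have h5 : xS hD a 1 * yy hD K w' * r * (xS hD a 1 * yy hD K w')⁻¹ =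
        xS hD a 1 * (yy hD K w' * r * (yy hD K w')⁻¹) * (xS hD a 1)⁻¹ := by group
      rwa [h5]
  exact key w h.wW

theorem HOW.fix1 (h : HOW D z Γ Γs M w V bs cs) (h2 : (2 : K) = 0) {a : ℕ} (ha : a ∈ M.map Prod.fst) :
    ∀ y ∈ XR hD K z, xS hD a 1 * y = y * xS hD a 1 := by
  intro y hy
  obtain ⟨t, rfl⟩ := (mem_XR hD).1 hy
  obtain ⟨e, he, rfl⟩ := List.mem_map.1 ha
  exact (h.blk e he).2.comm hD h2 1 t

theorem HOW.fix (h : HOW D z Γ Γs M w V bs cs) (h2 : (2 : K) = 0) :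
    ∀ y ∈ XR hD K z, yy hD K w * y = y * yy hD K w := by
  intro y hy
  have key : ∀ w' : List ℕ, (∀ a ∈ w', a ∈ M.map Prod.fst) → yy hD K w' * y = y * yy hD K w' := by
    intro w'
    induction w' with
    | nil => intro _; simp [yy]
    | cons a w' ih =>
      intro hw
      have h3 := h.fix1 hD h2 (hw a List.mem_cons_self) y hy
      have h4 := ih fun b hb => hw b (List.mem_cons_of_mem _ hb)
      have h5 : yy hD K (a :: w') = xS hD a 1 * yy hD K w' := rfl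
      rw [h5, mul_assoc, h4, ← mul_assoc, h3, mul_assoc]
  exact key w h.wW

/-- the calculus for a list of roots -/
theorem surj_list {Γ : List ℕ} {Z : Subgroup ↥(D.group K)} (h2 : (2 : K) = 0)
    (hc : ∀ z ∈ Z, ∀ t ∈ TT hD K Γ, z * t = t * z)
    (hd : ∀ s ∈ TT hD K Γ, ∀ t ∈ TT hD K Γ, s * t * s⁻¹ * t⁻¹ ∈ Z) (hle : Z ≤ Subgroup.closure (TT hD K Γ))
    {W : List ℕ} {m : ℕ → ℕ → List ℕ} (hx : ∀ a ∈ W, ∀ γ ∈ Γ, ∀ k ∈ m a γ, k ∈ Γ)
    (hx1 : ∀ a ∈ W, ∀ γ ∈ Γ, ∀ t : K, xS hD a 1 * xS hD γ t * (xS hD a 1)⁻¹ =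
      xS hD γ t * ((m a γ).map fun k => xS hD k t).prod)
    (hxZ : ∀ a ∈ W, ∀ z ∈ Z, xS hD a 1 * z = z * xS hD a 1) {w : List ℕ} (hw : ∀ a ∈ w, a ∈ W)
    {v : List ℕ} (hv : ∀ γ ∈ v, γ ∈ Γ) {β : ℕ} (hβ : β ∈ Γ) (hV : v.foldr toggle (actls m w v) = [β]) (t : K) :
    ∃ s ∈ Subgroup.closure (TT hD K Γ), (yy hD K w * s * (yy hD K w)⁻¹ * s⁻¹) * (xS hD β t)⁻¹ ∈ Z := by
  classical
  obtain ⟨A, hA, π, hπ⟩ := exists_quot (cent_of hc) (der_of hc hd)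
  let e : ℕ → A := fun γ => if hγ : γ ∈ Γ then π ⟨xS hD γ t, mem_TT hD hγ t⟩ else 1
  have hf : ∀ γ ∈ Γ, ∃ hγ : xS hD γ t ∈ Subgroup.closure (TT hD K Γ), π ⟨xS hD γ t, hγ⟩ = e γ := by
    intro γ hγ
    refine ⟨mem_TT hD hγ t, ?_⟩
    change _ = dite _ _ _
    rw [dif_pos hγ]
  have he : ∀ γ, e γ * e γ = 1 := by
    intro γ
    by_cases hγ : γ ∈ Γ
    · have h3 : e γ = π ⟨xS hD γ t, mem_TT hD hγ t⟩ := dif_pos hγ
      rw [h3, ← map_mul]
      have h4 : (⟨xS hD γ t, mem_TT hD hγ t⟩ * ⟨xS hD γ t, mem_TT hD hγ t⟩ :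
          ↥(Subgroup.closure (TT hD K Γ))) = 1 := by
        apply Subtype.ext
        change xS hD γ t * xS hD γ t = 1
        rw [xS_mul, ← two_mul, h2, zero_mul, xS_zero]
      rw [h4, map_one]
    · have h3 : e γ = 1 := dif_neg hγ
      rw [h3, mul_one]
  have h5 := surjl_of (π := π) hπ (f := fun γ => xS hD γ t) (e := e) hf he (W := W)
    (x := fun a => xS hD a 1) (m := m) hx (fun a ha γ hγ => hx1 a ha γ hγ t) hxZ hle (w := w) hw
    (v := v) hv (β := β) hβ hV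
  exact ⟨_, h5.1, h5.2⟩

/-- **The Heisenberg group of a table.** -/
theorem HOW.heis [Finite K] (h : HOW D z Γ Γs M w V bs cs) (h2 : (2 : K) = 0) (i : Fin N) :
    Heis (yy hD K w) (Subgroup.closure (TT hD K Γ)) (XR hD K z) := by
  have hfin : Finite ↥(D.group K) := inferInstance
  refine heis_of (h.le hD h2 i) (h.cent hD h2) (h.comm hD h2) (h.fix hD h2) ?_ ?_
  · intro t ht
    exact h.yy_conj_mem hD h2 t (subset_closure ht)
  · rintro _ ⟨β, hβ, t, rfl⟩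
    have hβ' := hβ
    rw [h.V2] at hβ
    obtain ⟨v, hv, hvβ⟩ := List.mem_map.1 hβ
    obtain ⟨v1, v2, -⟩ := h.V1 v hv
    rw [hvβ] at v2
    exact surj_list hD h2 (h.cent hD h2) (h.comm hD h2) (h.le hD h2 i) (W := M.map Prod.fst) (m := lookl M)
      (fun a ha γ hγ => h.look_mem ha hγ) (fun a ha γ hγ t => h.conj hD h2 ha hγ t) (fun a ha => h.fix1 hD h2 ha)
      h.wW v1 hβ' v2 t

/-- the small root subgroups are commutators with the element of the word -/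
theorem HOW.short (h : HOW D z Γ Γs M w V bs cs) (h2 : (2 : K) = 0) {β : ℕ} (hβ : β ∈ Γs) (t : K) :
    ∃ s ∈ Subgroup.closure (TT hD K Γ) ⊓ Subgroup.centralizer (Subgroup.closure (TT hD K Γ) : Set ↥(D.group K)),
      yy hD K w * s * (yy hD K w)⁻¹ * s⁻¹ = xS hD β t := by
  have hβ' := (h.sh β hβ).1
  rw [h.V2] at hβ'
  obtain ⟨v, hv, hvβ⟩ := List.mem_map.1 hβ'
  obtain ⟨-, v2, v3⟩ := h.V1 v hv
  rw [hvβ] at v2 v3
  have hd : ∀ s ∈ TT hD K Γs, ∀ t ∈ TT hD K Γs, s * t * s⁻¹ * t⁻¹ ∈ (⊥ : Subgroup ↥(D.group K)) := by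
    rintro _ ⟨a, ha, s, rfl⟩ _ ⟨b, hb, t, rfl⟩
    have h4 := ((h.sh a ha).2 b (h.sh b hb).1).comm hD h2 s t
    rw [mem_bot]
    rw [h4.eq]
    group
  obtain ⟨s, hs, hs1⟩ := surj_list hD h2 (Z := ⊥) (Γ := Γs) (by
      intro z hz t _
      rw [mem_bot] at hz
      rw [hz, one_mul, mul_one]) hd bot_le (W := M.map Prod.fst) (m := lookl M)
      (fun a ha γ hγ => h.look_mem' ha hγ) (fun a ha γ hγ t => h.conj hD h2 ha (h.sh γ hγ).1 t) (by
        intro a _ z hz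
        rw [mem_bot] at hz
        rw [hz, one_mul, mul_one]) h.wW (v3 hβ) hβ v2 t
  rw [mem_bot, mul_inv_eq_one] at hs1
  refine ⟨s, ?_, hs1⟩
  have h5 : Subgroup.closure (TT hD K Γs) ≤ Subgroup.closure (TT hD K Γ) ⊓
      Subgroup.centralizer (Subgroup.closure (TT hD K Γ) : Set ↥(D.group K)) := by
    rw [closure_le]
    rintro _ ⟨γ, hγ, t, rfl⟩
    refine mem_inf.2 ⟨mem_TT hD (h.sh γ hγ).1 t, ?_⟩
    rw [mem_centralizer_iff]
    intro r hr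
    have h6 : Subgroup.closure (TT hD K Γ) ≤ Subgroup.centralizer {xS hD γ t} := by
      rw [closure_le]
      rintro _ ⟨δ, hδ, u, rfl⟩
      change xS hD δ u ∈ Subgroup.centralizer {xS hD γ t}
      rw [mem_centralizer_singleton_iff]
      exact (((h.sh γ hγ).2 δ hδ).comm hD h2 t u).eq.symm
    have h7 := h6 hr
    rw [mem_centralizer_singleton_iff] at h7
    exact h7
  exact h5 hs

theorem HOW.big [Finite K] (h : HOW D z Γ Γs M w V bs cs) (h2 : (2 : K) = 0) {k : ℕ} (hk : 2 * k ≤ N) :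
    2 ^ k * (Nat.card (XR hD K z) ^ k * Nat.card ↥(Subgroup.closure (TT hD K Γ) ⊓
      Subgroup.centralizer (Subgroup.closure (TT hD K Γ) : Set ↥(D.group K)))) ≤
      Nat.card ↥(Subgroup.closure (TT hD K Γ)) := by
  have hfin : Finite ↥(D.group K) := inferInstance
  have h1 := big_of (R := Subgroup.closure (TT hD K Γ)) (Z := XR hD K z) (cent_of (h.cent (K := K) hD h2))
    (der_of (h.cent (K := K) hD h2) (h.comm hD h2)) (N := N) (c := fun i => xS hD (cs i) (1 : K))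
    (fun i => mem_TT hD (h.bc i).2.1 1) (by
      intro i y hy
      obtain ⟨t, rfl⟩ := (mem_XR hD).1 hy
      obtain ⟨s, hs⟩ := h.exists_comm hD h2 i t
      refine ⟨_, mem_TT hD (h.bc i).1 s, hs, ?_⟩
      intro j hj
      exact ((h.bc' i j hj).comm hD h2 s 1).eq)
  obtain ⟨W, hW⟩ : ∃ W, W = Nat.card ↥(Subgroup.closure (TT hD K Γ) ⊓
      Subgroup.centralizer (Subgroup.closure (TT hD K Γ) : Set ↥(D.group K))) := ⟨_, rfl⟩
  obtain ⟨q, hq⟩ : ∃ q, q = Nat.card (XR hD K z) := ⟨_, rfl⟩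
  have h2 := card_XR hD (K := K) h.zlt
  rw [← hW, ← hq] at h1 ⊢
  rw [← hq] at h2
  calc 2 ^ k * (q ^ k * W) ≤ q ^ k * (q ^ k * W) :=
        Nat.mul_le_mul_right _ (Nat.pow_le_pow_left h2 _)
    _ = q ^ (2 * k) * W := by rw [← mul_assoc, ← pow_add]; congr 2; ring
    _ ≤ q ^ N * W := Nat.mul_le_mul_right _ (Nat.pow_le_pow_right (by omega) hk)
    _ ≤ _ := h1

/-- generation -/
def GOK (D : ChevalleyDatum) (S : List ℕ) (steps : List (ℕ × ℕ)) : Prop := AllS D (gal D [] [] S steps)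

instance (S : List ℕ) (steps : List (ℕ × ℕ)) : Decidable (GOK D S steps) := by
  unfold GOK; infer_instance

theorem GOK.top {S : List ℕ} {steps : List (ℕ × ℕ)} (h : GOK D S steps) {H : Subgroup ↥(D.group K)}
    (hS : ∀ k ∈ S, ∀ t : K, xS hD k t ∈ H) : H = ⊤ := by
  have h1 := gal_sound hD (M := H) (L := []) (Γ := []) (fun r hr => absurd hr List.not_mem_nil) steps hS
  exact eq_top_of_simple hD H (fun i hi => h1 _ (h i hi).1) (fun i hi => h1 _ (h i hi).2)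

/-- **The ratio from two tables.** -/
theorem uGoodW_of [Finite K] {P : List (ℕ × ℕ)} {z z' : ℕ} {Γ Γ' Γs Γs' : List ℕ}
    {M M' : List (ℕ × List (ℕ × List ℕ))} {w : List ℕ}
    {V V' : List (ℕ × List ℕ)}
    {bs cs bs' cs' : Fin N → ℕ} (h : HOW D z Γ Γs M w V bs cs)
    (h' : HOW D z' Γ' Γs' M' w V' bs' cs')
    (hP : ∀ e ∈ P, e.1 ∈ Γ ∧ e.2 ∈ Γ' ∧ e.1 ≠ z' ∧ e.1 ≠ D.neg z' ∧ e.2 ≠ z ∧ e.2 ≠ D.neg z ∧
      isOne D z' e.1 e.2 = true ∧ isOne D z e.2 e.1 = true)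
    {s1 s2 s3 s4 : List (ℕ × ℕ)} (hg1 : GOK D (z :: Γ ++ P.map Prod.snd) s1)
    (hg2 : GOK D (z' :: Γ' ++ P.map Prod.fst) s2)
    (hg3 : GOK D (z :: Γ ++ Γs') s3) (hg4 : GOK D (z' :: Γ' ++ Γs) s4)
    (h2 : (2 : K) = 0) {p k j : ℕ} (hp : p.Prime) (hpk : p + 1 = 2 ^ k) (hk0 : 1 ≤ k) (hk : 2 * k ≤ N)
    (hy : yy hD K w ^ p ^ j = 1) : UGood 1 (p + 1) (yy hD K w) := by
  have hfin : Finite ↥(D.group K) := inferInstance
  have i0 : Fin N := ⟨0, by omega⟩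
  have hcomm : ∀ {z : ℕ} {Γ Γs : List ℕ} {M : List (ℕ × List (ℕ × List ℕ))} {V : List (ℕ × List ℕ)}
      {bs cs : Fin N → ℕ}, HOW D z Γ Γs M w V bs cs → ∀ y ∈ XR hD K z,
        ∃ a ∈ Subgroup.closure (TT hD K Γ), ∃ b ∈ Subgroup.closure (TT hD K Γ), y = a * b * a⁻¹ * b⁻¹ := by
    intro z Γ Γs M V bs cs h y hy
    obtain ⟨t, rfl⟩ := (mem_XR hD).1 hy
    obtain ⟨s, hs⟩ := h.exists_comm hD h2 i0 t
    exact ⟨_, mem_TT hD (h.bc i0).1 s, _, mem_TT hD (h.bc i0).2.1 1, hs.symm⟩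
  have hbase : ∀ {z : ℕ} {Γ Γs : List ℕ} {M : List (ℕ × List (ℕ × List ℕ))} {V : List (ℕ × List ℕ)}
      {bs cs : Fin N → ℕ}, HOW D z Γ Γs M w V bs cs → ∀ H : Subgroup ↥(D.group K),
        Subgroup.closure (TT hD K Γ) ≤ H → ∀ k ∈ z :: Γ, ∀ t : K, xS hD k t ∈ H := by
    intro z Γ Γs M V bs cs h H hH k hk t
    rcases List.mem_cons.1 hk with rfl | hk
    · exact hH (h.le hD h2 i0 ((mem_XR hD).2 ⟨t, rfl⟩))
    · exact hH (mem_TT hD hk t)
  have step : ∀ {z a b : ℕ}, z < D.nroots → a < D.nroots → a ≠ z → a ≠ D.neg z → isOne D z a b = true →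
      ∀ H : Subgroup ↥(D.group K), (∀ t : K, xS hD a t ∈ H) → ∀ c : K, c ≠ 0 → xS hD z c ∈ H →
        ∀ t : K, xS hD b t ∈ H := by
    intro z a b hz ha h3 h4 h5 H hH c hc hcH t
    obtain ⟨N, hN, h6⟩ := isOne_spec h5
    have hNN : (N : K) * (N : K) = 1 := by
      rcases hN with rfl | rfl
      · rw [Int.cast_one, one_mul]
      · rw [Int.cast_neg, Int.cast_one]; ring
    have h7 := xS_one hD (K := K) hz ha h3 h4 h6 c ((N : K) * c⁻¹ * t)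
    have h8 : (N : K) * c * ((N : K) * c⁻¹ * t) = t := by
      calc (N : K) * c * ((N : K) * c⁻¹ * t) = ((N : K) * (N : K)) * (c * c⁻¹) * t := by ring
        _ = t := by rw [hNN, mul_inv_cancel₀ hc]; ring
    rw [h8] at h7
    have h9 : xS hD b t = (xS hD a ((N : K) * c⁻¹ * t) * xS hD z c)⁻¹ * (xS hD z c * xS hD a ((N : K) * c⁻¹ * t)) := by
      rw [h7]; group
    rw [h9]
    exact mul_mem (inv_mem (mul_mem (hH _) hcH)) (mul_mem hcH (hH _))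
  refine heis_mersenne_W (k := k) (j := j) hp hpk hy (h.heis hD h2 i0) (h'.heis hD h2 i0) (hcomm h) (hcomm h')
    (fun g hg ha => mem_inf.2 ⟨hg, mem_centralizer_iff.2 fun a haR => (ha a haR).symm⟩)
    (fun g hg ha => mem_inf.2 ⟨hg, mem_centralizer_iff.2 fun a haR => (ha a haR).symm⟩)
    (h.big hD h2 hk) (h'.big hD h2 hk) ?_ ?_ ?_ ?_
  · intro H hH y hy hy1 hyH
    obtain ⟨c, rfl⟩ := (mem_XR hD).1 hy
    have hc : c ≠ 0 := by
      rintro rfl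
      exact hy1 (xS_zero hD z')
    apply hg1.top hD
    intro k hk t
    rcases List.mem_append.1 hk with hk | hk
    · exact hbase h H hH k hk t
    · obtain ⟨e, he, rfl⟩ := List.mem_map.1 hk
      obtain ⟨a1, a2, e1, e2, e3, e4, e5, e6⟩ := hP e he
      exact step h'.zlt (h.gam _ a1).1 e1 e2 e5 H (fun t => hH (mem_TT hD a1 t)) c hc hyH t
  · intro H hH y hy hy1 hyH
    obtain ⟨c, rfl⟩ := (mem_XR hD).1 hy
    have hc : c ≠ 0 := by
      rintro rfl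
      exact hy1 (xS_zero hD z)
    apply hg2.top hD
    intro k hk t
    rcases List.mem_append.1 hk with hk | hk
    · exact hbase h' H hH k hk t
    · obtain ⟨e, he, rfl⟩ := List.mem_map.1 hk
      obtain ⟨a1, a2, e1, e2, e3, e4, e5, e6⟩ := hP e he
      exact step h.zlt (h'.gam _ a2).1 e3 e4 e6 H (fun t => hH (mem_TT hD a2 t)) c hc hyH t
  · intro H hH hW
    apply hg3.top hD
    intro k hk t
    rcases List.mem_append.1 hk with hk | hk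
    · exact hbase h H hH k hk t
    · obtain ⟨s, hs, hs1⟩ := h'.short hD h2 hk t
      rw [← hs1]
      exact hW s hs
  · intro H hH hW
    apply hg4.top hD
    intro k hk t
    rcases List.mem_append.1 hk with hk | hk
    · exact hbase h' H hH k hk t
    · obtain ⟨s, hs, hs1⟩ := h.short hD h2 hk t
      rw [← hs1]
      exact hW s hs

end

end Cfsg.Agent.H452.HeisC
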