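import Cfsg.Agent.H452.FprHeisF

/-!
# The rows of a table with large centre
-/

set_option autoImplicit false

namespace Cfsg.Agent.H452.HeisC

open Cfsg.Lie Cfsg.Agent.ChevalleyStructure Cfsg.Agent.ChevalleyStructure.Elts Cfsg.Agent.H79.SimpleGen
open Cfsg.Agent.H398.FPR Cfsg.Agent.H441.FPR Cfsg.Agent.H452.HeisT Cfsg.Agent.H452.FprHeis
open Cfsg.Agent.TitsThree.KExcRT Cfsg.Agent.ChevalleyStructure.RootVec Cfsg.Agent.Nodes.RGDChev
open Cfsg.Agent.H409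
open Subgroup

universe u

/-- the complete table -/
structure TOW (D : ChevalleyDatum) {n : ℕ} (r : Fin (n + 3) → Fin (n + 3) → ℕ) (ε : ℤ)
    (wp : List (Fin (n + 3) × Fin (n + 3))) (B : Fin (n + 4) → Matrix (Fin (n + 3)) (Fin (n + 3)) (ZMod 2))
    (z z' : ℕ) (P : List (ℕ × ℕ)) (Γ Γ' Γs Γs' : List ℕ) (M M' : List (ℕ × List (ℕ × List ℕ))) (w : List ℕ)
    (V V' : List (ℕ × List ℕ)) {N : ℕ} (bs cs bs' cs' : Fin N → ℕ) (s1 s2 s3 s4 : List (ℕ × ℕ)) : Prop where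
  he : ε = 1 ∨ ε = -1
  ra : RTa D r
  rb : RTb D r fun _ _ => ε
  rc : RTc D r
  rn : ∀ i j, i ≠ j → r j i = D.neg (r i j)
  hw : (wp.map fun e => r e.1 e.2) = w
  hne : ∀ e ∈ wp, e.1 ≠ e.2
  B0 : (wp.map fun e => if e.1 ≠ e.2 then Matrix.transvection e.1 e.2 (1 : ZMod 2) else 1).prod = B 0
  hB : ∀ i : Fin (n + 3), B i.castSucc * B i.castSucc = B i.succ
  hBk : B (Fin.last (n + 3)) = B 0
  h : HOW D z Γ Γs M w V bs cs
  h' : HOW D z' Γ' Γs' M' w V' bs' cs'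
  hP : ∀ e ∈ P, e.1 ∈ Γ ∧ e.2 ∈ Γ' ∧ e.1 ≠ z' ∧ e.1 ≠ D.neg z' ∧ e.2 ≠ z ∧ e.2 ≠ D.neg z ∧
      isOne D z' e.1 e.2 = true ∧ isOne D z e.2 e.1 = true
  hg1 : GOK D (z :: Γ ++ P.map Prod.snd) s1
  hg2 : GOK D (z' :: Γ' ++ P.map Prod.fst) s2
  hg3 : GOK D (z :: Γ ++ Γs') s3
  hg4 : GOK D (z' :: Γ' ++ Γs) s4
  hN : 2 * (n + 3) ≤ N

section

variable {K : Type u} [Field K] {D : ChevalleyDatum} {n : ℕ} {r : Fin (n + 3) → Fin (n + 3) → ℕ} {ε : ℤ}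
    {wp : List (Fin (n + 3) × Fin (n + 3))} {B : Fin (n + 4) → Matrix (Fin (n + 3)) (Fin (n + 3)) (ZMod 2)}
    {z z' : ℕ} {P : List (ℕ × ℕ)} {Γ Γ' Γs Γs' : List ℕ} {M M' : List (ℕ × List (ℕ × List ℕ))} {w : List ℕ}
    {V V' : List (ℕ × List ℕ)} {N : ℕ} {bs cs bs' cs' : Fin N → ℕ} {s1 s2 s3 s4 : List (ℕ × ℕ)}

/-- **The element of order `2 ^ k - 1`.** -/
theorem TOW.main [Finite K] [CharP K 2]
    (T : TOW D r ε wp B z z' P Γ Γ' Γs Γs' M M' w V V' bs cs bs' cs' s1 s2 s3 s4)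
    {l : ℕ} {C : CoxeterMatrix (Fin l)} (hp : IsType D l C) {p : ℕ} (hpp : p.Prime) (hpk : p + 1 = 2 ^ (n + 3)) :
    ∃ ψ : Matrix.SpecialLinearGroup (Fin (n + 3)) (ZMod 2) →* ↥(D.group K),
      tw (ZMod 2) wp ^ p = 1 ∧ ψ (tw (ZMod 2) wp) ≠ 1 ∧ UGood 1 (p + 1) (ψ (tw (ZMod 2) wp)) := by
  have hfin : Finite ↥(D.group K) := inferInstance
  have h2 : (2 : K) = 0 := by
    have := CharP.cast_eq_zero K 2
    exact_mod_cast this
  obtain ⟨ψ, hψ⟩ := exists_phi0 (K := K) hp T.he T.ra T.rb T.rc T.rn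
  have hpow : tw (ZMod 2) wp ^ p = 1 := by
    have h1 := tw_pow T.B0 T.hB T.hBk
    rw [← hpk, Nat.add_sub_cancel] at h1
    exact h1
  have hy : ψ (tw (ZMod 2) wp) = yy hp.inList K w := by
    rw [hψ wp T.hne, T.hw]
  have i0 : Fin N := ⟨0, by have := T.hN; omega⟩
  have hU := uGoodW_of hp.inList (K := K) T.h T.h' T.hP T.hg1 T.hg2 T.hg3 T.hg4 h2 (p := p) (j := 1) hpp hpk
    (by omega) T.hN (by rw [← hy, ← map_pow, pow_one, hpow, map_one])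
  refine ⟨ψ, hpow, ?_, by rw [hy]; exact hU⟩
  rw [hy]
  intro h1
  have hH := T.h.heis hp.inList (K := K) h2 i0
  rw [h1] at hH
  have hall : ∀ g ∈ Subgroup.closure (TT hp.inList K Γ), g ∈ XR hp.inList K z := by
    intro g hg
    apply hH.free g hg
    have : (1 : ↥(D.group K)) * g * 1⁻¹ * g⁻¹ = 1 := by group
    rw [this]
    exact one_mem _
  obtain ⟨s, hs⟩ := T.h.exists_comm hp.inList (K := K) h2 i0 1
  have k1 := mem_TT hp.inList (T.h.bc i0).1 s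
  have k2 := mem_TT hp.inList (T.h.bc i0).2.1 (1 : K)
  have k3 := hH.cent _ (hall _ k1) _ k2
  rw [k3] at hs
  have k4 : xS hp.inList z (1 : K) = xS hp.inList z 0 := by
    rw [xS_zero, ← hs]; group
  exact one_ne_zero (xS_injective hp.inList T.h.zlt k4)

/-- **The row of a table.** -/
theorem TOW.row [Finite K] [CharP K 2]
    (T : TOW D r ε wp B z z' P Γ Γ' Γs Γs' M M' w V V' bs cs bs' cs' s1 s2 s3 s4)
    {l : ℕ} {C : CoxeterMatrix (Fin l)} (hp : IsType D l C) {p : ℕ} (hpp : p.Prime) (hpk : p + 1 = 2 ^ (n + 3)) :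
    FprRow (p + 1) 1 p ↥(D.group K) := by
  obtain ⟨ψ, h1, -, h3⟩ := T.main (K := K) hp hpp hpk
  refine row_of_uGood (k := 1) hpp ?_ h3
  rw [pow_one, ← map_pow, h1, map_one]

end

section

variable {K : Type u} [Field K] {D : ChevalleyDatum} {r : Fin (0 + 3) → Fin (0 + 3) → ℕ} {ε : ℤ}
    {wp : List (Fin (0 + 3) × Fin (0 + 3))} {B : Fin (0 + 4) → Matrix (Fin (0 + 3)) (Fin (0 + 3)) (ZMod 2)}
    {z z' : ℕ} {P : List (ℕ × ℕ)} {Γ Γ' Γs Γs' : List ℕ} {M M' : List (ℕ × List (ℕ × List ℕ))} {w : List ℕ}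
    {V V' : List (ℕ × List ℕ)} {N : ℕ} {bs cs bs' cs' : Fin N → ℕ} {s1 s2 s3 s4 : List (ℕ × ℕ)}

/-- **The prime `3` from the prime `7`.** -/
theorem TOW.row_three [Finite K] [CharP K 2]
    (T : TOW D r ε wp B z z' P Γ Γ' Γs Γs' M M' w V V' bs cs bs' cs' s1 s2 s3 s4)
    {l : ℕ} {C : CoxeterMatrix (Fin l)} (hp : IsType D l C) {X : Matrix.SpecialLinearGroup (Fin 3) (ZMod 2)}
    (hX3 : X ^ 3 = 1) (hX : X * tw (ZMod 2) wp = tw (ZMod 2) wp ^ 2 * X) :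
    FprRow 4 1 3 ↥(D.group K) := by
  have hfin : Finite ↥(D.group K) := inferInstance
  obtain ⟨ψ, h1, h2, h3⟩ := T.main (K := K) hp (p := 7) (by norm_num) (by norm_num)
  have ho : orderOf (ψ (tw (ZMod 2) wp)) = 7 := by
    have := Fact.mk (by norm_num : Nat.Prime 7)
    apply orderOf_eq_prime
    · rw [← map_pow, h1, map_one]
    · exact h2
  have hx : ψ X * ψ (tw (ZMod 2) wp) * (ψ X)⁻¹ = ψ (tw (ZMod 2) wp) ^ 2 := by
    rw [← map_mul, hX, map_mul, map_pow, mul_inv_cancel_right]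
  have hf : FreeOn (ψ X) (zpowers (ψ (tw (ZMod 2) wp))) := by
    refine freeOn_zpowers (by norm_num : Nat.Prime 7) ho hx ?_
    intro hcomm
    rw [hcomm, mul_inv_cancel_right, pow_two] at hx
    exact h2 (mul_eq_left.1 hx.symm)
  refine row_of_uGood (k := 1) Nat.prime_three (x := ψ X) ?_ (three_of_seven ho hf h3)
  rw [pow_one, ← map_pow, hX3, map_one]

end

end Cfsg.Agent.H452.HeisC
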